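/-
Second moment counting in finite abelian groups.
-/
import Mathlib
set_option autoImplicit false

namespace Cfsg.Agent.Lib.SUMon.Sums

open Finset

variable {G : Type*} [AddCommGroup G] [Fintype G] [DecidableEq G]
variable {A B U : Type*} [Fintype A] [Fintype B] [Fintype U] [DecidableEq A] [DecidableEq B] [DecidableEq U]

/-- The number of pairs with a given difference. -/
def K (ψ : A → G) (x : G) : ℕ := (univ.filter fun p : A × A => ψ p.1 - ψ p.2 = x).card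

/-- The number of representations. -/
def R (ψ : A → G) (x : G) : ℕ := (univ.filter fun a : A => ψ a = x).card

/-- The number of solutions of `ψ₁ a + ψ₂ b = w`. -/
def Nn (ψ₁ : A → G) (ψ₂ : B → G) (w : G) : ℕ := (univ.filter fun p : A × B => ψ₁ p.1 + ψ₂ p.2 = w).card

theorem sum_R (ψ : A → G) : ∑ x, R ψ x = Fintype.card A := by
  have := Finset.card_eq_sum_card_fiberwise (f := ψ) (s := (univ : Finset A)) (t := (univ : Finset G))
    (fun _ _ => mem_univ _)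
  rw [card_univ] at this
  exact this.symm

theorem sum_R_sq (ψ : A → G) : ∑ x, (R ψ x) ^ 2 = K ψ 0 := by
  have := Finset.card_eq_sum_card_fiberwise (f := fun p : A × A => ψ p.1)
    (s := (univ.filter fun p : A × A => ψ p.1 - ψ p.2 = 0)) (t := (univ : Finset G))
    (fun _ _ => mem_univ _)
  rw [K, this]
  refine sum_congr rfl fun x _ => ?_
  rw [R, sq, ← card_product]
  congr 1
  ext ⟨a, b⟩
  simp only [mem_product, mem_filter, mem_univ, true_and, sub_eq_zero]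
  constructor
  · rintro ⟨h1, h2⟩
    exact ⟨by rw [h1, h2], h1⟩
  · rintro ⟨h1, h2⟩
    exact ⟨h2, by rw [← h1, h2]⟩

theorem Nn_eq (ψ₁ : A → G) (ψ₂ : B → G) (w : G) : Nn ψ₁ ψ₂ w = ∑ x, R ψ₁ x * R ψ₂ (w - x) := by
  have := Finset.card_eq_sum_card_fiberwise (f := fun p : A × B => ψ₁ p.1)
    (s := (univ.filter fun p : A × B => ψ₁ p.1 + ψ₂ p.2 = w)) (t := (univ : Finset G))
    (fun _ _ => mem_univ _)
  rw [Nn, this]
  refine sum_congr rfl fun x _ => ?_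
  rw [R, R, ← card_product]
  congr 1
  ext ⟨a, b⟩
  simp only [mem_product, mem_filter, mem_univ, true_and]
  constructor
  · rintro ⟨h1, h2⟩
    refine ⟨h2, ?_⟩
    rw [← h2, ← h1]
    abel
  · rintro ⟨h1, h2⟩
    refine ⟨?_, h1⟩
    rw [h1, h2]
    abel

/-- The second moment inequality. -/
theorem second_moment (ψ₁ : A → G) (ψ₂ : B → G) (S : ℕ) (hA : Fintype.card A = S) (hB : Fintype.card B = S)
    (w : G) : 4 * S ^ 2 ≤ Fintype.card G * (K ψ₁ 0 + K ψ₂ 0 + 2 * Nn ψ₁ ψ₂ w) := by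
  have h1 : ∑ x, (R ψ₁ x + R ψ₂ (w - x)) = 2 * S := by
    rw [sum_add_distrib, sum_R, hA]
    have := Equiv.sum_comp (Equiv.subLeft w) (fun y => R ψ₂ y)
    simp only [Equiv.subLeft_apply] at this
    rw [this, sum_R, hB]
    ring
  have h2 : ∑ x, (R ψ₁ x + R ψ₂ (w - x)) ^ 2 = K ψ₁ 0 + K ψ₂ 0 + 2 * Nn ψ₁ ψ₂ w := by
    have h3 : ∀ x, (R ψ₁ x + R ψ₂ (w - x)) ^ 2 =
        (R ψ₁ x) ^ 2 + (R ψ₂ (w - x)) ^ 2 + 2 * (R ψ₁ x * R ψ₂ (w - x)) := fun x => by ring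
    simp only [h3]
    rw [sum_add_distrib, sum_add_distrib, sum_R_sq, ← mul_sum, ← Nn_eq]
    have := Equiv.sum_comp (Equiv.subLeft w) (fun y => (R ψ₂ y) ^ 2)
    simp only [Equiv.subLeft_apply] at this
    rw [this, sum_R_sq]
  have h3 := sq_sum_le_card_mul_sum_sq (s := (univ : Finset G)) (f := fun x => R ψ₁ x + R ψ₂ (w - x))
  rw [h1, h2, card_univ] at h3
  nlinarith

theorem K_add_eq (ψ : A → G) (φ : U → G) (x : G) :
    K (fun p : A × U => ψ p.1 + φ p.2) x = ∑ p : A × A, K φ (x - (ψ p.1 - ψ p.2)) := by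
  simp only [K, card_filter]
  simp only [Fintype.sum_prod_type]
  refine sum_congr rfl fun a _ => ?_
  rw [sum_comm]
  refine sum_congr rfl fun a' _ => sum_congr rfl fun u _ => sum_congr rfl fun u' _ => ?_
  refine if_congr ?_ rfl rfl
  constructor
  · intro h
    rw [← h]
    abel
  · intro h
    rw [sub_eq_iff_eq_add] at h
    rw [h]
    abel

/-- The recursion for the energy. -/
theorem K_add_le (ψ : A → G) (φ : U → G) (e : ℕ) (h2 : ∀ y, y ≠ 0 → K φ y ≤ 2) (h0 : K φ 0 ≤ 2 + e) (x : G) :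
    K (fun p : A × U => ψ p.1 + φ p.2) x ≤ 2 * (Fintype.card A) ^ 2 + e * K ψ x := by
  rw [K_add_eq]
  have hb : ∀ p : A × A, K φ (x - (ψ p.1 - ψ p.2)) ≤ 2 + e * (if ψ p.1 - ψ p.2 = x then 1 else 0) := by
    intro p
    split_ifs with h
    · rw [h, sub_self, mul_one]
      exact h0
    · rw [mul_zero, add_zero]
      exact h2 _ (by rwa [sub_ne_zero, ne_comm])
  refine le_trans (sum_le_sum fun p _ => hb p) ?_
  rw [sum_add_distrib, ← mul_sum, K, card_filter]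
  simp only [sum_const, card_univ, Fintype.card_prod, smul_eq_mul]
  rw [sq]
  exact Nat.le_of_eq (by ring)

theorem K_zero_of_injective (φ : U → G) (h : Function.Injective φ) : K φ 0 = Fintype.card U := by
  rw [K, ← card_univ]
  refine card_nbij' (fun p => p.1) (fun a => (a, a)) ?_ ?_ ?_ ?_
  · intro p _
    simp
  · intro a _
    simp
  · rintro ⟨a, b⟩ h1
    simp only [coe_filter, mem_univ, true_and, Set.mem_ofPred_eq, sub_eq_zero] at h1
    simp [h h1]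
  · intro a _
    simp

/-- A set of solutions of the six term equation. -/
theorem six_count (φ₁ φ₂ φ₃ φ₄ φ₅ φ₆ : U → G) (e : ℕ) (hU : Fintype.card U = e + 2)
    (h₁ : Function.Injective φ₁) (h₂ : ∀ y, y ≠ 0 → K φ₂ y ≤ 2) (h₂' : Function.Injective φ₂)
    (h₃ : ∀ y, y ≠ 0 → K φ₃ y ≤ 2) (h₃' : Function.Injective φ₃)
    (h₄ : Function.Injective φ₄) (h₅ : ∀ y, y ≠ 0 → K φ₅ y ≤ 2) (h₅' : Function.Injective φ₅)
    (h₆ : ∀ y, y ≠ 0 → K φ₆ y ≤ 2) (h₆' : Function.Injective φ₆) (w : G) :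
    2 * (e + 2) ^ 6 ≤ Fintype.card G * (2 * (e + 2) ^ 4 + e * (2 * (e + 2) ^ 2 + e * (e + 2)) +
      Nn (fun p : (U × U) × U => φ₁ p.1.1 + φ₂ p.1.2 + φ₃ p.2) (fun p : (U × U) × U => φ₄ p.1.1 + φ₅ p.1.2 + φ₆ p.2) w) := by
  have key : ∀ φ φ' φ'' : U → G, Function.Injective φ → (∀ y, y ≠ 0 → K φ' y ≤ 2) → Function.Injective φ' →
      (∀ y, y ≠ 0 → K φ'' y ≤ 2) → Function.Injective φ'' →
      K (fun p : (U × U) × U => φ p.1.1 + φ' p.1.2 + φ'' p.2) 0 ≤
        2 * (e + 2) ^ 4 + e * (2 * (e + 2) ^ 2 + e * (e + 2)) := by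
    intro φ φ' φ'' h1 h2 h2' h3 h3'
    have a1 : K φ 0 = e + 2 := by rw [K_zero_of_injective _ h1, hU]
    have a2 := K_add_le φ φ' e h2 (by rw [K_zero_of_injective _ h2', hU]; omega) 0
    have a3 := K_add_le (fun p : U × U => φ p.1 + φ' p.2) φ'' e h3 (by rw [K_zero_of_injective _ h3', hU]; omega) 0
    rw [a1, hU] at a2
    have hc : Fintype.card (U × U) = (e + 2) ^ 2 := by rw [Fintype.card_prod, hU, sq]
    rw [hc] at a3
    have e1 : 2 * ((e + 2) ^ 2) ^ 2 = 2 * (e + 2) ^ 4 := by ring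
    rw [e1] at a3
    exact le_trans a3 (Nat.add_le_add_left (Nat.mul_le_mul_left e a2) _)
  have hc : Fintype.card ((U × U) × U) = (e + 2) ^ 3 := by
    rw [Fintype.card_prod, Fintype.card_prod, hU]
    ring
  have h := second_moment (fun p : (U × U) × U => φ₁ p.1.1 + φ₂ p.1.2 + φ₃ p.2)
    (fun p : (U × U) × U => φ₄ p.1.1 + φ₅ p.1.2 + φ₆ p.2) ((e + 2) ^ 3) hc hc w
  have k1 := key φ₁ φ₂ φ₃ h₁ h₂ h₂' h₃ h₃'
  have k2 := key φ₄ φ₅ φ₆ h₄ h₅ h₅' h₆ h₆'
  set E := 2 * (e + 2) ^ 4 + e * (2 * (e + 2) ^ 2 + e * (e + 2)) with hE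
  set N := Nn (fun p : (U × U) × U => φ₁ p.1.1 + φ₂ p.1.2 + φ₃ p.2)
    (fun p : (U × U) × U => φ₄ p.1.1 + φ₅ p.1.2 + φ₆ p.2) w with hN
  have h5 : Fintype.card G * (K (fun p : (U × U) × U => φ₁ p.1.1 + φ₂ p.1.2 + φ₃ p.2) 0 +
      K (fun p : (U × U) × U => φ₄ p.1.1 + φ₅ p.1.2 + φ₆ p.2) 0 + 2 * N) ≤ Fintype.card G * (2 * (E + N)) := by
    apply Nat.mul_le_mul_left
    omega
  have h6 : 4 * ((e + 2) ^ 3) ^ 2 = 2 * (2 * (e + 2) ^ 6) := by ring
  have h7 := le_trans h h5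
  rw [h6] at h7
  have h8 : Fintype.card G * (2 * (E + N)) = 2 * (Fintype.card G * (E + N)) := by ring
  rw [h8] at h7
  omega

/-- Covering by images. -/
theorem card_le_of_R_le (ψ : A → G) (m : ℕ) (h : ∀ x, x ≠ 0 → R ψ x ≤ 2) (h0 : R ψ 0 ≤ m) :
    Fintype.card A ≤ m + 2 * (univ.image ψ).card := by
  have h1 : Fintype.card A = ∑ x ∈ univ.image ψ, R ψ x := by
    have := Finset.card_eq_sum_card_image ψ (univ : Finset A)
    rw [card_univ] at this
    exact this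
  rw [h1]
  have hb : ∀ x ∈ univ.image ψ, R ψ x ≤ 2 + (if x = 0 then m else 0) := by
    intro x _
    split_ifs with hx
    · rw [hx]
      omega
    · simpa using h x hx
  refine le_trans (sum_le_sum hb) ?_
  rw [sum_add_distrib, sum_const, smul_eq_mul]
  have h3 : ∑ x ∈ univ.image ψ, (if x = 0 then m else 0) ≤ m := by
    rw [sum_ite_eq']
    split_ifs <;> omega
  nlinarith

/-- The pigeonhole: a solution of `ψ₁ a + ψ₂ b = w` with `ψ₁ a ≠ x₀`. -/
theorem exists_sol_ne (ψ₁ : A → G) (ψ₂ : B → G) (w x₀ : G)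
    (h : Fintype.card G + 2 ≤ (univ.image ψ₁).card + (univ.image ψ₂).card) :
    ∃ a b, ψ₁ a + ψ₂ b = w ∧ ψ₁ a ≠ x₀ := by
  set I₁ := univ.image ψ₁ with hI₁
  set I₂ := (univ.image ψ₂).image (fun y => w - y) with hI₂
  have hc : I₂.card = (univ.image ψ₂).card := card_image_of_injective _ (sub_right_injective)
  have h1 : (I₁ ∪ I₂).card ≤ Fintype.card G := card_le_univ _
  have h2 := card_union_add_card_inter I₁ I₂
  have h3 : 2 ≤ (I₁ ∩ I₂).card := by omega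
  obtain ⟨x, hx, hne⟩ := Finset.exists_mem_ne (by omega : 1 < (I₁ ∩ I₂).card) x₀
  rw [mem_inter] at hx
  obtain ⟨hx1, hx2⟩ := hx
  rw [hI₁, mem_image] at hx1
  obtain ⟨a, -, rfl⟩ := hx1
  rw [hI₂, mem_image] at hx2
  obtain ⟨y, hy, hy2⟩ := hx2
  rw [mem_image] at hy
  obtain ⟨b, -, rfl⟩ := hy
  refine ⟨a, b, ?_, hne⟩
  rw [← hy2]
  abel

end Cfsg.Agent.Lib.SUMon.Sums
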