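/-
The field with `q²` elements: the fixed field, trace zero elements, the norm one group, counting.
-/
import Cfsg.Agent.Lib.Geo.SUGen
import Cfsg.Agent.Lib.SUMon.Sums
set_option autoImplicit false

namespace Cfsg.Agent.Lib.SUMon.Field

open Finset Cfsg.Agent.Lib.Geo.UnitaryInSL Cfsg.Agent.Lib.Geo.SUGen
open Cfsg.Agent.Lib.HermCount.Field
open Cfsg.Agent.Lib.SUMon.Sums

variable {F : Type*} [Field F] [Fintype F]

/-- The data of the quadratic extension. -/
structure QF (σ : F ≃+* F) (q : ℕ) : Prop where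
  inv : ∀ a, σ (σ a) = a
  ne : σ ≠ RingEquiv.refl F
  two_le : 2 ≤ q
  card : Fintype.card F = q ^ 2
  fix : Nat.card {x : F // σ x = x} = q
  ker : Nat.card {x : F // x + σ x = 0} = q
  u1 : Nat.card {x : F // x * σ x = 1} = q + 1

theorem of_card {q : ℕ} (hF : Fintype.card F = q ^ 2) : QF (frobEquiv hF) q := by
  classical
  set σ := frobEquiv hF with hσ
  have hinv : ∀ a, σ (σ a) = a := fun a => by simp [hσ, frob_frob hF]
  have hne : σ ≠ RingEquiv.refl F := by
    obtain ⟨x, hx⟩ := exists_frob_ne hF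
    intro h
    apply hx
    have := congrArg (fun s : F ≃+* F => s x) h
    simpa [hσ] using this
  have hq := two_le hF
  -- the fixed field and the kernel of the trace
  obtain ⟨x₀, hx₀, hx₀'⟩ := exists_trace_zero σ hne hinv
  have hsx₀ : σ x₀ = -x₀ := eq_neg_of_add_eq_zero_right hx₀'
  let e₁ : {x : F // σ x = x} ≃ {x : F // x + σ x = 0} :=
    { toFun := fun x => ⟨x.1 * x₀, by rw [map_mul, x.2, hsx₀]; ring⟩
      invFun := fun y => ⟨y.1 / x₀, by
        have h : σ y.1 = -y.1 := eq_neg_of_add_eq_zero_right y.2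
        rw [map_div₀, h, hsx₀, neg_div_neg_eq]⟩
      left_inv := fun x => by
        ext
        simp only
        field_simp
      right_inv := fun y => by
        ext
        simp only
        field_simp }
  have hsec : ∀ y : {x : F // σ x = x}, ∃ s : F, s + σ s = y.1 := fun y =>
    exists_add_sigma_eq σ hne hinv y.1 y.2
  choose s hs using hsec
  let e₂ : F ≃ {x : F // σ x = x} × {x : F // x + σ x = 0} :=
    { toFun := fun x => (⟨x + σ x, by rw [map_add, hinv]; ring⟩,
        ⟨x - s ⟨x + σ x, by rw [map_add, hinv]; ring⟩, by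
          have := hs ⟨x + σ x, by rw [map_add, hinv]; ring⟩
          rw [map_sub]
          simp only at this
          linear_combination -this⟩)
      invFun := fun p => s p.1 + p.2.1
      left_inv := fun x => by
        simp only
        ring
      right_inv := fun p => by
        obtain ⟨⟨y, hy⟩, ⟨k, hk⟩⟩ := p
        have h1 := hs ⟨y, hy⟩
        simp only at h1
        have h2 : s ⟨y, hy⟩ + k + σ (s ⟨y, hy⟩ + k) = y := by
          rw [map_add]
          linear_combination h1 + hk
        refine Prod.ext ?_ ?_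
        · exact Subtype.ext h2
        · apply Subtype.ext
          simp only
          have : (⟨s ⟨y, hy⟩ + k + σ (s ⟨y, hy⟩ + k), by rw [map_add, hinv]; ring⟩ : {x : F // σ x = x}) = ⟨y, hy⟩ :=
            Subtype.ext h2
          rw [this]
          ring }
  have hc : Nat.card {x : F // σ x = x} * Nat.card {x : F // x + σ x = 0} = q ^ 2 := by
    rw [← Nat.card_prod, ← Nat.card_congr e₂, Nat.card_eq_fintype_card, hF]
  have hc2 : Nat.card {x : F // x + σ x = 0} = Nat.card {x : F // σ x = x} := (Nat.card_congr e₁).symm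
  rw [hc2, ← sq] at hc
  have hfix : Nat.card {x : F // σ x = x} = q := by
    exact Nat.pow_left_injective (n := 2) (by norm_num) hc
  refine ⟨hinv, hne, hq, hF, hfix, by rw [hc2, hfix], ?_⟩
  have h1 := card_norm_fiber hF 1 (one_pow _) one_ne_zero
  rw [← h1]
  apply Nat.card_congr
  refine Equiv.subtypeEquivRight fun a => ?_
  rw [pow_succ', show σ a = a ^ q from rfl]

variable {σ : F ≃+* F} {q : ℕ}

/-- Three numbers determined by trace and norm. -/
theorem card_le_two_of_trace_norm [DecidableEq F] (S : Finset F) (n k : F) (hS : ∀ z ∈ S, z * σ z = n ∧ z + σ z = k) :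
    S.card ≤ 2 := by
  classical
  have hP : (Polynomial.X ^ 2 - Polynomial.C k * Polynomial.X + Polynomial.C n : Polynomial F).natDegree = 2 := by
    compute_degree!
  have hP0 : (Polynomial.X ^ 2 - Polynomial.C k * Polynomial.X + Polynomial.C n : Polynomial F) ≠ 0 := by
    intro h
    rw [h] at hP
    simp at hP
  have hsub : S ⊆ (Polynomial.X ^ 2 - Polynomial.C k * Polynomial.X + Polynomial.C n : Polynomial F).roots.toFinset := by
    intro z hz
    rw [Multiset.mem_toFinset, Polynomial.mem_roots hP0, Polynomial.IsRoot.def]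
    obtain ⟨h1, h2⟩ := hS z hz
    simp only [Polynomial.eval_add, Polynomial.eval_sub, Polynomial.eval_pow, Polynomial.eval_X, Polynomial.eval_mul,
      Polynomial.eval_C]
    rw [← h1, ← h2]
    ring
  calc S.card ≤ _ := card_le_card hsub
    _ ≤ _ := Multiset.toFinset_card_le _
    _ ≤ _ := Polynomial.card_roots' _
    _ = 2 := hP

/-- The norm one group as a type. -/
abbrev U1 (σ : F ≃+* F) := {x : F // x * σ x = 1}

noncomputable instance : Fintype (U1 σ) := by
  classical
  exact Subtype.fintype _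

noncomputable instance : DecidableEq (U1 σ) := Classical.decEq _

theorem card_U1 (Q : QF σ q) : Fintype.card (U1 σ) = q + 1 := by
  rw [← Nat.card_eq_fintype_card]
  exact Q.u1

theorem inv_eq (μ : U1 σ) : (μ.1)⁻¹ = σ μ.1 := by
  have h0 : μ.1 ≠ 0 := left_ne_zero_of_mul_eq_one μ.2
  field_simp
  exact μ.2.symm

theorem ne_zero (μ : U1 σ) : μ.1 ≠ 0 := left_ne_zero_of_mul_eq_one μ.2

theorem sig_ne_zero (μ : U1 σ) : σ μ.1 ≠ 0 := right_ne_zero_of_mul_eq_one μ.2

/-- The conjugate of a norm one element. -/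
def conjU (Q : QF σ q) (μ : U1 σ) : U1 σ :=
  ⟨σ μ.1, by rw [Q.inv, mul_comm]; exact μ.2⟩

@[simp] theorem coe_conjU (Q : QF σ q) (μ : U1 σ) : (conjU Q μ).1 = σ μ.1 := rfl

/-- The trivial element. -/
def oneU (σ : F ≃+* F) : U1 σ := ⟨1, by rw [map_one, mul_one]⟩

@[simp] theorem coe_oneU : (oneU σ).1 = 1 := rfl

/-- The norm one elements of the shape `1 - μ`. -/
def sN (σ : F ≃+* F) (μ : F) : F := (1 - μ) * (1 - σ μ)

theorem sN_eq (μ : U1 σ) : sN σ μ.1 = 2 - μ.1 - σ μ.1 := by
  have := μ.2
  simp only [sN]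
  linear_combination this

theorem sN_fix (Q : QF σ q) (μ : F) : σ (sN σ μ) = sN σ μ := by
  simp only [sN, map_mul, map_sub, map_one, Q.inv]
  ring

theorem sN_ne_zero (Q : QF σ q) (μ : U1 σ) (h : μ.1 ≠ 1) : sN σ μ.1 ≠ 0 := by
  simp only [sN]
  refine mul_ne_zero (sub_ne_zero.mpr (Ne.symm h)) (sub_ne_zero.mpr ?_)
  intro h1
  apply h
  have := congrArg σ h1
  rw [map_one, Q.inv] at this
  exact this.symm

theorem sN_fiber (μ ν : U1 σ) (h : sN σ μ.1 = sN σ ν.1) : ν.1 = μ.1 ∨ ν.1 = σ μ.1 := by
  have h1 : (ν.1 - μ.1) * (ν.1 - σ μ.1) = 0 := by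
    have e1 := sN_eq μ
    have e2 := sN_eq ν
    have h2 : μ.1 + σ μ.1 = ν.1 + σ ν.1 := by
      rw [e1, e2] at h
      linear_combination -h
    have h3 := μ.2
    have h4 := ν.2
    linear_combination (-ν.1) * h2 + h3 - h4
  rcases mul_eq_zero.mp h1 with h2 | h2
  · exact Or.inl (sub_eq_zero.mp h2)
  · exact Or.inr (sub_eq_zero.mp h2)

/-- Fibres of size two. -/
theorem card_le_two_mul_image {α β : Type*} [DecidableEq α] [DecidableEq β] (S : Finset α) (g : α → β)
    (h : ∀ y ∈ S.image g, (S.filter fun x => g x = y).card ≤ 2) : S.card ≤ 2 * (S.image g).card := by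
  have := Finset.card_le_mul_card_image (s := S) (f := g) 2 h
  omega

theorem card_fiber_le_two {α β : Type*} [DecidableEq α] [DecidableEq β] (S : Finset α) (g : α → β)
    (a b : β → α) (h : ∀ x ∈ S, ∀ y, g x = y → x = a y ∨ x = b y) :
    S.card ≤ 2 * (S.image g).card := by
  apply card_le_two_mul_image
  intro y _
  have hsub : (S.filter fun x => g x = y) ⊆ {a y, b y} := by
    intro x hx
    rw [mem_filter] at hx
    rcases h x hx.1 y hx.2 with h1 | h1 <;> simp [h1]
  exact le_trans (card_le_card hsub) card_le_two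

noncomputable section

open Classical

/-- The pigeonhole for the values of `s`. -/
theorem exists_s_pair (Q : QF σ q) (ta tb : F) (hta : σ ta = ta) (htb : σ tb = tb) (hta0 : ta ≠ 0) (htb0 : tb ≠ 0) :
    ∃ μ ν : U1 σ, μ.1 ≠ 1 ∧ ν.1 ≠ 1 ∧ sN σ μ.1 * ta + sN σ ν.1 * tb = 0 := by
  set S : Finset (U1 σ) := univ.filter fun μ => μ.1 ≠ 1 with hS
  have hScard : S.card = q := by
    have h1 : S = univ.erase (oneU σ) := by
      ext μ
      simp only [hS, mem_filter, mem_univ, true_and, mem_erase, and_true, ne_eq]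
      rw [Subtype.ext_iff]
      rfl
    rw [h1, card_erase_of_mem (mem_univ _), card_univ, card_U1 Q]
    omega
  set X : Finset F := S.image fun μ => sN σ μ.1 with hX
  have hXcard : q ≤ 2 * X.card := by
    rw [← hScard]
    refine card_fiber_le_two S (fun μ => sN σ μ.1) (a := fun y => if h : ∃ μ ∈ S, sN σ μ.1 = y then h.choose else oneU σ)
      (b := fun y => if h : ∃ μ ∈ S, sN σ μ.1 = y then conjU Q h.choose else oneU σ) ?_
    intro x hx y hy
    have hex : ∃ μ ∈ S, sN σ μ.1 = y := ⟨x, hx, hy⟩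
    simp only [dif_pos hex]
    have h2 := hex.choose_spec.2
    rcases sN_fiber hex.choose x (by rw [h2, hy]) with h3 | h3
    · exact Or.inl (Subtype.ext h3)
    · exact Or.inr (Subtype.ext h3)
  set Y : Finset F := univ.filter fun x => σ x = x ∧ x ≠ 0 with hY
  have hYcard : Y.card + 1 = q := by
    have h1 : (univ.filter fun x : F => σ x = x).card = q := by
      rw [← Q.fix, Nat.card_eq_fintype_card, Fintype.card_subtype]
    have h2 : (univ.filter fun x : F => σ x = x) = insert 0 Y := by
      ext x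
      simp only [mem_filter, mem_univ, true_and, mem_insert, hY]
      constructor
      · intro h
        by_cases hx : x = 0
        · exact Or.inl hx
        · exact Or.inr ⟨h, hx⟩
      · rintro (h | h)
        · rw [h, map_zero]
        · exact h.1
    rw [h2, card_insert_of_notMem (by simp [hY])] at h1
    exact h1
  set A : Finset F := X.image fun x => x * ta with hA
  set B : Finset F := X.image fun x => -(x * tb) with hB
  have hAc : A.card = X.card := card_image_of_injective _ (fun x y h => mul_right_cancel₀ hta0 h)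
  have hBc : B.card = X.card := card_image_of_injective _ (fun x y h => mul_right_cancel₀ htb0 (neg_injective h))
  have hXY : ∀ x ∈ X, σ x = x ∧ x ≠ 0 := by
    intro x hx
    rw [hX, mem_image] at hx
    obtain ⟨μ, hμ, rfl⟩ := hx
    rw [hS, mem_filter] at hμ
    exact ⟨sN_fix Q _, sN_ne_zero Q μ hμ.2⟩
  have hAY : A ⊆ Y := by
    intro z hz
    rw [hA, mem_image] at hz
    obtain ⟨x, hx, rfl⟩ := hz
    have := hXY x hx
    simp only [hY, mem_filter, mem_univ, true_and]
    refine ⟨by rw [map_mul, this.1, hta], mul_ne_zero this.2 hta0⟩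
  have hBY : B ⊆ Y := by
    intro z hz
    rw [hB, mem_image] at hz
    obtain ⟨x, hx, rfl⟩ := hz
    have := hXY x hx
    simp only [hY, mem_filter, mem_univ, true_and]
    refine ⟨by rw [map_neg, map_mul, this.1, htb], neg_ne_zero.mpr (mul_ne_zero this.2 htb0)⟩
  have hne : (A ∩ B).Nonempty := by
    by_contra h
    rw [not_nonempty_iff_eq_empty] at h
    have h1 := card_union_add_card_inter A B
    rw [h, card_empty, add_zero] at h1
    have h2 : (A ∪ B).card ≤ Y.card := card_le_card (union_subset hAY hBY)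
    omega
  obtain ⟨z, hz⟩ := hne
  rw [mem_inter, hA, hB, mem_image, mem_image] at hz
  obtain ⟨⟨x, hx, hxz⟩, ⟨y, hy, hyz⟩⟩ := hz
  rw [hX, mem_image] at hx hy
  obtain ⟨μ, hμ, rfl⟩ := hx
  obtain ⟨ν, hν, rfl⟩ := hy
  rw [hS, mem_filter] at hμ hν
  refine ⟨μ, ν, hμ.2, hν.2, ?_⟩
  rw [hxz, ← hyz]
  ring

/-- Values of `s` on the whole norm one group: every element of the fixed field is a sum of two. -/
theorem exists_s_sum (Q : QF σ q) (w : F) (hw : σ w = w) :
    ∃ μ ν : U1 σ, sN σ μ.1 + sN σ ν.1 = w := by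
  set S : Finset (U1 σ) := univ.filter fun μ => μ.1 ≠ 1 with hS
  have hScard : S.card = q := by
    have h1 : S = univ.erase (oneU σ) := by
      ext μ
      simp only [hS, mem_filter, mem_univ, true_and, mem_erase, and_true, ne_eq]
      rw [Subtype.ext_iff]
      rfl
    rw [h1, card_erase_of_mem (mem_univ _), card_univ, card_U1 Q]
    omega
  set X : Finset F := S.image fun μ => sN σ μ.1 with hX
  have hXcard : q ≤ 2 * X.card := by
    rw [← hScard]
    refine card_fiber_le_two S (fun μ => sN σ μ.1) (a := fun y => if h : ∃ μ ∈ S, sN σ μ.1 = y then h.choose else oneU σ)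
      (b := fun y => if h : ∃ μ ∈ S, sN σ μ.1 = y then conjU Q h.choose else oneU σ) ?_
    intro x hx y hy
    have hex : ∃ μ ∈ S, sN σ μ.1 = y := ⟨x, hx, hy⟩
    simp only [dif_pos hex]
    have h2 := hex.choose_spec.2
    rcases sN_fiber hex.choose x (by rw [h2, hy]) with h3 | h3
    · exact Or.inl (Subtype.ext h3)
    · exact Or.inr (Subtype.ext h3)
  set T : Finset F := insert 0 X with hT
  have hXne : (0 : F) ∉ X := by
    intro h
    rw [hX, mem_image] at h
    obtain ⟨μ, hμ, h0⟩ := h
    rw [hS, mem_filter] at hμ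
    exact sN_ne_zero Q μ hμ.2 h0
  have hTc : T.card = X.card + 1 := card_insert_of_notMem hXne
  have hTY : ∀ x ∈ T, σ x = x ∧ ∃ μ : U1 σ, sN σ μ.1 = x := by
    intro x hx
    rw [hT, mem_insert] at hx
    rcases hx with rfl | hx
    · exact ⟨map_zero _, oneU σ, by simp [sN]⟩
    · rw [hX, mem_image] at hx
      obtain ⟨μ, -, rfl⟩ := hx
      exact ⟨sN_fix Q _, μ, rfl⟩
  set Y : Finset F := univ.filter fun x => σ x = x with hY
  have hYcard : Y.card = q := by
    rw [← Q.fix, Nat.card_eq_fintype_card, Fintype.card_subtype]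
  set B : Finset F := T.image fun x => w - x with hB
  have hBc : B.card = T.card := card_image_of_injective _ (fun x y h => sub_right_injective h)
  have hAY : T ⊆ Y := by
    intro z hz
    simp only [hY, mem_filter, mem_univ, true_and]
    exact (hTY z hz).1
  have hBY : B ⊆ Y := by
    intro z hz
    rw [hB, mem_image] at hz
    obtain ⟨x, hx, rfl⟩ := hz
    simp only [hY, mem_filter, mem_univ, true_and]
    rw [map_sub, hw, (hTY x hx).1]
  have hne : (T ∩ B).Nonempty := by
    by_contra h
    rw [not_nonempty_iff_eq_empty] at h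
    have h1 := card_union_add_card_inter T B
    rw [h, card_empty, add_zero] at h1
    have h2 : (T ∪ B).card ≤ Y.card := card_le_card (union_subset hAY hBY)
    omega
  obtain ⟨z, hz⟩ := hne
  rw [mem_inter, hB, mem_image] at hz
  obtain ⟨hz1, ⟨x, hx, rfl⟩⟩ := hz
  obtain ⟨-, μ, hμ⟩ := hTY _ hz1
  obtain ⟨-, ν, hν⟩ := hTY _ hx
  refine ⟨μ, ν, ?_⟩
  rw [hμ, hν]
  ring

/-- Elements of trace zero as sums of two commutator values. -/
theorem exists_comm_sum (Q : QF σ q) (w : F) (hw : w ≠ 0) (a : F) (ha : a + σ a = 0) :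
    ∃ μ ν : U1 σ, ((1 - μ.1) * w - (1 - σ μ.1) * σ w) + ((1 - ν.1) * w - (1 - σ ν.1) * σ w) = a := by
  set g : U1 σ → F := fun μ => (1 - μ.1) * w - (1 - σ μ.1) * σ w with hg
  set I : Finset F := univ.image g with hI
  have hIcard : q + 1 ≤ 2 * I.card := by
    rw [← card_U1 Q, ← card_univ]
    refine card_fiber_le_two univ g (a := fun y => if h : ∃ μ, g μ = y then h.choose else oneU σ)
      (b := fun y => if h : ∃ μ, g μ = y then ⟨-σ (h.choose.1 * w) / w, by
          have h3 := h.choose.2
          simp only [map_div₀, map_neg, map_mul, Q.inv]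
          have h4 : σ w ≠ 0 := (map_ne_zero σ).mpr hw
          field_simp
          linear_combination h3⟩ else oneU σ) ?_
    intro x _ y hy
    have hex : ∃ μ, g μ = y := ⟨x, hy⟩
    simp only [dif_pos hex]
    set μ := hex.choose with hμ
    have h2 : g μ = y := hex.choose_spec
    have h3 : g μ = g x := by rw [h2, hy]
    simp only [hg] at h3
    -- `z - z'` is fixed
    obtain ⟨z, hz⟩ : ∃ z, z = μ.1 * w := ⟨_, rfl⟩
    obtain ⟨z', hz'⟩ : ∃ z', z' = x.1 * w := ⟨_, rfl⟩
    have hk : σ (z - z') = z - z' := by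
      simp only [hz, hz', map_sub, map_mul]
      linear_combination h3
    have hn : z * σ z = z' * σ z' := by
      simp only [hz, hz', map_mul]
      have e1 := μ.2
      have e2 := x.2
      linear_combination (w * σ w) * (e1 - e2)
    have h5 : (z - z') * (z - z' - (z + σ z)) = 0 := by
      have : σ z = σ z' + (z - z') := by
        have := hk
        rw [map_sub] at this
        linear_combination this
      linear_combination -hn + z' * this
    rcases mul_eq_zero.mp h5 with h6 | h6
    · left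
      apply Subtype.ext
      rw [hz, hz'] at h6
      exact (mul_right_cancel₀ hw (sub_eq_zero.mp h6)).symm
    · right
      apply Subtype.ext
      simp only
      rw [eq_div_iff hw, ← hz, ← hz']
      linear_combination -h6
  set Y : Finset F := univ.filter fun x => x + σ x = 0 with hY
  have hYcard : Y.card = q := by
    rw [← Q.ker, Nat.card_eq_fintype_card, Fintype.card_subtype]
  set B : Finset F := I.image fun x => a - x with hB
  have hBc : B.card = I.card := card_image_of_injective _ (fun x y h => sub_right_injective h)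
  have hIm : ∀ x ∈ I, x + σ x = 0 := by
    intro x hx
    rw [hI, mem_image] at hx
    obtain ⟨μ, -, rfl⟩ := hx
    simp only [hg, map_sub, map_mul, map_one, Q.inv]
    ring
  have hAY : I ⊆ Y := by
    intro z hz
    simp only [hY, mem_filter, mem_univ, true_and]
    exact hIm z hz
  have hBY : B ⊆ Y := by
    intro z hz
    rw [hB, mem_image] at hz
    obtain ⟨x, hx, rfl⟩ := hz
    simp only [hY, mem_filter, mem_univ, true_and]
    rw [map_sub]
    linear_combination ha - hIm x hx
  have hne : (I ∩ B).Nonempty := by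
    by_contra h
    rw [not_nonempty_iff_eq_empty] at h
    have h1 := card_union_add_card_inter I B
    rw [h, card_empty, add_zero] at h1
    have h2 : (I ∪ B).card ≤ Y.card := card_le_card (union_subset hAY hBY)
    omega
  obtain ⟨z, hz⟩ := hne
  obtain ⟨hz1, hz2⟩ := mem_inter.mp hz
  rw [hB, mem_image] at hz2
  obtain ⟨x, hx, rfl⟩ := hz2
  rw [hI, mem_image] at hz1 hx
  obtain ⟨μ, -, hμ⟩ := hz1
  obtain ⟨ν, -, hν⟩ := hx
  refine ⟨μ, ν, ?_⟩
  change g μ + g ν = a
  rw [hμ, hν]
  ring

/-- The ellipse map. -/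
def ell (σ : F ≃+* F) (A B : F) (μ : U1 σ) : F := μ.1 * A + σ μ.1 * B

theorem ell_linear_inj (A B x : F) (h : A * σ A ≠ B * σ B) (hx : x * A + σ x * B = 0) (Q : QF σ q) : x = 0 := by
  by_contra hx0
  have hsx : σ x ≠ 0 := (map_ne_zero σ).mpr hx0
  have h1 : x * A = -(σ x * B) := by linear_combination hx
  have h2 := congrArg σ h1
  rw [map_mul, map_neg, map_mul, Q.inv] at h2
  apply h
  apply mul_left_cancel₀ (mul_ne_zero hx0 hsx)
  calc x * σ x * (A * σ A) = (x * A) * (σ x * σ A) := by ring
    _ = (-(σ x * B)) * (-(x * σ B)) := by rw [h1, h2]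
    _ = _ := by ring

theorem ell_injective (Q : QF σ q) (A B : F) (h : A * σ A ≠ B * σ B) : Function.Injective (ell σ A B) := by
  intro μ ν hμν
  apply Subtype.ext
  simp only [ell] at hμν
  have := ell_linear_inj A B (μ.1 - ν.1) h (by rw [map_sub]; linear_combination hμν) Q
  exact sub_eq_zero.mp this

/-- The number of ways to write a non-zero difference of norm one elements. -/
theorem card_diff_le_two (Q : QF σ q) (S : Finset (U1 σ × U1 σ)) (x : F) (hx : x ≠ 0)
    (hS : ∀ p ∈ S, p.1.1 - p.2.1 = x) : S.card ≤ 2 := by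
  have h1 : S.card = (S.image fun p => p.2.1 * σ x).card := by
    rw [card_image_of_injOn]
    intro p hp p' hp' hpp
    have h2 := hS p hp
    have h3 := hS p' hp'
    simp only at hpp
    have h4 : p.2.1 = p'.2.1 := mul_right_cancel₀ ((map_ne_zero σ).mpr hx) hpp
    have h5 : p.1.1 = p'.1.1 := by linear_combination h2 - h3 + h4
    exact Prod.ext (Subtype.ext h5) (Subtype.ext h4)
  rw [h1]
  apply card_le_two_of_trace_norm (σ := σ) _ (x * σ x) (-(x * σ x))
  intro z hz
  rw [mem_image] at hz
  obtain ⟨p, hp, rfl⟩ := hz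
  have h2 := hS p hp
  have h3 := p.1.2
  have h4 := p.2.2
  have h5 : p.1.1 = p.2.1 + x := by linear_combination h2
  rw [h5, map_add] at h3
  rw [map_mul, Q.inv]
  constructor
  · linear_combination (x * σ x) * h4
  · linear_combination h3 - h4

theorem K_ell_le (Q : QF σ q) (A B : F) (h : A * σ A ≠ B * σ B) (y : F) (hy : y ≠ 0) :
    K (ell σ A B) y ≤ 2 := by
  rw [K]
  set S := univ.filter fun p : U1 σ × U1 σ => ell σ A B p.1 - ell σ A B p.2 = y with hS
  by_cases hne : S.Nonempty
  · obtain ⟨p₀, hp₀⟩ := hne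
    have hp₀' : ell σ A B p₀.1 - ell σ A B p₀.2 = y := by simpa [hS] using hp₀
    have hx : p₀.1.1 - p₀.2.1 ≠ 0 := by
      intro h0
      have h1 : p₀.1 = p₀.2 := Subtype.ext (sub_eq_zero.mp h0)
      rw [h1, sub_self] at hp₀'
      exact hy hp₀'.symm
    apply card_diff_le_two Q S _ hx
    intro p hp
    have hp' : ell σ A B p.1 - ell σ A B p.2 = y := by simpa [hS] using hp
    have := ell_linear_inj A B ((p.1.1 - p.2.1) - (p₀.1.1 - p₀.2.1)) h (by
      simp only [ell] at hp₀' hp'
      simp only [map_sub]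
      linear_combination hp' - hp₀') Q
    exact sub_eq_zero.mp this
  · rw [not_nonempty_iff_eq_empty] at hne
    rw [hne]
    simp

/-- The circle map. -/
def circ2 (σ : F ≃+* F) (A B : F) (p : U1 σ × U1 σ) : F := p.1.1 * A + p.2.1 * B

theorem R_circ2_le (Q : QF σ q) (A B : F) (hA : A ≠ 0) (hB : B ≠ 0) (x : F) (hx : x ≠ 0) :
    R (circ2 σ A B) x ≤ 2 := by
  rw [R]
  set S := univ.filter fun p : U1 σ × U1 σ => circ2 σ A B p = x with hS
  have h1 : S.card = (S.image fun p => x * σ (p.2.1 * B)).card := by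
    rw [card_image_of_injOn]
    intro p hp p' hp' hpp
    have h2 : circ2 σ A B p = x := by simpa [hS] using hp
    have h3 : circ2 σ A B p' = x := by simpa [hS] using hp'
    simp only at hpp
    have h4 : σ (p.2.1 * B) = σ (p'.2.1 * B) := mul_left_cancel₀ hx hpp
    have h5 : p.2.1 = p'.2.1 := mul_right_cancel₀ hB (σ.injective h4)
    simp only [circ2] at h2 h3
    have h6 : p.1.1 = p'.1.1 := by
      apply mul_right_cancel₀ hA
      rw [h5] at h2
      linear_combination h2 - h3
    exact Prod.ext (Subtype.ext h6) (Subtype.ext h5)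
  rw [h1]
  apply card_le_two_of_trace_norm (σ := σ) _ (x * σ x * (B * σ B)) (x * σ x + B * σ B - A * σ A)
  intro z hz
  rw [mem_image] at hz
  obtain ⟨p, hp, rfl⟩ := hz
  have h2 : circ2 σ A B p = x := by simpa [hS] using hp
  simp only [circ2] at h2
  have h3 := p.1.2
  have h4 := p.2.2
  simp only [map_mul, Q.inv]
  constructor
  · linear_combination (x * σ x * (B * σ B)) * h4
  · have e : x = p.1.1 * A + p.2.1 * B := h2.symm
    rw [e]
    simp only [map_add, map_mul]
    linear_combination (B * σ B) * h4 - (A * σ A) * h3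

theorem R_circ2_zero_le (Q : QF σ q) (A B : F) (hB : B ≠ 0) : R (circ2 σ A B) 0 ≤ q + 1 := by
  rw [R, ← card_U1 Q, ← card_univ]
  refine card_le_card_of_injOn (fun p => p.1) (fun _ _ => mem_coe.mpr (mem_univ _)) ?_
  intro p hp p' hp' hpp
  have h2 : circ2 σ A B p = 0 := by simpa using hp
  have h3 : circ2 σ A B p' = 0 := by simpa using hp'
  simp only at hpp
  simp only [circ2] at h2 h3
  rw [hpp] at h2
  have h5 : p.2.1 = p'.2.1 := by
    apply mul_right_cancel₀ hB
    linear_combination h2 - h3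
  exact Prod.ext hpp (Subtype.ext h5)

/-- Four circles: any element is a sum of four points of four circles, avoiding a given value of the first two. -/
theorem four_circles (Q : QF σ q) (A₁ A₂ A₃ A₄ : F) (h₁ : A₁ ≠ 0) (h₂ : A₂ ≠ 0) (h₃ : A₃ ≠ 0) (h₄ : A₄ ≠ 0) (w x₀ : F) :
    ∃ θ₁ θ₂ θ₃ θ₄ : U1 σ, θ₁.1 * A₁ + θ₂.1 * A₂ + (θ₃.1 * A₃ + θ₄.1 * A₄) = w ∧ θ₁.1 * A₁ + θ₂.1 * A₂ ≠ x₀ := by
  have hcard : Fintype.card (U1 σ × U1 σ) = (q + 1) ^ 2 := by
    rw [Fintype.card_prod, card_U1 Q, sq]
  have c1 := card_le_of_R_le (circ2 σ A₁ A₂) (q + 1) (fun x hx => R_circ2_le Q A₁ A₂ h₁ h₂ x hx)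
    (R_circ2_zero_le Q A₁ A₂ h₂)
  have c2 := card_le_of_R_le (circ2 σ A₃ A₄) (q + 1) (fun x hx => R_circ2_le Q A₃ A₄ h₃ h₄ x hx)
    (R_circ2_zero_le Q A₃ A₄ h₄)
  rw [hcard] at c1 c2
  have hq := Q.two_le
  have hc : Fintype.card F + 2 ≤ (univ.image (circ2 σ A₁ A₂)).card + (univ.image (circ2 σ A₃ A₄)).card := by
    rw [Q.card]
    nlinarith
  obtain ⟨a, b, h, hne⟩ := exists_sol_ne (circ2 σ A₁ A₂) (circ2 σ A₃ A₄) w x₀ hc
  exact ⟨a.1, a.2, b.1, b.2, h, hne⟩

/-- An element of the norm one group with `λ² ≠ 1`. -/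
theorem exists_sq_ne (Q : QF σ q) : ∃ l : U1 σ, l.1 ^ 2 ≠ 1 := by
  by_contra hcon
  push Not at hcon
  have h1 : (univ : Finset (U1 σ)).card ≤ 2 := by
    have hP : (Polynomial.X ^ 2 - Polynomial.C 1 : Polynomial F).natDegree = 2 := by
      compute_degree!
    have hP0 : (Polynomial.X ^ 2 - Polynomial.C 1 : Polynomial F) ≠ 0 := by
      intro h
      rw [h] at hP
      simp at hP
    have h2 : (univ.image fun l : U1 σ => l.1) ⊆ (Polynomial.X ^ 2 - Polynomial.C 1 : Polynomial F).roots.toFinset := by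
      intro z hz
      rw [mem_image] at hz
      obtain ⟨l, -, rfl⟩ := hz
      rw [Multiset.mem_toFinset, Polynomial.mem_roots hP0, Polynomial.IsRoot.def]
      simp [hcon l]
    have h3 : (univ.image fun l : U1 σ => l.1).card = (univ : Finset (U1 σ)).card :=
      card_image_of_injective _ Subtype.val_injective
    rw [← h3]
    calc _ ≤ _ := card_le_card h2
      _ ≤ _ := Multiset.toFinset_card_le _
      _ ≤ _ := Polynomial.card_roots' _
      _ = 2 := hP
  rw [card_univ, card_U1 Q] at h1
  have := Q.two_le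
  omega

/-- An element of the norm one group with `λ^n ≠ 1`, when `n` is small. -/
theorem exists_pow_ne (Q : QF σ q) (n : ℕ) (hn0 : 0 < n) (hn : n ≤ q) : ∃ l : U1 σ, l.1 ^ n ≠ 1 := by
  by_contra hcon
  push Not at hcon
  have h1 : (univ : Finset (U1 σ)).card ≤ n := by
    have hP : (Polynomial.X ^ n - Polynomial.C 1 : Polynomial F).natDegree = n := by
      rw [Polynomial.natDegree_sub_C, Polynomial.natDegree_X_pow]
    have hP0 : (Polynomial.X ^ n - Polynomial.C 1 : Polynomial F) ≠ 0 := by
      intro h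
      rw [h] at hP
      simp at hP
      omega
    have h2 : (univ.image fun l : U1 σ => l.1) ⊆ (Polynomial.X ^ n - Polynomial.C 1 : Polynomial F).roots.toFinset := by
      intro z hz
      rw [mem_image] at hz
      obtain ⟨l, -, rfl⟩ := hz
      rw [Multiset.mem_toFinset, Polynomial.mem_roots hP0, Polynomial.IsRoot.def]
      simp [hcon l]
    have h3 : (univ.image fun l : U1 σ => l.1).card = (univ : Finset (U1 σ)).card :=
      card_image_of_injective _ Subtype.val_injective
    rw [← h3]
    calc _ ≤ _ := card_le_card h2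
      _ ≤ _ := Multiset.toFinset_card_le _
      _ ≤ _ := Polynomial.card_roots' _
      _ = n := hP
  rw [card_univ, card_U1 Q] at h1
  omega

end

end Cfsg.Agent.Lib.SUMon.Field
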