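/-
Unitary monomial matrices for the standard Hermitian form.
-/
import Cfsg.Agent.Lib.SUMon.Field
import Cfsg.Agent.Lib.SLC2.MonoA
import Cfsg.Agent.Lib.Geo.SUBase
set_option autoImplicit false

namespace Cfsg.Agent.Lib.SUMon.Base

open Cfsg Cfsg.Geo Cfsg.Agent.Lib.Geo.Basic Cfsg.Agent.Lib.Geo.Centres Cfsg.Agent.Lib.Geo.Parabolic
open Cfsg.Agent.Lib.Geo.Polar Cfsg.Agent.Lib.Geo.UnitaryInSL Cfsg.Agent.Lib.Geo.QForm
open Cfsg.Agent.Lib.Geo.SUGen Cfsg.Agent.Lib.Geo.SUBase
open Cfsg.Agent.Lib.SLC2.Mono Cfsg.Agent.Lib.SLC2.MonoA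
open Cfsg.Agent.Lib.SUMon.Field
open scoped MatrixGroups Matrix

variable {ι : Type} [Fintype ι] [DecidableEq ι] {F : Type*} [Field F] [Fintype F]
variable {σ : F ≃+* F} {q : ℕ} {f : (ι → F) → (ι → F) → F}

/-- The standard Hermitian form. -/
structure Std (σ : F ≃+* F) (f : (ι → F) → (ι → F) → F) : Prop where
  uf : IsUnitaryForm σ f
  form : ∀ u v, f u v = ∑ i, u i * σ (v i)

/-- An overgroup of the monomial group, in the special unitary group. -/
structure Over (f : (ι → F) → (ι → F) → F) (H : Subgroup (GL ι F)) : Prop where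
  iso : ∀ h ∈ H, IsIso f h
  det : ∀ h ∈ H, (h : Matrix ι ι F).det = 1
  mono : ∀ g : GL ι F, IsIso f g → (g : Matrix ι ι F).det = 1 → IsMono (g : Matrix ι ι F) → g ∈ H

theorem form_single_right (hs : Std σ f) (v : ι → F) (a : ι) : f v (Pi.single a 1) = v a := by
  rw [hs.form, Finset.sum_eq_single a]
  · simp
  · intro b _ hb
    simp [Pi.single_apply, hb]
  · simp

theorem form_single_left (hs : Std σ f) (v : ι → F) (a : ι) : f (Pi.single a 1) v = σ (v a) := by
  rw [hs.form, Finset.sum_eq_single a]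
  · simp
  · intro b _ hb
    simp [Pi.single_apply, hb]
  · simp

/-- The inverse of a unitary matrix is the conjugate transpose. -/
theorem inv_apply (hs : Std σ f) {g : GL ι F} (hg : IsIso f g) (i j : ι) :
    ((g⁻¹ : GL ι F) : Matrix ι ι F) i j = σ ((g : Matrix ι ι F) j i) := by
  have h1 := form_inv hg (Pi.single j 1) (Pi.single i 1)
  rw [form_single_right hs, mulVec_single_eq_col, form_single_left hs, mulVec_single_eq_col] at h1
  simp only [col] at h1
  exact h1

theorem row_sum (hs : Std σ f) {g : GL ι F} (hg : IsIso f g) (i l : ι) :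
    ∑ j, (g : Matrix ι ι F) i j * σ ((g : Matrix ι ι F) l j) = if i = l then 1 else 0 := by
  rw [← gl_mul_apply g i l]
  refine Finset.sum_congr rfl fun j _ => ?_
  rw [inv_apply hs hg]

/-- Products of monomial matrices. -/
theorem isMono_mul {z w : Matrix ι ι F} (hz : IsMono z) (hw : IsMono w) : IsMono (z * w) := by
  intro a
  obtain ⟨b, hb⟩ := hw a
  obtain ⟨c, hc⟩ := hz b
  refine ⟨c, fun i hi => ?_⟩
  rw [Matrix.mul_apply, Finset.sum_eq_single b]
  · rw [hc i hi, zero_mul]
  · intro j _ hj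
    rw [hb j hj, mul_zero]
  · simp

/-- The units attached to a family of norm one elements. -/
noncomputable def uD (t : ι → U1 σ) : ι → Fˣ := fun j => Units.mk0 (t j).1 (Field.ne_zero _)

@[simp] theorem coe_uD (t : ι → U1 σ) (j : ι) : ((uD t j : Fˣ) : F) = (t j).1 := rfl

theorem dg_mulVec (t : ι → Fˣ) (v : ι → F) : ((dg t : GL ι F) : Matrix ι ι F) *ᵥ v = fun j => (t j : F) * v j := by
  ext j
  rw [coe_dg, Matrix.mulVec_diagonal]

theorem dg_iso (hs : Std σ f) (t : ι → U1 σ) : IsIso f (dg (uD t)) := by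
  intro u v
  rw [dg_mulVec, dg_mulVec, hs.form, hs.form]
  refine Finset.sum_congr rfl fun j _ => ?_
  simp only [coe_uD, map_mul]
  have := (t j).2
  linear_combination (u j * σ (v j)) * this

theorem pm_iso' (hs : Std σ f) (π : Equiv.Perm ι) : IsIso f (pm π) := by
  intro u v
  rw [pm_mulVec, pm_mulVec, hs.form, hs.form]
  exact Equiv.sum_comp π (fun j => u j * σ (v j))

theorem isMono_mul_gl {z w : GL ι F} (hz : IsMono (z : Matrix ι ι F)) (hw : IsMono (w : Matrix ι ι F)) :
    IsMono ((z * w : GL ι F) : Matrix ι ι F) := by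
  rw [Units.val_mul]
  exact isMono_mul hz hw

/-- Pair structured diagonals. -/
noncomputable def pairDiag (Q : QF σ q) {m : ℕ} (e : Fin m × Bool → ι) (μ : Fin m → U1 σ) : ι → U1 σ :=
  Function.extend e (fun x => if x.2 then conjU Q (μ x.1) else μ x.1) (fun _ => oneU σ)

section PairDiag

variable (Q : QF σ q) {m : ℕ} {e : Fin m × Bool → ι} (he : Function.Injective e) (μ : Fin m → U1 σ)
include he

theorem pairDiag_false (k : Fin m) : pairDiag Q e μ (e (k, false)) = μ k := by
  rw [pairDiag, he.extend_apply]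
  simp

theorem pairDiag_true (k : Fin m) : pairDiag Q e μ (e (k, true)) = conjU Q (μ k) := by
  rw [pairDiag, he.extend_apply]
  simp

omit he in
theorem pairDiag_other (j : ι) (hj : ¬ ∃ x, e x = j) : pairDiag Q e μ j = oneU σ := by
  rw [pairDiag, Function.extend_apply' _ _ _ hj]

theorem prod_pairDiag : ∏ j, (pairDiag Q e μ j).1 = 1 := by
  have h1 : ∏ x : Fin m × Bool, (pairDiag Q e μ (e x)).1 = ∏ j, (pairDiag Q e μ j).1 :=
    Fintype.prod_of_injective e he _ _ (by
      intro j hj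
      have : ¬ ∃ x, e x = j := by
        rintro ⟨x, rfl⟩
        exact hj ⟨x, rfl⟩
      rw [pairDiag_other Q μ j this]
      rfl) (fun _ => rfl)
  rw [← h1, Fintype.prod_prod_type]
  refine Finset.prod_eq_one fun k _ => ?_
  rw [Fintype.prod_bool, pairDiag_true Q he, pairDiag_false Q he, coe_conjU, mul_comm]
  exact (μ k).2

theorem sum_pairDiag (A : ι → F) : ∑ j, ((pairDiag Q e μ j).1 - 1) * A j =
    ∑ k, (((μ k).1 - 1) * A (e (k, false)) + (σ (μ k).1 - 1) * A (e (k, true))) := by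
  have h1 : ∑ x : Fin m × Bool, ((pairDiag Q e μ (e x)).1 - 1) * A (e x) = ∑ j, ((pairDiag Q e μ j).1 - 1) * A j := by
    refine Fintype.sum_of_injective e he _ _ ?_ (fun _ => rfl)
    intro j hj
    have : ¬ ∃ x, e x = j := by
      rintro ⟨x, rfl⟩
      exact hj ⟨x, rfl⟩
    rw [pairDiag_other Q μ j this]
    simp
  rw [← h1, Fintype.sum_prod_type]
  refine Finset.sum_congr rfl fun k _ => ?_
  rw [Fintype.sum_bool, pairDiag_true Q he, pairDiag_false Q he, coe_conjU, add_comm]

end PairDiag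

/-- The diagonal of norm one entries, determinant one, lies in the overgroup. -/
theorem dg_mem (hs : Std σ f) {H : Subgroup (GL ι F)} (hH : Over f H) (t : ι → U1 σ) (ht : ∏ j, (t j).1 = 1) :
    dg (uD t) ∈ H := by
  apply hH.mono _ (dg_iso hs t) _ (isMono_dg _)
  rw [det_dg]
  simpa using ht

theorem cj_mem' (hs : Std σ f) {H : Subgroup (GL ι F)} (hH : Over f H) {y : GL ι F} (hy : y ∈ H) (t : ι → U1 σ)
    (ht : ∏ j, (t j).1 = 1) : cj y (uD t) ∈ H :=
  H.mul_mem (H.mul_mem hy (dg_mem hs hH t ht)) (H.inv_mem hy)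

end Cfsg.Agent.Lib.SUMon.Base
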