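/-
The first zero: a non-monomial unitary matrix in an overgroup gives one with a zero entry.
-/
import Cfsg.Agent.Lib.SUMon.Base
set_option autoImplicit false

namespace Cfsg.Agent.Lib.SUMon.Zero

open Cfsg Cfsg.Geo Cfsg.Agent.Lib.Geo.Basic Cfsg.Agent.Lib.Geo.Centres Cfsg.Agent.Lib.Geo.Parabolic
open Cfsg.Agent.Lib.Geo.Polar Cfsg.Agent.Lib.Geo.UnitaryInSL Cfsg.Agent.Lib.Geo.QForm
open Cfsg.Agent.Lib.Geo.SUGen Cfsg.Agent.Lib.Geo.SUBase
open Cfsg.Agent.Lib.SLC2.Mono Cfsg.Agent.Lib.SLC2.MonoA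
open Cfsg.Agent.Lib.SUMon.Field Cfsg.Agent.Lib.SUMon.Base Cfsg.Agent.Lib.SUMon.Sums
open scoped MatrixGroups Matrix

variable {ι : Type} [Fintype ι] [DecidableEq ι] {F : Type*} [Field F] [Fintype F]
variable {σ : F ≃+* F} {q : ℕ} {f : (ι → F) → (ι → F) → F}

/-- Pairs with different values out of a function with small fibres. -/
theorem exists_pairs {X : Type*} [Fintype X] (τ : ι → X) (hn : 12 ≤ Fintype.card ι)
    (hfib : ∀ s : Fin 7 → ι, Function.Injective s → ∃ i, τ (s i) ≠ τ (s 0)) :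
    ∃ e : Fin 6 × Bool → ι, Function.Injective e ∧ ∀ k, τ (e (k, false)) ≠ τ (e (k, true)) := by
  classical
  set n := Fintype.card ι with hnn
  let eι : Fin n ≃ ι := (Fintype.equivFin ι).symm
  let ρ : X ≃ Fin (Fintype.card X) := Fintype.equivFin X
  let g : Fin n → ℕ := fun i => (ρ (τ (eι i))).1
  let s : Equiv.Perm (Fin n) := Tuple.sort g
  have hmono : Monotone (g ∘ s) := Tuple.monotone_sort g
  let idx : ℕ → Fin n := fun i => if h : i < n then ⟨i, h⟩ else ⟨0, by omega⟩
  have hidx : ∀ i (h : i < n), idx i = ⟨i, h⟩ := fun i h => by simp [idx, h]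
  refine ⟨fun x => eι (s (idx (x.1.1 + if x.2 then 6 else 0))), ?_, ?_⟩
  · intro x y hxy
    have h1 := s.injective (eι.injective hxy)
    have hx : x.1.1 + (if x.2 then 6 else 0) < n := by
      have := x.1.2
      split_ifs <;> omega
    have hy : y.1.1 + (if y.2 then 6 else 0) < n := by
      have := y.1.2
      split_ifs <;> omega
    rw [hidx _ hx, hidx _ hy, Fin.mk.injEq] at h1
    obtain ⟨k, b⟩ := x
    obtain ⟨k', b'⟩ := y
    have hk := k.2
    have hk' := k'.2
    cases b <;> cases b' <;> simp only [if_true, if_false, Bool.false_eq_true] at h1 <;>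
      first
      | (exact Prod.ext (Fin.ext (by simpa using h1)) rfl)
      | (exfalso; simp only [add_zero] at h1; omega)
  · intro k hk
    simp only [if_true, if_false, Bool.false_eq_true, add_zero] at hk
    have h6 : k.1 + 6 < n := by
      have := k.2
      omega
    have h0 : k.1 < n := by omega
    rw [hidx _ h0, hidx _ h6] at hk
    have heq : g (s ⟨k.1, h0⟩) = g (s ⟨k.1 + 6, h6⟩) := by
      simp only [g]
      rw [hk]
    -- seven elements in the fibre
    have hall : ∀ i : Fin 7, g (s ⟨k.1 + i.1, by have := i.2; omega⟩) = g (s ⟨k.1, h0⟩) := by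
      intro i
      apply le_antisymm
      · rw [heq]
        exact hmono (by
          rw [Fin.le_def]
          have := i.2
          simp only
          omega)
      · exact hmono (by
          rw [Fin.le_def]
          simp only
          omega)
    have hinj : Function.Injective (fun i : Fin 7 => eι (s ⟨k.1 + i.1, by have := i.2; omega⟩)) := by
      intro i i' h
      have h1 := s.injective (eι.injective h)
      rw [Fin.mk.injEq] at h1
      exact Fin.ext (by omega)
    obtain ⟨i, hi⟩ := hfib _ hinj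
    apply hi
    have e1 := hall i
    have e2 := hall 0
    simp only [g] at e1 e2
    exact ρ.injective (Fin.ext (e1.trans e2.symm))

/-- Six ellipses. -/
theorem six_solutions (Q : QF σ q) (A B : Fin 6 → F) (h : ∀ k, A k * σ (A k) ≠ B k * σ (B k)) (w : F) :
    ∃ Sol : Finset (Fin 6 → U1 σ), 25 ≤ Sol.card ∧
      ∀ μ ∈ Sol, ∑ k, ((μ k).1 * A k + σ (μ k).1 * B k) = w := by
  classical
  have hq := Q.two_le
  obtain ⟨d, hd⟩ : ∃ d, q = d + 2 := ⟨q - 2, by omega⟩
  have hU : Fintype.card (U1 σ) = (d + 1) + 2 := by rw [card_U1 Q, hd]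
  have inj := fun k => ell_injective Q (A k) (B k) (h k)
  have K2 := fun k y hy => K_ell_le Q (A k) (B k) (h k) y hy
  have hcount := six_count (ell σ (A 0) (B 0)) (ell σ (A 1) (B 1)) (ell σ (A 2) (B 2))
    (ell σ (A 3) (B 3)) (ell σ (A 4) (B 4)) (ell σ (A 5) (B 5)) (d + 1) hU (inj 0) (K2 1) (inj 1) (K2 2) (inj 2)
    (inj 3) (K2 4) (inj 4) (K2 5) (inj 5) w
  rw [Q.card, hd] at hcount
  set N := Nn (fun p : (U1 σ × U1 σ) × U1 σ => ell σ (A 0) (B 0) p.1.1 + ell σ (A 1) (B 1) p.1.2 + ell σ (A 2) (B 2) p.2)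
    (fun p : (U1 σ × U1 σ) × U1 σ => ell σ (A 3) (B 3) p.1.1 + ell σ (A 4) (B 4) p.1.2 + ell σ (A 5) (B 5) p.2) w with hN
  have hN25 : 25 ≤ N := by
    by_contra hcon
    push Not at hcon
    have h1 : (d + 2) ^ 2 * (2 * (d + 1 + 2) ^ 4 + (d + 1) * (2 * (d + 1 + 2) ^ 2 + (d + 1) * (d + 1 + 2)) + N) ≤
        (d + 2) ^ 2 * (2 * (d + 1 + 2) ^ 4 + (d + 1) * (2 * (d + 1 + 2) ^ 2 + (d + 1) * (d + 1 + 2)) + 24) :=
      Nat.mul_le_mul_left _ (by omega)
    have h2 := le_trans hcount h1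
    have h3 : 2 * (d + 1 + 2) ^ 6 = (d + 2) ^ 2 * (2 * (d + 1 + 2) ^ 4 + (d + 1) * (2 * (d + 1 + 2) ^ 2 + (d + 1) * (d + 1 + 2)) + 24) +
        (630 + 1076 * d + 703 * d ^ 2 + 211 * d ^ 3 + 27 * d ^ 4 + d ^ 5) := by
      ring
    have h4 : 0 < 630 + 1076 * d + 703 * d ^ 2 + 211 * d ^ 3 + 27 * d ^ 4 + d ^ 5 := by positivity
    rw [h3] at h2
    exact absurd h2 (by
      rw [not_le]
      exact Nat.lt_add_of_pos_right h4)
  let toFn : ((U1 σ × U1 σ) × U1 σ) × ((U1 σ × U1 σ) × U1 σ) → (Fin 6 → U1 σ) :=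
    fun p => ![p.1.1.1, p.1.1.2, p.1.2, p.2.1.1, p.2.1.2, p.2.2]
  have hinj : Function.Injective toFn := by
    rintro ⟨⟨⟨a, b⟩, c⟩, ⟨⟨a', b'⟩, c'⟩⟩ ⟨⟨⟨a₁, b₁⟩, c₁⟩, ⟨⟨a₁', b₁'⟩, c₁'⟩⟩ h0
    have e0 := congrFun h0 0
    have e1 := congrFun h0 1
    have e2 := congrFun h0 2
    have e3 := congrFun h0 3
    have e4 := congrFun h0 4
    have e5 := congrFun h0 5
    simp only [toFn, Matrix.cons_val] at e0 e1 e2 e3 e4 e5
    subst e0 e1 e2 e3 e4 e5
    rfl
  refine ⟨(Finset.univ.filter fun p : ((U1 σ × U1 σ) × U1 σ) × ((U1 σ × U1 σ) × U1 σ) =>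
    ell σ (A 0) (B 0) p.1.1.1 + ell σ (A 1) (B 1) p.1.1.2 + ell σ (A 2) (B 2) p.1.2 +
      (ell σ (A 3) (B 3) p.2.1.1 + ell σ (A 4) (B 4) p.2.1.2 + ell σ (A 5) (B 5) p.2.2) = w).image toFn, ?_, ?_⟩
  · rw [Finset.card_image_of_injective _ hinj]
    exact hN25
  · intro μ hμ
    rw [Finset.mem_image] at hμ
    obtain ⟨p, hp, rfl⟩ := hμ
    rw [Finset.mem_filter] at hp
    rw [Fin.sum_univ_six]
    simp only [toFn, Matrix.cons_val]
    have := hp.2
    simp only [ell] at this
    rw [← this]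
    ring

/-- The vanishing of an entry of a conjugate. -/
theorem cj_entry (hs : Std σ f) {g : GL ι F} (hg : IsIso f g) (t : ι → U1 σ) (i l : ι) (hil : i ≠ l)
    (hz : ∑ j, ((t j).1 - 1) * ((g : Matrix ι ι F) i j * σ ((g : Matrix ι ι F) l j)) = 0) :
    ((cj g (uD t) : GL ι F) : Matrix ι ι F) i l = 0 := by
  rw [cj_apply]
  have h2 := row_sum hs hg i l
  rw [if_neg hil] at h2
  have h1 : ∑ j, (g : Matrix ι ι F) i j * ((uD t j : Fˣ) : F) * ((g⁻¹ : GL ι F) : Matrix ι ι F) j l =
      ∑ j, ((t j).1 - 1) * ((g : Matrix ι ι F) i j * σ ((g : Matrix ι ι F) l j)) +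
        ∑ j, (g : Matrix ι ι F) i j * σ ((g : Matrix ι ι F) l j) := by
    rw [← Finset.sum_add_distrib]
    refine Finset.sum_congr rfl fun j _ => ?_
    rw [inv_apply hs hg, coe_uD]
    ring
  rw [h1, hz, h2, add_zero]

theorem not_isMono_of_small {g : GL ι F} (hfull : ∀ i j, (g : Matrix ι ι F) i j ≠ 0) (t : ι → Fˣ) (B : Finset ι)
    (hB : ∀ j, j ∉ B → t j = 1) (j : ι) (hj : (t j : F) ≠ 1) (hcard : 2 * B.card < Fintype.card ι) :
    ¬ IsMono ((cj g t : GL ι F) : Matrix ι ι F) := by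
  intro h
  have h1 := col_small g t B hB h j hj
  have h2 : colSupp (g : Matrix ι ι F) j = Finset.univ := by
    ext i
    simp only [mem_colSupp, Finset.mem_univ, iff_true]
    exact hfull i j
  rw [h2, Finset.card_univ] at h1
  omega

section First

variable {H : Subgroup (GL ι F)}

/-- The case of small fibres. -/
theorem zero_of_small_fibres (hs : Std σ f) (Q : QF σ q) (hH : Over f H) (hι : 13 ≤ Fintype.card ι)
    {g : GL ι F} (hgH : g ∈ H) (hfull : ∀ i j, (g : Matrix ι ι F) i j ≠ 0) (i l : ι) (hil : i ≠ l)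
    (A : ι → F) (hA' : ∀ j, A j = (g : Matrix ι ι F) i j * σ ((g : Matrix ι ι F) l j))
    (hfib : ∀ s : Fin 7 → ι, Function.Injective s → ∃ i, A (s i) * σ (A (s i)) ≠ A (s 0) * σ (A (s 0))) :
    ∃ y ∈ H, ¬ IsMono (y : Matrix ι ι F) ∧ ∃ i l, (y : Matrix ι ι F) i l = 0 := by
  classical
  have hg := hH.iso g hgH
  obtain ⟨e, he, hne⟩ := exists_pairs (fun j => A j * σ (A j)) (by omega) hfib
  obtain ⟨Sol, hSol, hSolw⟩ := six_solutions Q (fun k => A (e (k, false))) (fun k => A (e (k, true))) hne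
    (∑ k, (A (e (k, false)) + A (e (k, true))))
  have hzero : ∀ μ ∈ Sol, ∑ j, ((pairDiag Q e μ j).1 - 1) * A j = 0 := by
    intro μ hμ
    rw [sum_pairDiag Q he μ A]
    have h1 := hSolw μ hμ
    have h2 : ∑ k, (((μ k).1 - 1) * A (e (k, false)) + (σ (μ k).1 - 1) * A (e (k, true))) =
        ∑ k, ((μ k).1 * A (e (k, false)) + σ (μ k).1 * A (e (k, true))) -
          ∑ k, (A (e (k, false)) + A (e (k, true))) := by
      rw [← Finset.sum_sub_distrib]
      refine Finset.sum_congr rfl fun k _ => ?_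
      ring
    rw [h2, h1, sub_self]
  by_contra hno
  push Not at hno
  have hmono : ∀ μ ∈ Sol, IsMono ((cj g (uD (pairDiag Q e μ)) : GL ι F) : Matrix ι ι F) := by
    intro μ hμ
    by_contra hcon
    refine hno _ (cj_mem' hs hH hgH _ (prod_pairDiag Q he μ)) hcon i l ?_
    apply cj_entry hs hg _ i l hil
    have := hzero μ hμ
    simpa only [hA'] using this
  set B : Finset ι := Finset.univ.image e with hB
  have hBc : B.card ≤ 12 := by
    refine le_trans Finset.card_image_le ?_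
    simp
  have hBo : ∀ μ : Fin 6 → U1 σ, ∀ j, j ∉ B → uD (pairDiag Q e μ) j = 1 := by
    intro μ j hj
    have hj' : ¬ ∃ x, e x = j := by
      rintro ⟨x, rfl⟩
      exact hj (Finset.mem_image_of_mem _ (Finset.mem_univ _))
    apply Units.ext
    rw [coe_uD, pairDiag_other Q μ j hj']
    rfl
  -- a non-trivial solution
  obtain ⟨μ₁, hμ₁, hne₁⟩ := Finset.exists_mem_ne (by omega : 1 < Sol.card) (fun _ => oneU σ)
  obtain ⟨k₁, hk₁⟩ : ∃ k, μ₁ k ≠ oneU σ := by
    by_contra hcon
    push Not at hcon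
    exact hne₁ (funext hcon)
  have hn24 : Fintype.card ι ≤ 24 := by
    have h1 := col_small g (uD (pairDiag Q e μ₁)) B (hBo μ₁) (hmono μ₁ hμ₁) (e (k₁, false)) (by
      rw [coe_uD, pairDiag_false Q he]
      intro h
      exact hk₁ (Subtype.ext h))
    have h2 : colSupp (g : Matrix ι ι F) (e (k₁, false)) = Finset.univ := by
      ext i
      simp only [mem_colSupp, Finset.mem_univ, iff_true]
      exact hfull i _
    rw [h2, Finset.card_univ] at h1
    omega
  -- the injection
  obtain ⟨j₀, hj₀⟩ := exists_notMem_finset B (by omega)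
  have hrex : ∀ μ : Fin 6 → U1 σ, ∃ r : ι, μ ∈ Sol →
      ∀ m, m ≠ r → ((cj g (uD (pairDiag Q e μ)) : GL ι F) : Matrix ι ι F) i m = 0 := by
    intro μ
    by_cases hμ : μ ∈ Sol
    · obtain ⟨π, hπ⟩ := exists_perm_of_isMono _ (hmono μ hμ)
      refine ⟨π.symm i, fun _ m hm => ?_⟩
      by_contra h0
      have := (hπ i m).mp h0
      apply hm
      rw [this]
      simp
    · exact ⟨i, fun h => absurd h hμ⟩
  choose rf hrf using hrex
  have hrel : ∀ μ ∈ Sol, ∀ j, ((cj g (uD (pairDiag Q e μ)) : GL ι F) : Matrix ι ι F) i (rf μ) * (g : Matrix ι ι F) (rf μ) j =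
      (g : Matrix ι ι F) i j * (pairDiag Q e μ j).1 := by
    intro μ hμ j
    have h1 : ((cj g (uD (pairDiag Q e μ)) : GL ι F) : Matrix ι ι F) * (g : Matrix ι ι F) =
        (g : Matrix ι ι F) * ((dg (uD (pairDiag Q e μ)) : GL ι F) : Matrix ι ι F) := by
      rw [cj, ← Units.val_mul, ← Units.val_mul]
      congr 1
      group
    have h2 := congrFun (congrFun h1 i) j
    rw [Matrix.mul_apply, Finset.sum_eq_single (rf μ), coe_dg, Matrix.mul_diagonal, coe_uD] at h2
    · exact h2
    · intro m _ hm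
      rw [hrf μ hμ m hm, zero_mul]
    · simp
  have hcard : Sol.card ≤ (Finset.univ : Finset ι).card := by
    refine Finset.card_le_card_of_injOn rf (fun _ _ => Finset.mem_coe.mpr (Finset.mem_univ _)) ?_
    intro μ hμ μ' hμ' hrr
    have hμ1 : μ ∈ Sol := hμ
    have hμ1' : μ' ∈ Sol := hμ'
    have hrr' : rf μ = rf μ' := hrr
    have hj₀' : ¬ ∃ x, e x = j₀ := by
      rintro ⟨x, rfl⟩
      exact hj₀ (Finset.mem_image_of_mem _ (Finset.mem_univ _))
    have e1 := hrel μ hμ1 j₀
    have e2 := hrel μ' hμ1' j₀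
    rw [pairDiag_other Q μ j₀ hj₀', coe_oneU, mul_one] at e1
    rw [pairDiag_other Q μ' j₀ hj₀', coe_oneU, mul_one, ← hrr'] at e2
    have e3 : ((cj g (uD (pairDiag Q e μ)) : GL ι F) : Matrix ι ι F) i (rf μ) =
        ((cj g (uD (pairDiag Q e μ')) : GL ι F) : Matrix ι ι F) i (rf μ) :=
      mul_right_cancel₀ (hfull _ j₀) (e1.trans e2.symm)
    funext k
    have e4 := hrel μ hμ1 (e (k, false))
    have e5 := hrel μ' hμ1' (e (k, false))
    rw [pairDiag_false Q he] at e4 e5
    rw [← hrr', ← e3, e4] at e5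
    exact Subtype.ext (mul_left_cancel₀ (hfull _ _) e5)
  rw [Finset.card_univ] at hcard
  omega

/-- **A non-monomial matrix in the overgroup gives one with a zero entry.** -/
theorem exists_zero (hs : Std σ f) (Q : QF σ q) (hH : Over f H) (hι : 13 ≤ Fintype.card ι)
    {g : GL ι F} (hgH : g ∈ H) (hng : ¬ IsMono (g : Matrix ι ι F)) :
    ∃ y ∈ H, ¬ IsMono (y : Matrix ι ι F) ∧ ∃ i l, (y : Matrix ι ι F) i l = 0 := by
  classical
  by_cases hz : ∃ i l, (g : Matrix ι ι F) i l = 0
  · exact ⟨g, hgH, hng, hz⟩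
  push Not at hz
  have hg := hH.iso g hgH
  obtain ⟨i, l, hil⟩ : ∃ i l : ι, i ≠ l := by
    obtain ⟨u, v, h, -, -⟩ := exists_two_notMem (∅ : Finset ι) (by simp; omega)
    exact ⟨u, v, h⟩
  obtain ⟨A, hA⟩ : ∃ A : ι → F, A = fun j => (g : Matrix ι ι F) i j * σ ((g : Matrix ι ι F) l j) := ⟨_, rfl⟩
  have hA' : ∀ j, A j = (g : Matrix ι ι F) i j * σ ((g : Matrix ι ι F) l j) := fun j => by rw [hA]
  by_cases hfib : ∀ s : Fin 7 → ι, Function.Injective s → ∃ i, A (s i) * σ (A (s i)) ≠ A (s 0) * σ (A (s 0))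
  · exact zero_of_small_fibres hs Q hH hι hgH hz i l hil A hA' hfib
  push Not at hfib
  obtain ⟨s, hsi, hsx⟩ := hfib
  have hA0 : ∀ j, A j ≠ 0 := fun j => by
    rw [hA']
    exact mul_ne_zero (hz _ _) ((map_ne_zero σ).mpr (hz _ _))
  by_cases hdiff : ∃ a' b', A (s a') ≠ A (s b')
  · obtain ⟨a', b', hab'⟩ := hdiff
    obtain ⟨a, ha⟩ : ∃ a, a = s a' := ⟨_, rfl⟩
    obtain ⟨b, hb⟩ : ∃ b, b = s b' := ⟨_, rfl⟩
    have hab : A a ≠ A b := by rw [ha, hb]; exact hab'
    have habi : a ≠ b := fun h => hab (by rw [h])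
    have hNa0 : A a * σ (A a) = A b * σ (A b) := by
      rw [ha, hb, hsx a', hsx b']
    have hsA0 : ∀ j, σ (A j) ≠ 0 := fun j => (map_ne_zero σ).mpr (hA0 j)
    let μ : U1 σ := ⟨A b / A a, by
      rw [map_div₀]
      have := hA0 a
      have := hsA0 a
      field_simp
      linear_combination -hNa0⟩
    let e : Fin 1 × Bool → ι := fun x => if x.2 then b else a
    have he : Function.Injective e := by
      rintro ⟨k, c⟩ ⟨k', c'⟩ h
      have hk : k = k' := Subsingleton.elim _ _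
      subst hk
      cases c <;> cases c' <;> simp_all [e]
    have hμ1 : μ.1 ≠ 1 := by
      intro h
      apply hab
      have : A b / A a = 1 := h
      field_simp [hA0 a] at this
      exact this.symm
    refine ⟨cj g (uD (pairDiag Q e (fun _ => μ))), cj_mem' hs hH hgH _ (prod_pairDiag Q he _), ?_, i, l, ?_⟩
    · refine not_isMono_of_small hz _ {a, b} ?_ a ?_ ?_
      · intro j hj
        simp only [Finset.mem_insert, Finset.mem_singleton, not_or] at hj
        apply Units.ext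
        rw [coe_uD, pairDiag_other]
        · rfl
        · rintro ⟨⟨k, c⟩, rfl⟩
          cases c
          · exact hj.1 rfl
          · exact hj.2 rfl
      · rw [coe_uD]
        have : e (0, false) = a := rfl
        rw [← this, pairDiag_false Q he]
        exact hμ1
      · have : ({a, b} : Finset ι).card ≤ 2 := Finset.card_le_two
        omega
    · apply cj_entry hs hg _ i l hil
      simp only [← hA']
      rw [sum_pairDiag Q he, Fin.sum_univ_one]
      have e1 : e (0, false) = a := rfl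
      have e2 : e (0, true) = b := rfl
      rw [e1, e2]
      simp only [μ, map_div₀]
      have := hA0 a
      have := hA0 b
      have h3 := hsA0 a
      have e3 : σ (A b) / σ (A a) * A b = A a := by
        field_simp
        linear_combination -hNa0
      have e4 : (A b / A a) * A a = A b := by field_simp
      calc (A b / A a - 1) * A a + (σ (A b) / σ (A a) - 1) * A b
          = (A b / A a) * A a - A a + (σ (A b) / σ (A a) * A b - A b) := by ring
        _ = 0 := by rw [e3, e4]; ring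
  · push Not at hdiff
    have hc : Fintype.card (Fin 2 × Bool) ≤ Fintype.card (Fin 7) := by
      simp
    obtain ⟨e'⟩ := Function.Embedding.nonempty_of_card_le hc
    let e : Fin 2 × Bool → ι := fun x => s (e' x)
    have he : Function.Injective e := fun x y h => e'.injective (hsi h)
    have hAe : ∀ x, A (e x) = A (e (0, false)) := fun x => hdiff _ _
    obtain ⟨μ, ν, hμ, hν, hs0⟩ := exists_s_pair Q 1 1 (map_one σ) (map_one σ) one_ne_zero one_ne_zero
    refine ⟨cj g (uD (pairDiag Q e ![μ, ν])), cj_mem' hs hH hgH _ (prod_pairDiag Q he _), ?_, i, l, ?_⟩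
    · refine not_isMono_of_small hz _ (Finset.univ.image e) ?_ (e (0, false)) ?_ ?_
      · intro j hj
        apply Units.ext
        rw [coe_uD, pairDiag_other]
        · rfl
        · rintro ⟨x, rfl⟩
          exact hj (Finset.mem_image_of_mem _ (Finset.mem_univ _))
      · rw [coe_uD, pairDiag_false Q he]
        exact hμ
      · have : (Finset.univ.image e).card ≤ 4 := by
          refine le_trans Finset.card_image_le ?_
          simp
        omega
    · apply cj_entry hs hg _ i l hil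
      simp only [← hA']
      rw [sum_pairDiag Q he, Fin.sum_univ_two, hAe (1, false), hAe (1, true), hAe (0, true)]
      simp only [Matrix.cons_val_zero, Matrix.cons_val_one]
      have e1 := sN_eq μ
      have e2 := sN_eq ν
      rw [mul_one, mul_one, e1, e2] at hs0
      linear_combination (-A (e (0, false))) * hs0

end First

end Cfsg.Agent.Lib.SUMon.Zero
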