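/-
From a zero entry to a non-monomial matrix with a coordinate column (odd characteristic).
-/
import Cfsg.Agent.Lib.SUMon.Zero
set_option autoImplicit false

namespace Cfsg.Agent.Lib.SUMon.Coord

open Cfsg Cfsg.Geo Cfsg.Agent.Lib.Geo.Basic Cfsg.Agent.Lib.Geo.Centres Cfsg.Agent.Lib.Geo.Parabolic
open Cfsg.Agent.Lib.Geo.Polar Cfsg.Agent.Lib.Geo.UnitaryInSL Cfsg.Agent.Lib.Geo.QForm
open Cfsg.Agent.Lib.Geo.SUGen Cfsg.Agent.Lib.Geo.SUBase
open Cfsg.Agent.Lib.SLC2.Mono Cfsg.Agent.Lib.SLC2.MonoA
open Cfsg.Agent.Lib.SUMon.Field Cfsg.Agent.Lib.SUMon.Base Cfsg.Agent.Lib.SUMon.Sums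
open Cfsg.Agent.Lib.SUMon.Zero
open scoped MatrixGroups Matrix

variable {ι : Type} [Fintype ι] [DecidableEq ι] {F : Type*} [Field F]

/-- Two zeros in a column give a coordinate column. -/
theorem exists_sing_of_two_zeros' (M : Subgroup (GL ι F)) (hι : 9 ≤ Fintype.card ι) (lam : Fˣ) (hl : (lam : F) ^ 2 ≠ 1)
    (hT : ∀ a b : ι, a ≠ b → dg (dd a b lam) ∈ M)
    (y : GL ι F) (hy : y ∈ M) (hny : ¬ IsMono (y : Matrix ι ι F)) (l u v : ι) (huv : u ≠ v)
    (hu : (y : Matrix ι ι F) u l = 0) (hv : (y : Matrix ι ι F) v l = 0) :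
    ∃ g ∈ M, ¬ IsMono (g : Matrix ι ι F) ∧ ∃ a, SingCol (g : Matrix ι ι F) a := by
  classical
  by_contra hno
  push Not at hno
  have hno' : ∀ g ∈ M, ¬ IsMono (g : Matrix ι ι F) → ∀ a, ¬ SingCol (g : Matrix ι ι F) a := by
    intro g hg hg2 a h
    exact hno g hg hg2 a h
  have hmono : ∀ g ∈ M, ∀ a, SingCol (g : Matrix ι ι F) a → IsMono (g : Matrix ι ι F) := by
    intro g hg a ha
    by_contra h
    exact hno' g hg h a ha
  have hl1 : (lam : F) ≠ 1 := by
    intro h
    apply hl
    rw [h]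
    simp
  set p : GL ι F := y⁻¹ with hp
  have hpM : p ∈ M := M.inv_mem hy
  have hnp : ¬ IsMono (p : Matrix ι ι F) := not_isMono_inv y hny
  have hpi : p⁻¹ = y := by simp [hp]
  -- the first conjugate
  have hz : IsMono ((cj p (dd u v lam) : GL ι F) : Matrix ι ι F) := by
    refine hmono _ (M.mul_mem (M.mul_mem hpM (hT u v huv)) (M.inv_mem hpM)) l (singCol_cj _ _ _ fun j => ?_)
    rw [hpi]
    by_cases hj1 : j = u
    · rw [hj1, hu, mul_zero]
    · by_cases hj2 : j = v
      · rw [hj2, hv, mul_zero]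
      · rw [dd_other u v lam j hj1 hj2]
        simp
  have hcard1 : (colSupp (p : Matrix ι ι F) u).card ≤ 4 := by
    have h1 := col_small p (dd u v lam) {u, v} (fun j hj => by
      simp only [Finset.mem_insert, Finset.mem_singleton, not_or] at hj
      exact dd_other u v lam j hj.1 hj.2) hz u (by rw [dd_left]; exact hl1)
    have h2 : ({u, v} : Finset ι).card ≤ 2 := Finset.card_le_two
    omega
  -- the second family
  set Z : Finset ι := (colSupp (p : Matrix ι ι F) u)ᶜ with hZ
  have hZcard : 5 ≤ Z.card := by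
    rw [hZ, Finset.card_compl]
    omega
  have hZmem : ∀ a ∈ Z, (p : Matrix ι ι F) a u = 0 := by
    intro a ha
    rw [hZ, Finset.mem_compl, mem_colSupp] at ha
    simpa using ha
  have hpair : ∀ a ∈ Z, ∀ b ∈ Z, a ≠ b →
      IsMono ((cj y (dd a b lam) : GL ι F) : Matrix ι ι F) := by
    intro a ha b hb hab
    refine hmono _ (M.mul_mem (M.mul_mem hy (hT a b hab)) (M.inv_mem hy)) u (singCol_cj _ _ _ fun j => ?_)
    by_cases hj1 : j = a
    · rw [hj1]
      change _ * (p : Matrix ι ι F) a u = 0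
      rw [hZmem a ha, mul_zero]
    · by_cases hj2 : j = b
      · rw [hj2]
        change _ * (p : Matrix ι ι F) b u = 0
        rw [hZmem b hb, mul_zero]
      · rw [dd_other a b lam j hj1 hj2]
        simp
  obtain ⟨a₀, ha₀⟩ : Z.Nonempty := Finset.card_pos.mp (by omega)
  obtain ⟨a₁, ha₁, ha₁0⟩ : ∃ a₁ ∈ Z, a₁ ≠ a₀ := by
    by_contra hcon
    push Not at hcon
    have : Z ⊆ {a₀} := fun x hx => by simpa using hcon x hx
    have := Finset.card_le_card this
    simp at this
    omega
  have hC : (colSupp (y : Matrix ι ι F) a₀).card ≤ 4 := by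
    have h1 := col_small y (dd a₀ a₁ lam) {a₀, a₁} (fun j hj => by
      simp only [Finset.mem_insert, Finset.mem_singleton, not_or] at hj
      exact dd_other a₀ a₁ lam j hj.1 hj.2) (hpair a₀ ha₀ a₁ ha₁ ha₁0.symm) a₀
      (by rw [dd_left]; exact hl1)
    have h2 : ({a₀, a₁} : Finset ι).card ≤ 2 := Finset.card_le_two
    omega
  have hsub : ∀ b ∈ Z, ∀ i, (y : Matrix ι ι F) i b ≠ 0 → i ∈ colSupp (y : Matrix ι ι F) a₀ := by
    intro b hb i hi
    rw [mem_colSupp]
    by_cases hb0 : b = a₀
    · rwa [hb0] at hi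
    · exact supp_sub_of_mono y a₀ b (Ne.symm hb0) (dd a₀ b lam) lam (dd_left _ _ _)
        (dd_right _ _ (Ne.symm hb0) _) (fun j h1 h2 => dd_other _ _ _ j h1 h2) hl
        (hpair a₀ ha₀ b hb (Ne.symm hb0)) (hno' y hy hny a₀) i hi
  have := card_le_of_supp y Z _ hsub
  omega


variable [Fintype F] {σ : F ≃+* F} {q : ℕ} {f : (ι → F) → (ι → F) → F} {H : Subgroup (GL ι F)}

theorem dg_iso_gen (hs : Std σ f) (t : ι → Fˣ) (ht : ∀ j, (t j : F) * σ (t j : F) = 1) : IsIso f (dg t) := by
  intro u v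
  rw [dg_mulVec, dg_mulVec, hs.form, hs.form]
  refine Finset.sum_congr rfl fun j _ => ?_
  simp only [map_mul]
  linear_combination (u j * σ (v j)) * ht j

theorem dd_mem (hs : Std σ f) (hH : Over f H) (lam : U1 σ) (a b : ι) (hab : a ≠ b) :
    dg (dd a b (Units.mk0 lam.1 (Field.ne_zero lam))) ∈ H := by
  apply hH.mono
  · apply dg_iso_gen hs
    intro j
    have h1 := lam.2
    have h0 := Field.ne_zero lam
    have h0' := Field.sig_ne_zero lam
    by_cases hja : j = a
    · subst hja
      rw [dd_left]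
      exact h1
    · by_cases hjb : j = b
      · subst hjb
        rw [dd_right a j hab]
        simp only [Units.val_inv_eq_inv_val, Units.val_mk0, map_inv₀]
        rw [← mul_inv, h1, inv_one]
      · rw [dd_other a b _ j hja hjb]
        simp
  · rw [det_dg]
    exact prod_dd a b hab _
  · exact isMono_dg _

/-- A small column in the case of many scalars. -/
theorem step_large (hs : Std σ f) (Q : QF σ q) (hH : Over f H) (hι : 4 ≤ Fintype.card ι)
    (hq : Fintype.card ι ≤ q) {y : GL ι F} (hyH : y ∈ H) (i l : ι) (hil : (y : Matrix ι ι F) i l = 0) :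
    (∃ z ∈ H, ¬ IsMono (z : Matrix ι ι F) ∧ ∃ a, SingCol (z : Matrix ι ι F) a) ∨
      ∃ u v, u ≠ v ∧ (y : Matrix ι ι F) u l = 0 ∧ (y : Matrix ι ι F) v l = 0 := by
  classical
  have hiso := hH.iso y hyH
  set n := Fintype.card ι with hn
  obtain ⟨l₀, hl₀⟩ := exists_pow_ne Q n (by omega) hq
  have hl₀n := l₀.2
  let t₁ : U1 σ := ⟨(σ l₀.1) ^ (n - 1), by
    rw [map_pow, Q.inv, ← mul_pow, mul_comm, hl₀n, one_pow]⟩
  let t : ι → U1 σ := fun j => if j = l then t₁ else l₀
  have htl : t l = t₁ := by simp [t]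
  have hto : ∀ j, j ≠ l → t j = l₀ := fun j hj => by simp [t, hj]
  have hprod : ∏ j, (t j).1 = 1 := by
    rw [← Finset.mul_prod_erase Finset.univ _ (Finset.mem_univ l), htl]
    have h1 : ∏ j ∈ Finset.univ.erase l, (t j).1 = l₀.1 ^ (n - 1) := by
      rw [Finset.prod_congr rfl (g := fun _ => l₀.1)]
      · rw [Finset.prod_const, Finset.card_erase_of_mem (Finset.mem_univ l), Finset.card_univ]
      · intro j hj
        rw [hto j (Finset.ne_of_mem_erase hj)]
    rw [h1]
    change (σ l₀.1) ^ (n - 1) * l₀.1 ^ (n - 1) = 1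
    rw [← mul_pow, mul_comm, hl₀n, one_pow]
  have hne : t₁.1 ≠ l₀.1 := by
    intro h
    apply hl₀
    have h1 : (σ l₀.1) ^ (n - 1) * l₀.1 ^ (n - 1) = 1 := by
      rw [← mul_pow, mul_comm, hl₀n, one_pow]
    have h2 : t₁.1 = (σ l₀.1) ^ (n - 1) := rfl
    rw [h2] at h
    rw [h] at h1
    rw [← pow_succ'] at h1
    have : n - 1 + 1 = n := by omega
    rwa [this] at h1
  set z := cj y (uD t) with hz
  have hzH : z ∈ H := cj_mem' hs hH hyH t hprod
  have hentry : ∀ m p, (z : Matrix ι ι F) m p = l₀.1 * (if m = p then 1 else 0) +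
      (t₁.1 - l₀.1) * ((y : Matrix ι ι F) m l * ((y⁻¹ : GL ι F) : Matrix ι ι F) l p) := by
    intro m p
    rw [hz, cj_apply, ← gl_mul_apply y m p, Finset.mul_sum]
    have h1 : ∀ j, (y : Matrix ι ι F) m j * ((uD t j : Fˣ) : F) * ((y⁻¹ : GL ι F) : Matrix ι ι F) j p =
        l₀.1 * ((y : Matrix ι ι F) m j * ((y⁻¹ : GL ι F) : Matrix ι ι F) j p) +
          (if j = l then (t₁.1 - l₀.1) * ((y : Matrix ι ι F) m l * ((y⁻¹ : GL ι F) : Matrix ι ι F) l p) else 0) := by
      intro j
      by_cases hj : j = l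
      · subst hj
        rw [if_pos rfl, coe_uD, htl]
        ring
      · rw [if_neg hj, coe_uD, hto j hj]
        ring
    simp only [h1]
    rw [Finset.sum_add_distrib, Finset.sum_ite_eq']
    simp
  by_cases hzm : IsMono (z : Matrix ι ι F)
  · right
    -- a non-zero entry of the row
    obtain ⟨p, hp⟩ : ∃ p, ((y⁻¹ : GL ι F) : Matrix ι ι F) l p ≠ 0 := by
      by_contra hcon
      push Not at hcon
      have h1 := gl_inv_mul_apply y l l
      rw [if_pos rfl, Finset.sum_eq_zero] at h1
      · exact zero_ne_one h1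
      · intro j _
        rw [hcon j, zero_mul]
    obtain ⟨b, hb⟩ := hzm p
    have hzero : ∀ m, m ≠ b → m ≠ p → (y : Matrix ι ι F) m l = 0 := by
      intro m h1 h2
      have h3 := hb m h1
      rw [hentry, if_neg h2, mul_zero, zero_add] at h3
      rcases mul_eq_zero.mp h3 with h4 | h4
      · exact absurd (sub_eq_zero.mp h4) hne
      · exact (mul_eq_zero.mp h4).resolve_right hp
    obtain ⟨u, v, huv, hu, hv⟩ := exists_two_notMem ({b, p} : Finset ι) (by
      have : ({b, p} : Finset ι).card ≤ 2 := Finset.card_le_two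
      omega)
    simp only [Finset.mem_insert, Finset.mem_singleton, not_or] at hu hv
    exact ⟨u, v, huv, hzero u hu.1 hu.2, hzero v hv.1 hv.2⟩
  · left
    refine ⟨z, hzH, hzm, i, i, fun m hm => ?_⟩
    rw [hentry, if_neg hm, mul_zero, zero_add, inv_apply hs hiso, hil, map_zero, mul_zero, mul_zero]

theorem card_fix_ne_zero (Q : QF σ q) :
    ∃ Y : Finset F, Y.card + 1 = q ∧ ∀ x, σ x = x → x ≠ 0 → x ∈ Y := by
  classical
  refine ⟨Finset.univ.filter fun x => σ x = x ∧ x ≠ 0, ?_, fun x h1 h2 => by simp [h1, h2]⟩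
  have h1 : (Finset.univ.filter fun x : F => σ x = x).card = q := by
    rw [← Q.fix, Nat.card_eq_fintype_card, Fintype.card_subtype]
  have h2 : (Finset.univ.filter fun x : F => σ x = x) = insert 0 (Finset.univ.filter fun x => σ x = x ∧ x ≠ 0) := by
    ext x
    simp only [Finset.mem_filter, Finset.mem_univ, true_and, Finset.mem_insert]
    constructor
    · intro h
      by_cases hx : x = 0
      · exact Or.inl hx
      · exact Or.inr ⟨h, hx⟩
    · rintro (h | h)
      · rw [h, map_zero]
      · exact h.1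
  rw [h2, Finset.card_insert_of_notMem (by simp)] at h1
  exact h1

/-- A small column in the case of few scalars. -/
theorem step_small (hs : Std σ f) (Q : QF σ q) (hH : Over f H) (h2 : (2 : F) ≠ 0) (hι : 6 ≤ Fintype.card ι)
    (hq : q < Fintype.card ι) {y : GL ι F} (hyH : y ∈ H) (hny : ¬ IsMono (y : Matrix ι ι F)) (i l : ι)
    (hil : (y : Matrix ι ι F) i l = 0) :
    (∃ z ∈ H, ¬ IsMono (z : Matrix ι ι F) ∧ ∃ a, SingCol (z : Matrix ι ι F) a) ∨
      ∃ g ∈ H, ¬ IsMono (g : Matrix ι ι F) ∧ ∃ l u v, u ≠ v ∧ (g : Matrix ι ι F) u l = 0 ∧ (g : Matrix ι ι F) v l = 0 := by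
  classical
  have hiso := hH.iso y hyH
  by_cases h1 : ∃ l', l' ≠ l ∧ (y : Matrix ι ι F) i l' = 0
  · obtain ⟨l', hl', hl'0⟩ := h1
    right
    refine ⟨y⁻¹, H.inv_mem hyH, not_isMono_inv y hny, i, l, l', Ne.symm hl', ?_, ?_⟩
    · rw [inv_apply hs hiso, hil, map_zero]
    · rw [inv_apply hs hiso, hl'0, map_zero]
  push Not at h1
  obtain ⟨Y, hYc, hY⟩ := card_fix_ne_zero Q
  obtain ⟨a, ha, b, hb, hab, hNab⟩ := Finset.exists_ne_map_eq_of_card_lt_of_maps_to
    (s := Finset.univ.erase l) (t := Y) (f := fun j => (y : Matrix ι ι F) i j * σ ((y : Matrix ι ι F) i j)) (by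
      rw [Finset.card_erase_of_mem (Finset.mem_univ l), Finset.card_univ]
      omega) (by
      intro j hj
      have hj' : j ≠ l := Finset.ne_of_mem_erase (Finset.mem_coe.mp hj)
      apply hY
      · rw [map_mul, Q.inv]
        ring
      · exact mul_ne_zero (h1 j hj') ((map_ne_zero σ).mpr (h1 j hj')))
  have hal : a ≠ l := Finset.ne_of_mem_erase ha
  have hbl : b ≠ l := Finset.ne_of_mem_erase hb
  -- the vector `u`
  obtain ⟨u, hu⟩ : ∃ u : ι → F, u = col ((y⁻¹ : GL ι F) : Matrix ι ι F) i := ⟨_, rfl⟩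
  have huj : ∀ j, u j = σ ((y : Matrix ι ι F) i j) := fun j => by
    rw [hu]
    exact inv_apply hs hiso j i
  have hua : u a ≠ 0 := by rw [huj]; exact (map_ne_zero σ).mpr (h1 a hal)
  have hub : u b ≠ 0 := by rw [huj]; exact (map_ne_zero σ).mpr (h1 b hbl)
  have hul : u l = 0 := by rw [huj, hil, map_zero]
  have hNu : u a * σ (u a) = u b * σ (u b) := by
    rw [huj, huj, Q.inv, Q.inv]
    linear_combination hNab
  have hsua : σ (u a) ≠ 0 := (map_ne_zero σ).mpr hua
  have hsub : σ (u b) ≠ 0 := (map_ne_zero σ).mpr hub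
  let γ₁ : U1 σ := ⟨u a / u b, by
    rw [map_div₀]
    field_simp
    linear_combination hNu⟩
  let γ₂ : U1 σ := ⟨u b / u a, by
    rw [map_div₀]
    field_simp
    linear_combination -hNu⟩
  let neg1 : U1 σ := ⟨-1, by rw [map_neg, map_one]; ring⟩
  let t : ι → U1 σ := fun j => if j = a then γ₁ else if j = b then γ₂ else if j = l then neg1 else oneU σ
  have hta : t a = γ₁ := by simp [t]
  have htb : t b = γ₂ := by simp [t, Ne.symm hab]
  have htl : t l = neg1 := by simp [t, Ne.symm hal, Ne.symm hbl]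
  have hto : ∀ j, j ≠ a → j ≠ b → j ≠ l → t j = oneU σ := fun j h1 h2 h3 => by simp [t, h1, h2, h3]
  have hprod : ∏ j, (t j).1 = -1 := by
    have h3 : ∏ j ∈ ({a, b, l} : Finset ι), (t j).1 = ∏ j, (t j).1 := by
      apply Finset.prod_subset (Finset.subset_univ _)
      intro j _ hj
      simp only [Finset.mem_insert, Finset.mem_singleton, not_or] at hj
      rw [hto j hj.1 hj.2.1 hj.2.2]
      rfl
    rw [← h3, Finset.prod_insert (by simp [hab, hal]), Finset.prod_insert (by simp [hbl]), Finset.prod_singleton,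
      hta, htb, htl]
    change u a / u b * (u b / u a * -1) = -1
    field_simp
  set s : Equiv.Perm ι := Equiv.swap a b with hsw
  set m : GL ι F := dg (uD t) * pm s with hm
  have hmv : ∀ v : ι → F, (m : Matrix ι ι F) *ᵥ v = fun r => (t r).1 * v (s r) := by
    intro v
    rw [hm, Units.val_mul, ← Matrix.mulVec_mulVec, dg_mulVec, pm_mulVec]
    rfl
  have hmiso : IsIso f m := (dg_iso hs t).mul (pm_iso' hs s)
  have hmdet : (m : Matrix ι ι F).det = 1 := by
    rw [hm, Units.val_mul, Matrix.det_mul, det_dg, det_pm, hsw, Equiv.Perm.sign_swap hab]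
    simp only [coe_uD, hprod]
    simp
  have hmmono : IsMono (m : Matrix ι ι F) := isMono_mul_gl (isMono_dg _) (isMono_pm _)
  have hmH : m ∈ H := hH.mono m hmiso hmdet hmmono
  have hsa : s a = b := Equiv.swap_apply_left a b
  have hsb : s b = a := Equiv.swap_apply_right a b
  have hso : ∀ r, r ≠ a → r ≠ b → s r = r := fun r h1 h2 => Equiv.swap_apply_of_ne_of_ne h1 h2
  have hmu : (m : Matrix ι ι F) *ᵥ u = u := by
    rw [hmv]
    funext r
    by_cases hra : r = a
    · subst hra
      rw [hsa, hta]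
      change u r / u b * u b = u r
      field_simp
    · by_cases hrb : r = b
      · subst hrb
        rw [hsb, htb]
        change u r / u a * u a = u r
        field_simp
      · rw [hso r hra hrb]
        by_cases hrl : r = l
        · subst hrl
          rw [hul, mul_zero]
        · rw [hto r hra hrb hrl]
          change 1 * u r = u r
          rw [one_mul]
  set z : GL ι F := y * m * y⁻¹ with hz
  have hzH : z ∈ H := H.mul_mem (H.mul_mem hyH hmH) (H.inv_mem hyH)
  have hzv : ∀ v, (z : Matrix ι ι F) *ᵥ v = (y : Matrix ι ι F) *ᵥ ((m : Matrix ι ι F) *ᵥ (((y⁻¹ : GL ι F) : Matrix ι ι F) *ᵥ v)) := by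
    intro v
    rw [hz, Units.val_mul, Units.val_mul, ← Matrix.mulVec_mulVec, ← Matrix.mulVec_mulVec]
  have hcol : (z : Matrix ι ι F) *ᵥ Pi.single i 1 = Pi.single i 1 := by
    rw [hzv, mulVec_single_eq_col, ← hu, hmu, hu, col_gl_mul_inv]
  have hsing : SingCol (z : Matrix ι ι F) i := by
    refine ⟨i, fun r hr => ?_⟩
    have := congrFun hcol r
    rw [mulVec_single_eq_col] at this
    simp only [col, Pi.single_apply, if_neg hr] at this
    exact this
  by_cases hzm : IsMono (z : Matrix ι ι F)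
  · right
    -- the eigenvector
    have hml : (m : Matrix ι ι F) *ᵥ Pi.single l 1 = (-1 : F) • Pi.single l 1 := by
      rw [hmv]
      funext r
      simp only [Pi.smul_apply, smul_eq_mul]
      by_cases hrl : r = l
      · subst hrl
        have : s r = r := hso r (Ne.symm hal) (Ne.symm hbl)
        rw [this, htl]
      · have h3 : s r ≠ l := by
          by_cases hra : r = a
          · subst hra
            rw [hsa]
            exact hbl
          · by_cases hrb : r = b
            · subst hrb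
              rw [hsb]
              exact hal
            · rw [hso r hra hrb]
              exact hrl
        rw [Pi.single_eq_of_ne h3, Pi.single_eq_of_ne hrl]
        simp
    have hev : (z : Matrix ι ι F) *ᵥ col (y : Matrix ι ι F) l = (-1 : F) • col (y : Matrix ι ι F) l := by
      rw [hzv, col_gl_inv_mul, hml, Matrix.mulVec_smul, mulVec_single_eq_col]
    have hneg : (-1 : F) ≠ 1 := by
      intro h
      apply h2
      linear_combination -h
    set w : ι → F := Pi.single a 1 - γ₂.1 • Pi.single b 1 with hw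
    have hU : ∀ g, col (z : Matrix ι ι F) g - Pi.single g 1 ∈
        Submodule.span F ((({col (y : Matrix ι ι F) l, (y : Matrix ι ι F) *ᵥ w} : Finset (ι → F))) : Set (ι → F)) := by
      intro g
      obtain ⟨x, hx⟩ : ∃ x, x = ((y⁻¹ : GL ι F) : Matrix ι ι F) *ᵥ Pi.single g 1 := ⟨_, rfl⟩
      have hyx : (y : Matrix ι ι F) *ᵥ x = Pi.single g 1 := by
        rw [hx]
        exact mulVec_inv_mulVec y _
      have h3 : (m : Matrix ι ι F) *ᵥ x - x = (-2 * x l) • Pi.single l 1 + (γ₁.1 * x b - x a) • w := by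
        rw [hmv]
        funext r
        simp only [Pi.sub_apply, Pi.add_apply, Pi.smul_apply, smul_eq_mul, hw]
        have hγ : γ₂.1 * γ₁.1 = 1 := by
          change u b / u a * (u a / u b) = 1
          field_simp
        by_cases hra : r = a
        · subst hra
          rw [hsa, hta, Pi.single_eq_of_ne hal, Pi.single_eq_same, Pi.single_eq_of_ne hab]
          ring
        · by_cases hrb : r = b
          · subst hrb
            rw [hsb, htb, Pi.single_eq_of_ne hbl, Pi.single_eq_of_ne hab.symm, Pi.single_eq_same]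
            linear_combination (x r) * hγ
          · rw [hso r hra hrb, Pi.single_eq_of_ne hra, Pi.single_eq_of_ne hrb]
            by_cases hrl : r = l
            · subst hrl
              rw [htl, Pi.single_eq_same]
              change -1 * x r - x r = _
              ring
            · rw [hto r hra hrb hrl, Pi.single_eq_of_ne hrl]
              change 1 * x r - x r = _
              ring
      have h4 : col (z : Matrix ι ι F) g - Pi.single g 1 =
          (-2 * x l) • col (y : Matrix ι ι F) l + (γ₁.1 * x b - x a) • ((y : Matrix ι ι F) *ᵥ w) := by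
        rw [← mulVec_single_eq_col, hzv, ← hx, ← hyx, ← Matrix.mulVec_sub, h3, Matrix.mulVec_add, Matrix.mulVec_smul,
          Matrix.mulVec_smul, mulVec_single_eq_col]
      rw [h4]
      refine Submodule.add_mem _ (Submodule.smul_mem _ _ (Submodule.subset_span ?_))
        (Submodule.smul_mem _ _ (Submodule.subset_span ?_)) <;> simp
    have hmoved := card_moved_le z hzm _ 2 hU (by
      refine le_trans (finrank_span_finset_le_card _) Finset.card_le_two)
    have hsub : colSupp (y : Matrix ι ι F) l ⊆ moved (z : Matrix ι ι F) := by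
      intro g hg
      rw [mem_colSupp] at hg
      exact supp_sub_moved z hzm _ _ hneg hev g hg
    have hc := Finset.card_le_card hsub
    obtain ⟨p, p', hpp, hp, hp'⟩ := exists_two_notMem (colSupp (y : Matrix ι ι F) l) (by omega)
    rw [mem_colSupp, not_not] at hp hp'
    exact ⟨y, hyH, hny, l, p, p', hpp, hp, hp'⟩
  · left
    exact ⟨z, hzH, hzm, i, hsing⟩

/-- **A non-monomial matrix with a coordinate column**, in odd characteristic. -/
theorem exists_coord_odd (hs : Std σ f) (Q : QF σ q) (hH : Over f H) (h2 : (2 : F) ≠ 0) (hι : 13 ≤ Fintype.card ι)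
    {g : GL ι F} (hgH : g ∈ H) (hng : ¬ IsMono (g : Matrix ι ι F)) :
    ∃ z ∈ H, ¬ IsMono (z : Matrix ι ι F) ∧ ∃ a, SingCol (z : Matrix ι ι F) a := by
  obtain ⟨y, hyH, hny, i, l, hil⟩ := exists_zero hs Q hH hι hgH hng
  obtain ⟨lam, hlam⟩ := exists_sq_ne Q
  have key : ∀ g' ∈ H, ¬ IsMono (g' : Matrix ι ι F) → ∀ l u v, u ≠ v → (g' : Matrix ι ι F) u l = 0 →
      (g' : Matrix ι ι F) v l = 0 → ∃ z ∈ H, ¬ IsMono (z : Matrix ι ι F) ∧ ∃ a, SingCol (z : Matrix ι ι F) a := by
    intro g' hg' hng' l u v huv hu hv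
    exact exists_sing_of_two_zeros' H (by omega) (Units.mk0 lam.1 (Field.ne_zero lam)) hlam
      (fun a b hab => dd_mem hs hH lam a b hab) g' hg' hng' l u v huv hu hv
  by_cases hq : Fintype.card ι ≤ q
  · rcases step_large hs Q hH (by omega) hq hyH i l hil with h | ⟨u, v, huv, hu, hv⟩
    · exact h
    · exact key y hyH hny l u v huv hu hv
  · rcases step_small hs Q hH h2 (by omega) (by omega) hyH hny i l hil with h | ⟨g', hg', hng', l', u, v, huv, hu, hv⟩
    · exact h
    · exact key g' hg' hng' l' u v huv hu hv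

end Cfsg.Agent.Lib.SUMon.Coord
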