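/-
Even characteristic: from a non-monomial matrix to a transvection with a non-root centre having a zero coordinate.
-/
import Cfsg.Agent.Lib.SUMon.Coord
set_option autoImplicit false

namespace Cfsg.Agent.Lib.SUMon.Even

open Cfsg Cfsg.Geo Cfsg.Agent.Lib.Geo.Basic Cfsg.Agent.Lib.Geo.Centres Cfsg.Agent.Lib.Geo.Parabolic
open Cfsg.Agent.Lib.Geo.Polar Cfsg.Agent.Lib.Geo.UnitaryInSL Cfsg.Agent.Lib.Geo.QForm
open Cfsg.Agent.Lib.Geo.SUGen Cfsg.Agent.Lib.Geo.SUBase
open Cfsg.Agent.Lib.SLC2.Mono Cfsg.Agent.Lib.SLC2.MonoA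
open Cfsg.Agent.Lib.SUMon.Field Cfsg.Agent.Lib.SUMon.Base Cfsg.Agent.Lib.SUMon.Sums
open Cfsg.Agent.Lib.SUMon.Zero Cfsg.Agent.Lib.SUMon.Coord
open scoped MatrixGroups Matrix

variable {ι : Type} [Fintype ι] [DecidableEq ι] {F : Type*} [Field F] [Fintype F]
variable {σ : F ≃+* F} {q : ℕ} {f : (ι → F) → (ι → F) → F} {H : Subgroup (GL ι F)}

/-- Three non-zero coordinates. -/
def Supp3 (c : ι → F) : Prop := ∃ r₁ r₂ r₃, r₁ ≠ r₂ ∧ r₁ ≠ r₃ ∧ r₂ ≠ r₃ ∧ c r₁ ≠ 0 ∧ c r₂ ≠ 0 ∧ c r₃ ≠ 0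

/-- An element of the norm one group avoiding a small set. -/
theorem exists_U1_notMem (Q : QF σ q) (S : Finset F) (hS : S.card ≤ q) : ∃ μ : U1 σ, μ.1 ∉ S := by
  classical
  by_contra hcon
  push Not at hcon
  have h1 : (Finset.univ.image fun μ : U1 σ => μ.1) ⊆ S := by
    intro x hx
    rw [Finset.mem_image] at hx
    obtain ⟨μ, -, rfl⟩ := hx
    exact hcon μ
  have h2 := Finset.card_le_card h1
  rw [Finset.card_image_of_injective _ Subtype.val_injective, Finset.card_univ, card_U1 Q] at h2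
  omega

/-- A combination of two columns with three non-zero coordinates. -/
theorem exists_supp3 (Q : QF σ q) (hι : 5 ≤ Fintype.card ι) (g : GL ι F) (hng : ¬ IsMono (g : Matrix ι ι F)) :
    ∃ a b : ι, a ≠ b ∧ ∃ ζ : U1 σ, Supp3 ((g : Matrix ι ι F) *ᵥ (Pi.single a 1 + ζ.1 • Pi.single b 1)) := by
  classical
  have hq := Q.two_le
  have hc : ∀ (a b : ι) (ζ : F) (r : ι), ((g : Matrix ι ι F) *ᵥ (Pi.single a 1 + ζ • Pi.single b 1)) r =
      (g : Matrix ι ι F) r a + ζ * (g : Matrix ι ι F) r b := by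
    intro a b ζ r
    rw [Matrix.mulVec_add, Matrix.mulVec_smul, mulVec_single_eq_col, mulVec_single_eq_col]
    rfl
  have hrow : ∀ r : ι, ∃ b, (g : Matrix ι ι F) r b ≠ 0 := by
    intro r
    by_contra hcon
    push Not at hcon
    have h1 := gl_mul_apply g r r
    rw [if_pos rfl, Finset.sum_eq_zero] at h1
    · exact zero_ne_one h1
    · intro j _
      rw [hcon j, zero_mul]
  unfold IsMono at hng
  push Not at hng
  obtain ⟨a, ha⟩ := hng
  unfold SingCol at ha
  push Not at ha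
  by_cases hz : ∃ r, (g : Matrix ι ι F) r a = 0
  · obtain ⟨r, hr⟩ := hz
    obtain ⟨b, hb⟩ := hrow r
    have hab : a ≠ b := by
      rintro rfl
      exact hb hr
    obtain ⟨r₁, -, hr₁⟩ := ha r
    obtain ⟨r₂, hr₂', hr₂⟩ := ha r₁
    obtain ⟨ζ, hζ⟩ := exists_U1_notMem Q {-(g : Matrix ι ι F) r₁ a / (g : Matrix ι ι F) r₁ b,
      -(g : Matrix ι ι F) r₂ a / (g : Matrix ι ι F) r₂ b} (le_trans Finset.card_le_two hq)
    simp only [Finset.mem_insert, Finset.mem_singleton, not_or] at hζ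
    refine ⟨a, b, hab, ζ, r₁, r₂, r, Ne.symm hr₂', ?_, ?_, ?_, ?_, ?_⟩
    · rintro rfl
      exact hr₁ hr
    · rintro rfl
      exact hr₂ hr
    · rw [hc]
      intro h
      have hb1 : (g : Matrix ι ι F) r₁ b ≠ 0 := by
        intro h0
        rw [h0, mul_zero, add_zero] at h
        exact hr₁ h
      apply hζ.1
      field_simp
      linear_combination h
    · rw [hc]
      intro h
      have hb1 : (g : Matrix ι ι F) r₂ b ≠ 0 := by
        intro h0
        rw [h0, mul_zero, add_zero] at h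
        exact hr₂ h
      apply hζ.2
      field_simp
      linear_combination h
    · rw [hc, hr, zero_add]
      exact mul_ne_zero (Field.ne_zero ζ) hb
  · push Not at hz
    obtain ⟨b, hb⟩ := exists_notMem_finset ({a} : Finset ι) (by simp; omega)
    have hab : a ≠ b := by
      intro h
      apply hb
      simp [h]
    obtain ⟨ζ₂, hζ₂⟩ := exists_U1_notMem Q {1} (by simp; omega)
    simp only [Finset.mem_singleton] at hζ₂
    by_cases h1 : Supp3 ((g : Matrix ι ι F) *ᵥ (Pi.single a 1 + (oneU σ).1 • Pi.single b 1))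
    · exact ⟨a, b, hab, oneU σ, h1⟩
    by_cases h2 : Supp3 ((g : Matrix ι ι F) *ᵥ (Pi.single a 1 + ζ₂.1 • Pi.single b 1))
    · exact ⟨a, b, hab, ζ₂, h2⟩
    exfalso
    have hsmall : ∀ c : ι → F, ¬ Supp3 c → (Finset.univ.filter fun r => c r ≠ 0).card ≤ 2 := by
      intro c hcc
      by_contra hcon
      push Not at hcon
      obtain ⟨x, y, z, hx, hy, hz', hxy, hxz, hyz⟩ := Finset.two_lt_card_iff.mp hcon
      rw [Finset.mem_filter] at hx hy hz'
      exact hcc ⟨x, y, z, hxy, hxz, hyz, hx.2, hy.2, hz'.2⟩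
    have s1 := hsmall _ h1
    have s2 := hsmall _ h2
    obtain ⟨r, hr⟩ := exists_notMem_finset ((Finset.univ.filter fun r => ((g : Matrix ι ι F) *ᵥ (Pi.single a 1 + (oneU σ).1 • Pi.single b 1)) r ≠ 0) ∪
      (Finset.univ.filter fun r => ((g : Matrix ι ι F) *ᵥ (Pi.single a 1 + ζ₂.1 • Pi.single b 1)) r ≠ 0)) (by
      refine lt_of_le_of_lt (Finset.card_union_le _ _) ?_
      omega)
    simp only [Finset.mem_union, Finset.mem_filter, Finset.mem_univ, true_and, not_or, not_not] at hr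
    rw [hc, hc] at hr
    have e1 := hr.1
    have e2 := hr.2
    simp only [coe_oneU, one_mul] at e1
    have e3 : (1 - ζ₂.1) * (g : Matrix ι ι F) r b = 0 := by linear_combination e1 - e2
    rcases mul_eq_zero.mp e3 with e4 | e4
    · exact hζ₂ (by linear_combination -e4)
    · rw [e4, add_zero] at e1
      exact hz r e1

section Char2

variable (h2 : (2 : F) = 0)
include h2

theorem one_trace : (1 : F) + σ 1 = 0 := by
  rw [map_one]
  linear_combination h2

/-- Transvections with root centres. -/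
theorem root_mem (hs : Std σ f) (hH : Over f H) (a b : ι) (hab : a ≠ b) (ζ : U1 σ)
    (hr : f (Pi.single a 1 + ζ.1 • Pi.single b 1) (Pi.single a 1 + ζ.1 • Pi.single b 1) = 0) :
    uT hs.uf (Pi.single a 1 + ζ.1 • Pi.single b 1) 1 hr ∈ H := by
  have hf := hs.uf
  apply hH.mono
  · exact uT_isIso hf _ 1 hr (one_trace h2)
  · exact (mem_specialLinear_iff _).mp (uT_mem hf _ 1 hr (one_trace h2)).2
  · intro p
    obtain ⟨r, hr'⟩ : ∃ r : ι → F, r = Pi.single a 1 + ζ.1 • Pi.single b 1 := ⟨_, rfl⟩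
    have hcol : ∀ i, ((uT hf (Pi.single a 1 + ζ.1 • Pi.single b 1) 1 hr : GL ι F) : Matrix ι ι F) i p =
        (Pi.single p 1 : ι → F) i + σ (r p) * r i := by
      intro i
      have h3 : col ((uT hf (Pi.single a 1 + ζ.1 • Pi.single b 1) 1 hr : GL ι F) : Matrix ι ι F) p =
          Pi.single p 1 + f (Pi.single p 1) (Pi.single a 1 + ζ.1 • Pi.single b 1) • (1 : F) • (Pi.single a 1 + ζ.1 • Pi.single b 1) := by
        rw [← mulVec_single_eq_col, uT_mulVec]
      have h4 := congrFun h3 i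
      simp only [col] at h4
      rw [h4, form_single_left hs, ← hr']
      simp only [Pi.add_apply, Pi.smul_apply, smul_eq_mul, one_mul]
    have hra : r a = 1 := by
      rw [hr']
      simp [Pi.single_eq_of_ne hab]
    have hrb : r b = ζ.1 := by
      rw [hr']
      simp [Pi.single_eq_of_ne (Ne.symm hab)]
    have hro : ∀ i, i ≠ a → i ≠ b → r i = 0 := by
      intro i h3 h4
      rw [hr']
      simp [Pi.single_eq_of_ne h3, Pi.single_eq_of_ne h4]
    have hzeta := ζ.2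
    by_cases hpa : p = a
    · subst hpa
      refine ⟨b, fun i hi => ?_⟩
      rw [hcol, hra, map_one, one_mul]
      by_cases hip : i = p
      · subst hip
        rw [hra, Pi.single_eq_same]
        linear_combination h2
      · rw [hro i hip hi, Pi.single_eq_of_ne hip, add_zero]
    · by_cases hpb : p = b
      · subst hpb
        refine ⟨a, fun i hi => ?_⟩
        rw [hcol, hrb]
        by_cases hip : i = p
        · subst hip
          rw [hrb, Pi.single_eq_same]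
          linear_combination h2 + hzeta
        · rw [hro i hi hip, Pi.single_eq_of_ne hip, mul_zero, add_zero]
      · refine ⟨p, fun i hi => ?_⟩
        rw [hcol, hro p hpa hpb, map_zero, zero_mul, add_zero, Pi.single_eq_of_ne hi]

/-- Pair structured diagonals solving the equation `Y = 1`. -/
theorem exists_even_diag (Q : QF σ q) (hι : 13 ≤ Fintype.card ι) (t : ι → F) (ht : ∀ j, σ (t j) = t j)
    (ht0 : ∀ j, t j ≠ 0) :
    ∃ (m : ℕ) (e : Fin m × Bool → ι) (μ : Fin m → U1 σ), m ≤ 6 ∧ Function.Injective e ∧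
      ∑ j, ((pairDiag Q e μ j).1 - 1) * t j = 1 ∧ ∃ k₁ k₂, k₁ ≠ k₂ ∧ μ k₁ ≠ oneU σ ∧ μ k₂ ≠ oneU σ := by
  classical
  have hN : ∀ x y : F, σ x = x → σ y = y → x * σ x = y * σ y → x = y := by
    intro x y hx hy hxy
    rw [hx, hy] at hxy
    have h3 : (x - y) ^ 2 = 0 := by linear_combination hxy + (y * y - x * y) * h2
    have h4 := pow_eq_zero_iff (two_ne_zero) |>.mp h3
    exact sub_eq_zero.mp h4
  by_cases hfib : ∀ s : Fin 7 → ι, Function.Injective s → ∃ i, t (s i) * σ (t (s i)) ≠ t (s 0) * σ (t (s 0))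
  · obtain ⟨e, he, hne⟩ := exists_pairs (fun j => t j * σ (t j)) (by omega) hfib
    obtain ⟨Sol, hSol, hSolw⟩ := six_solutions Q (fun k => t (e (k, false))) (fun k => t (e (k, true))) hne
      (1 + ∑ k, (t (e (k, false)) + t (e (k, true))))
    have hval : ∀ μ ∈ Sol, ∑ j, ((pairDiag Q e μ j).1 - 1) * t j = 1 := by
      intro μ hμ
      rw [sum_pairDiag Q he μ t]
      have h1 := hSolw μ hμ
      have h3 : ∑ k, (((μ k).1 - 1) * t (e (k, false)) + (σ (μ k).1 - 1) * t (e (k, true))) =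
          ∑ k, ((μ k).1 * t (e (k, false)) + σ (μ k).1 * t (e (k, true))) -
            ∑ k, (t (e (k, false)) + t (e (k, true))) := by
        rw [← Finset.sum_sub_distrib]
        refine Finset.sum_congr rfl fun k _ => ?_
        ring
      rw [h3, h1]
      ring
    by_contra hno
    push Not at hno
    have hno' : ∀ μ ∈ Sol, ∀ k₁ k₂, k₁ ≠ k₂ → μ k₁ ≠ oneU σ → μ k₂ = oneU σ := by
      intro μ hμ k₁ k₂ hk h1
      exact hno 6 e μ le_rfl he (hval μ hμ) k₁ k₂ hk h1
    have hone : ∀ μ ∈ Sol, ∃ k, μ k ≠ oneU σ := by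
      intro μ hμ
      by_contra hcon
      push Not at hcon
      have h1 := hval μ hμ
      rw [Finset.sum_eq_zero] at h1
      · exact zero_ne_one h1
      · intro j _
        by_cases hj : ∃ x, e x = j
        · obtain ⟨⟨k, c⟩, rfl⟩ := hj
          cases c
          · rw [pairDiag_false Q he, hcon k]
            simp
          · rw [pairDiag_true Q he, hcon k]
            simp [conjU]
        · rw [pairDiag_other Q μ j hj]
          simp
    have hk : ∀ μ : Fin 6 → U1 σ, ∃ k, μ ∈ Sol → μ k ≠ oneU σ := by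
      intro μ
      by_cases hμ : μ ∈ Sol
      · obtain ⟨k, hk⟩ := hone μ hμ
        exact ⟨k, fun _ => hk⟩
      · exact ⟨0, fun h => absurd h hμ⟩
    choose κ hκ using hk
    have hcard : Sol.card ≤ (Finset.univ : Finset (Fin 6)).card := by
      refine Finset.card_le_card_of_injOn κ (fun _ _ => Finset.mem_coe.mpr (Finset.mem_univ _)) ?_
      intro μ hμ μ' hμ' hkk
      have hμ1 : μ ∈ Sol := hμ
      have hμ1' : μ' ∈ Sol := hμ'
      have hkk' : κ μ = κ μ' := hkk
      have hoth : ∀ k, k ≠ κ μ → μ k = oneU σ ∧ μ' k = oneU σ := by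
        intro k hk
        refine ⟨hno' μ hμ1 (κ μ) k (Ne.symm hk) (hκ μ hμ1), ?_⟩
        exact hno' μ' hμ1' (κ μ') k (by rw [← hkk']; exact Ne.symm hk) (hκ μ' hμ1')
      have e1 := hSolw μ hμ1
      have e2 := hSolw μ' hμ1'
      rw [← Finset.add_sum_erase _ _ (Finset.mem_univ (κ μ))] at e1 e2
      have e3 : ∑ k ∈ Finset.univ.erase (κ μ), ((μ k).1 * t (e (k, false)) + σ (μ k).1 * t (e (k, true))) =
          ∑ k ∈ Finset.univ.erase (κ μ), ((μ' k).1 * t (e (k, false)) + σ (μ' k).1 * t (e (k, true))) := by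
        refine Finset.sum_congr rfl fun k hk => ?_
        have := hoth k (Finset.ne_of_mem_erase hk)
        rw [this.1, this.2]
      rw [e3] at e1
      have e4 := add_right_cancel (e1.trans e2.symm)
      have e5 : μ (κ μ) = μ' (κ μ) := ell_injective Q _ _ (hne (κ μ)) e4
      funext k
      by_cases hk : k = κ μ
      · rw [hk, e5]
      · rw [(hoth k hk).1, (hoth k hk).2]
    simp at hcard
    omega
  · push Not at hfib
    obtain ⟨s, hsi, hsx⟩ := hfib
    have htt : ∀ i, t (s i) = t (s 0) := fun i => hN _ _ (ht _) (ht _) (hsx i)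
    obtain ⟨τ, hτ⟩ : ∃ τ, τ = t (s 0) := ⟨_, rfl⟩
    have hτ0 : τ ≠ 0 := by rw [hτ]; exact ht0 _
    have hτσ : σ τ = τ := by rw [hτ]; exact ht _
    obtain ⟨w, hw⟩ : ∃ w, w = τ⁻¹ := ⟨_, rfl⟩
    have hwσ : σ w = w := by rw [hw, map_inv₀, hτσ]
    -- the three values
    have hex : ∃ μ₁ μ₂ μ₃ : U1 σ, sN σ μ₁.1 + sN σ μ₂.1 + sN σ μ₃.1 = w ∧ μ₃ ≠ oneU σ ∧ (μ₁ ≠ oneU σ ∨ μ₂ ≠ oneU σ) := by
      by_cases hc : ∃ μ₃ : U1 σ, μ₃ ≠ oneU σ ∧ sN σ μ₃.1 ≠ w
      · obtain ⟨μ₃, h3, h4⟩ := hc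
        obtain ⟨μ₁, μ₂, h5⟩ := exists_s_sum Q (w - sN σ μ₃.1) (by rw [map_sub, hwσ, sN_fix Q])
        refine ⟨μ₁, μ₂, μ₃, by rw [h5]; ring, h3, ?_⟩
        by_contra hcon
        push Not at hcon
        rw [hcon.1, hcon.2] at h5
        simp only [sN, coe_oneU, sub_self, zero_mul, add_zero] at h5
        exact h4 (sub_eq_zero.mp h5.symm).symm
      · push Not at hc
        obtain ⟨μ, hμ⟩ := exists_U1_notMem Q {1} (by
          have := Q.two_le
          simp
          omega)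
        have hμ' : μ ≠ oneU σ := by
          intro h
          apply hμ
          rw [h]
          simp
        refine ⟨μ, μ, μ, ?_, hμ', Or.inl hμ'⟩
        rw [hc μ hμ']
        linear_combination w * h2
    obtain ⟨μ₁, μ₂, μ₃, hsum, h3, h12⟩ := hex
    have hc : Fintype.card (Fin 3 × Bool) ≤ Fintype.card (Fin 7) := by
      simp
    obtain ⟨e'⟩ := Function.Embedding.nonempty_of_card_le hc
    let e : Fin 3 × Bool → ι := fun x => s (e' x)
    have he : Function.Injective e := fun x y h => e'.injective (hsi h)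
    have hAe : ∀ x, t (e x) = τ := fun x => by rw [hτ]; exact htt _
    have hval : ∑ j, ((pairDiag Q e ![μ₁, μ₂, μ₃] j).1 - 1) * t j = 1 := by
      rw [sum_pairDiag Q he, Fin.sum_univ_three]
      simp only [hAe, Matrix.cons_val]
      have e1 := sN_eq μ₁
      have e2 := sN_eq μ₂
      have e3 := sN_eq μ₃
      rw [e1, e2, e3, hw] at hsum
      have h5 : τ * τ⁻¹ = 1 := mul_inv_cancel₀ hτ0
      have h6 : τ * ((2 - μ₁.1 - σ μ₁.1) + (2 - μ₂.1 - σ μ₂.1) + (2 - μ₃.1 - σ μ₃.1)) = 1 := by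
        rw [hsum, h5]
      linear_combination -h6 - h2
    refine ⟨3, e, ![μ₁, μ₂, μ₃], by norm_num, he, hval, ?_⟩
    rcases h12 with h | h
    · exact ⟨0, 2, by decide, h, h3⟩
    · exact ⟨1, 2, by decide, h, h3⟩

theorem root_iso (hs : Std σ f) (a b : ι) (hab : a ≠ b) (ζ : U1 σ) :
    f (Pi.single a 1 + ζ.1 • Pi.single b 1) (Pi.single a 1 + ζ.1 • Pi.single b 1) = 0 := by
  rw [hs.uf.add_left, hs.uf.smul_left, form_single_left hs, form_single_left hs]
  simp only [Pi.add_apply, Pi.smul_apply, smul_eq_mul, Pi.single_eq_same, Pi.single_eq_of_ne hab,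
    Pi.single_eq_of_ne (Ne.symm hab), mul_zero, zero_add, add_zero, mul_one, map_one]
  have := ζ.2
  linear_combination h2 + this

omit h2 in
theorem uT_conj_mem (hs : Std σ f) (hH : Over f H) {c : ι → F} (hc : f c c = 0) (hm : uT hs.uf c 1 hc ∈ H) {g : GL ι F}
    (hg : g ∈ H) (hgc : f ((g : Matrix ι ι F) *ᵥ c) ((g : Matrix ι ι F) *ᵥ c) = 0) :
    uT hs.uf ((g : Matrix ι ι F) *ᵥ c) 1 hgc ∈ H := by
  rw [← conj_uT hs.uf (hH.iso g hg) c 1 hc hgc]
  exact H.mul_mem (H.mul_mem hg hm) (H.inv_mem hg)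

/-- **Even characteristic**: a transvection in the overgroup with a centre having three non-zero coordinates and a
zero coordinate. -/
theorem exists_centre_even (hs : Std σ f) (Q : QF σ q) (hH : Over f H) (hι : 13 ≤ Fintype.card ι)
    {g : GL ι F} (hgH : g ∈ H) (hng : ¬ IsMono (g : Matrix ι ι F)) :
    ∃ (c : ι → F) (hc : f c c = 0), uT hs.uf c 1 hc ∈ H ∧ Supp3 c ∧ ∃ r, c r = 0 := by
  classical
  have hf := hs.uf
  obtain ⟨a, b, hab, ζ, hS⟩ := exists_supp3 Q (by omega) g hng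
  have hiso := hH.iso g hgH
  have hr := root_iso h2 hs a b hab ζ
  obtain ⟨c₀, hc₀⟩ : ∃ c₀, c₀ = (g : Matrix ι ι F) *ᵥ (Pi.single a 1 + ζ.1 • Pi.single b 1) := ⟨_, rfl⟩
  rw [← hc₀] at hS
  have hcc : f c₀ c₀ = 0 := by rw [hc₀, hiso, hr]
  have hT : uT hf c₀ 1 hcc ∈ H := by
    subst hc₀
    exact uT_conj_mem hs hH hr (root_mem h2 hs hH a b hab ζ hr) hgH hcc
  by_cases hz : ∃ r, c₀ r = 0
  · exact ⟨c₀, hcc, hT, hS, hz⟩
  push Not at hz
  obtain ⟨t, htd⟩ : ∃ t : ι → F, t = fun j => c₀ j * σ (c₀ j) := ⟨_, rfl⟩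
  have htj : ∀ j, t j = c₀ j * σ (c₀ j) := fun j => by rw [htd]
  obtain ⟨m, e, μ, hm, he, hval, k₁, k₂, hk, hk₁, hk₂⟩ := exists_even_diag h2 Q hι t
    (fun j => by rw [htj, map_mul, Q.inv]; ring) (fun j => by
      rw [htj]
      exact mul_ne_zero (hz j) ((map_ne_zero σ).mpr (hz j)))
  obtain ⟨θ, hθ⟩ : ∃ θ, θ = pairDiag Q e μ := ⟨_, rfl⟩
  rw [← hθ] at hval
  have hdH : dg (uD θ) ∈ H := dg_mem hs hH θ (by rw [hθ]; exact prod_pairDiag Q he μ)
  obtain ⟨c₁, hc₁⟩ : ∃ c₁, c₁ = ((dg (uD θ) : GL ι F) : Matrix ι ι F) *ᵥ c₀ := ⟨_, rfl⟩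
  have hc₁j : ∀ j, c₁ j = (θ j).1 * c₀ j := fun j => by
    rw [hc₁, dg_mulVec]
    rfl
  have hc₁c : f c₁ c₁ = 0 := by rw [hc₁, dg_iso hs θ, hcc]
  have hT₁ : uT hf c₁ 1 hc₁c ∈ H := by
    subst hc₁
    exact uT_conj_mem hs hH hcc hT hdH hc₁c
  have hF : f c₁ c₀ = 1 := by
    rw [hs.form]
    have h3 : f c₀ c₀ = ∑ j, t j := by
      rw [hs.form]
      exact Finset.sum_congr rfl fun j _ => (htj j).symm
    rw [hcc] at h3
    calc ∑ j, c₁ j * σ (c₀ j) = ∑ j, ((θ j).1 - 1) * t j + ∑ j, t j := by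
          rw [← Finset.sum_add_distrib]
          refine Finset.sum_congr rfl fun j _ => ?_
          rw [hc₁j, htj]
          ring
      _ = 1 := by rw [hval, ← h3, add_zero]
  obtain ⟨c₃, hc₃⟩ : ∃ c₃, c₃ = ((uT hf c₀ 1 hcc : GL ι F) : Matrix ι ι F) *ᵥ c₁ := ⟨_, rfl⟩
  have hc₃j : ∀ j, c₃ j = ((θ j).1 + 1) * c₀ j := fun j => by
    rw [hc₃, uT_mulVec, hF]
    simp only [Pi.add_apply, Pi.smul_apply, smul_eq_mul, hc₁j]
    ring
  have hc₃c : f c₃ c₃ = 0 := by
    rw [hc₃, uT_isIso hf c₀ 1 hcc (one_trace h2), hc₁c]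
  have hT₃ : uT hf c₃ 1 hc₃c ∈ H := by
    subst hc₃
    exact uT_conj_mem hs hH hc₁c hT₁ hT hc₃c
  refine ⟨c₃, hc₃c, hT₃, ?_, ?_⟩
  · have hne1 : ∀ x : U1 σ, x ≠ oneU σ → x.1 + 1 ≠ 0 := by
      intro x hx h0
      apply hx
      apply Subtype.ext
      simp only [coe_oneU]
      linear_combination h0 - h2
    refine ⟨e (k₁, false), e (k₁, true), e (k₂, false), ?_, ?_, ?_, ?_, ?_, ?_⟩
    · intro h
      have := he h
      simp at this
    · intro h
      have := he h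
      simp only [Prod.mk.injEq, and_true] at this
      exact hk this
    · intro h
      have := he h
      simp at this
    · rw [hc₃j, hθ, pairDiag_false Q he]
      exact mul_ne_zero (hne1 _ hk₁) (hz _)
    · rw [hc₃j, hθ, pairDiag_true Q he]
      refine mul_ne_zero (hne1 _ ?_) (hz _)
      intro h
      apply hk₁
      apply Subtype.ext
      have h3 : σ (μ k₁).1 = 1 := congrArg Subtype.val h
      have h4 := congrArg σ h3
      rw [Q.inv, map_one] at h4
      exact h4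
    · rw [hc₃j, hθ, pairDiag_false Q he]
      exact mul_ne_zero (hne1 _ hk₂) (hz _)
  · obtain ⟨j₀, hj₀⟩ := exists_notMem_finset (Finset.univ.image e) (by
      refine lt_of_le_of_lt Finset.card_image_le ?_
      simp
      omega)
    refine ⟨j₀, ?_⟩
    have hj₀' : ¬ ∃ x, e x = j₀ := by
      rintro ⟨x, rfl⟩
      exact hj₀ (Finset.mem_image_of_mem _ (Finset.mem_univ _))
    rw [hc₃j, hθ, pairDiag_other Q μ j₀ hj₀', coe_oneU]
    have : (1 : F) + 1 = 0 := by linear_combination h2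
    rw [this, zero_mul]

end Char2

end Cfsg.Agent.Lib.SUMon.Even
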