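/-
From a non-monomial element with a coordinate column to a transvection centre, by reflections.
-/
import Cfsg.Agent.Lib.SUMon.Even
set_option autoImplicit false

namespace Cfsg.Agent.Lib.SUMon.Rf

open Cfsg Cfsg.Geo Cfsg.Agent.Lib.Geo.Basic Cfsg.Agent.Lib.Geo.Centres Cfsg.Agent.Lib.Geo.Parabolic
open Cfsg.Agent.Lib.Geo.Polar Cfsg.Agent.Lib.Geo.UnitaryInSL Cfsg.Agent.Lib.Geo.QForm
open Cfsg.Agent.Lib.Geo.SUGen Cfsg.Agent.Lib.Geo.SUBase
open Cfsg.Agent.Lib.SLC2.Mono Cfsg.Agent.Lib.SLC2.MonoA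
open Cfsg.Agent.Lib.SUMon.Field Cfsg.Agent.Lib.SUMon.Base Cfsg.Agent.Lib.SUMon.Sums
open Cfsg.Agent.Lib.SUMon.Zero Cfsg.Agent.Lib.SUMon.Coord Cfsg.Agent.Lib.SUMon.Even
open scoped MatrixGroups Matrix

variable {ι : Type} [Fintype ι] [DecidableEq ι] {F : Type*} [Field F] [Fintype F]
variable {σ : F ≃+* F} {q : ℕ} {f : (ι → F) → (ι → F) → F} {H : Subgroup (GL ι F)}

/-- The unit vector `x`, orthogonal to `e_i`, whose reflections (compensated at `e_i`) lie in `H`. -/
structure InR (σ : F ≃+* F) (f : (ι → F) → (ι → F) → F) (H : Subgroup (GL ι F)) (i : ι) (x : ι → F) : Prop where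
  unit : f x x = 1
  zero : x i = 0
  mem : ∀ μ : U1 σ, ∃ h ∈ H, ∀ y, (h : Matrix ι ι F) *ᵥ y =
    y + ((μ.1 - 1) * f y x) • x + ((σ μ.1 - 1) * f y (Pi.single i 1)) • Pi.single i 1

theorem InR.conj (hs : Std σ f) (hH : Over f H) {i j : ι} {x : ι → F} (hx : InR σ f H i x) {g : GL ι F} (hg : g ∈ H)
    (l : F) (hl : l * σ l = 1) (hgi : (g : Matrix ι ι F) *ᵥ Pi.single i 1 = l • Pi.single j 1) :
    InR σ f H j ((g : Matrix ι ι F) *ᵥ x) := by
  have hf := hs.uf
  have hiso := hH.iso g hg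
  have hl0 : σ l ≠ 0 := right_ne_zero_of_mul_eq_one hl
  refine ⟨by rw [hiso]; exact hx.unit, ?_, ?_⟩
  · have h1 := hiso x (Pi.single i 1)
    rw [hgi, UForm.smul_right hf, form_single_right hs, form_single_right hs, hx.zero] at h1
    exact (mul_eq_zero.mp h1).resolve_left hl0
  · intro μ
    obtain ⟨h, hh, hact⟩ := hx.mem μ
    refine ⟨g * h * g⁻¹, H.mul_mem (H.mul_mem hg hh) (H.inv_mem hg), fun y => ?_⟩
    rw [Units.val_mul, Units.val_mul, ← Matrix.mulVec_mulVec, ← Matrix.mulVec_mulVec, hact, form_inv hiso, form_inv hiso,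
      hgi, Matrix.mulVec_add, Matrix.mulVec_add, Matrix.mulVec_smul, Matrix.mulVec_smul, mulVec_inv_mulVec, hgi,
      UForm.smul_right hf, smul_smul]
    congr 2
    linear_combination ((σ μ.1 - 1) * f y (Pi.single j 1)) * hl

theorem InR.single (hs : Std σ f) (Q : QF σ q) (hH : Over f H) {i a : ι} (hai : a ≠ i) :
    InR σ f H i (Pi.single a 1) := by
  refine ⟨by rw [form_single_left hs]; simp, Pi.single_eq_of_ne (Ne.symm hai) _, fun μ => ?_⟩
  let t : ι → U1 σ := fun j => if j = a then μ else if j = i then conjU Q μ else oneU σ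
  have hta : t a = μ := by simp [t]
  have hti : t i = conjU Q μ := by simp [t, Ne.symm hai]
  have hto : ∀ j, j ≠ a → j ≠ i → t j = oneU σ := fun j h1 h2 => by simp [t, h1, h2]
  have hprod : ∏ j, (t j).1 = 1 := by
    rw [Finset.prod_eq_mul a i hai]
    · rw [hta, hti, coe_conjU]
      exact μ.2
    · intro c _ hc
      rw [hto c hc.1 hc.2]
      rfl
    · simp
    · simp
  refine ⟨dg (uD t), dg_mem hs hH t hprod, fun y => ?_⟩
  rw [dg_mulVec]
  funext r
  simp only [Pi.add_apply, Pi.smul_apply, smul_eq_mul, form_single_right hs, coe_uD]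
  by_cases hra : r = a
  · subst hra
    rw [hta, Pi.single_eq_same, Pi.single_eq_of_ne hai]
    ring
  · by_cases hri : r = i
    · subst hri
      rw [hti, Pi.single_eq_same, Pi.single_eq_of_ne hra, coe_conjU]
      ring
    · rw [hto r hra hri, Pi.single_eq_of_ne hra, Pi.single_eq_of_ne hri]
      simp

/-- A reflected vector. -/
theorem InR.reflect (hs : Std σ f) (hH : Over f H) {i : ι} {x y : ι → F} (hx : InR σ f H i x) (hy : InR σ f H i y)
    (μ : U1 σ) : InR σ f H i (y + ((μ.1 - 1) * f y x) • x) := by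
  obtain ⟨h, hh, hact⟩ := hx.mem μ
  have h1 := hy.conj hs hH hh (σ μ.1) (by rw [mul_comm]; rw [show σ (σ μ.1) = μ.1 from ?_]; exact μ.2; exact (hs.uf).involutive _)
    (j := i) (by
    rw [hact, form_single_left hs, form_single_left hs, hx.zero, map_zero, mul_zero, zero_smul, add_zero,
      Pi.single_eq_same, map_one, mul_one]
    funext r
    simp only [Pi.add_apply, Pi.smul_apply, smul_eq_mul]
    ring)
  rw [hact, form_single_right hs, hy.zero, mul_zero, zero_smul, add_zero] at h1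
  exact h1

theorem InR.phase (hs : Std σ f) (Q : QF σ q) (hH : Over f H) {i : ι} {x : ι → F} (hx : InR σ f H i x) (θ : ι → U1 σ) :
    InR σ f H i (fun j => (θ j).1 * x j) := by
  classical
  let l : F := ∏ j ∈ Finset.univ.erase i, σ (θ j).1
  have hl : l * σ l = 1 := by
    simp only [l, map_prod, Q.inv]
    rw [← Finset.prod_mul_distrib]
    refine Finset.prod_eq_one fun j _ => ?_
    rw [mul_comm]
    exact (θ j).2
  let t : ι → U1 σ := fun j => if j = i then ⟨l, hl⟩ else θ j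
  have hti : t i = ⟨l, hl⟩ := by simp [t]
  have hto : ∀ j, j ≠ i → t j = θ j := fun j hj => by simp [t, hj]
  have hprod : ∏ j, (t j).1 = 1 := by
    rw [← Finset.mul_prod_erase Finset.univ _ (Finset.mem_univ i), hti]
    have h1 : ∏ j ∈ Finset.univ.erase i, (t j).1 = ∏ j ∈ Finset.univ.erase i, (θ j).1 :=
      Finset.prod_congr rfl fun j hj => by rw [hto j (Finset.ne_of_mem_erase hj)]
    rw [h1]
    simp only [l]
    rw [← Finset.prod_mul_distrib]
    refine Finset.prod_eq_one fun j _ => ?_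
    rw [mul_comm]
    exact (θ j).2
  have h1 := hx.conj hs hH (j := i) (dg_mem hs hH t hprod) l hl (by
    rw [dg_mulVec]
    funext r
    simp only [Pi.smul_apply, smul_eq_mul, coe_uD]
    by_cases hr : r = i
    · subst hr
      rw [hti, Pi.single_eq_same]
    · rw [hto r hr, Pi.single_eq_of_ne hr, mul_zero, mul_zero])
  rw [dg_mulVec] at h1
  convert h1 using 1
  funext r
  simp only [coe_uD]
  by_cases hr : r = i
  · subst hr
    rw [hx.zero, mul_zero, mul_zero]
  · rw [hto r hr]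

theorem InR.perm (hs : Std σ f) (Q : QF σ q) (hH : Over f H) {i : ι} {x : ι → F} (hx : InR σ f H i x)
    (π : Equiv.Perm ι) (hπ : π i = i) : InR σ f H i (x ∘ π) := by
  classical
  let ε : F := ((Equiv.Perm.sign π : ℤˣ) : ℤ)
  have hε2 : ε * ε = 1 := by
    simp only [ε]
    rcases Int.units_eq_one_or (Equiv.Perm.sign π) with h | h <;> simp [h]
  have hεσ : σ ε = ε := by
    simp only [ε]
    rcases Int.units_eq_one_or (Equiv.Perm.sign π) with h | h <;> simp [h]
  have hl : ε * σ ε = 1 := by rw [hεσ, hε2]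
  let t : ι → U1 σ := fun j => if j = i then ⟨ε, hl⟩ else oneU σ
  have hti : t i = ⟨ε, hl⟩ := by simp [t]
  have hto : ∀ j, j ≠ i → t j = oneU σ := fun j hj => by simp [t, hj]
  have hprod : ∏ j, (t j).1 = ε := by
    rw [Finset.prod_eq_single i]
    · rw [hti]
    · intro b _ hb
      rw [hto b hb]
      rfl
    · simp
  set g : GL ι F := dg (uD t) * pm π with hg
  have hgv : ∀ v : ι → F, (g : Matrix ι ι F) *ᵥ v = fun r => (t r).1 * v (π r) := by
    intro v
    rw [hg, Units.val_mul, ← Matrix.mulVec_mulVec, dg_mulVec, pm_mulVec]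
    rfl
  have hgH : g ∈ H := by
    apply hH.mono
    · exact (dg_iso hs t).mul (pm_iso' hs π)
    · rw [hg, Units.val_mul, Matrix.det_mul, det_dg, det_pm]
      simp only [coe_uD, hprod]
      exact hε2
    · exact isMono_mul_gl (isMono_dg _) (isMono_pm _)
  have h1 := hx.conj hs hH (j := i) hgH ε hl (by
    rw [hgv]
    funext r
    simp only [Pi.smul_apply, smul_eq_mul]
    by_cases hr : r = i
    · subst hr
      rw [hti, hπ]
    · have h3 : π r ≠ i := fun h => hr (π.injective (h.trans hπ.symm))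
      rw [Pi.single_eq_of_ne h3, Pi.single_eq_of_ne hr, mul_zero, mul_zero])
  rw [hgv] at h1
  convert h1 using 1
  funext r
  simp only [Function.comp_apply]
  by_cases hr : r = i
  · subst hr
    rw [hπ, hx.zero, mul_zero]
  · rw [hto r hr]
    change _ = 1 * _
    rw [one_mul]

/-- From a non-monomial element with a coordinate column. -/
theorem exists_InR_two (hs : Std σ f) (Q : QF σ q) (hH : Over f H) {z : GL ι F} (hzH : z ∈ H)
    (hnz : ¬ IsMono (z : Matrix ι ι F)) {a : ι} (ha : SingCol (z : Matrix ι ι F) a) :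
    ∃ i x, InR σ f H i x ∧ ∃ r₁ r₂, r₁ ≠ r₂ ∧ x r₁ ≠ 0 ∧ x r₂ ≠ 0 := by
  have hiso := hH.iso z hzH
  obtain ⟨b, hb⟩ := ha
  have hcol : (z : Matrix ι ι F) *ᵥ Pi.single a 1 = ((z : Matrix ι ι F) b a) • Pi.single b 1 := by
    rw [mulVec_single_eq_col]
    funext r
    simp only [col, Pi.smul_apply, smul_eq_mul]
    by_cases hr : r = b
    · subst hr
      simp
    · rw [hb r hr, Pi.single_eq_of_ne hr, mul_zero]
  have hl : (z : Matrix ι ι F) b a * σ ((z : Matrix ι ι F) b a) = 1 := by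
    have h1 := hiso (Pi.single a 1) (Pi.single a 1)
    rw [hcol, hs.uf.smul_left, UForm.smul_right hs.uf, form_single_left hs, form_single_left hs] at h1
    simp only [Pi.single_eq_same, map_one, mul_one] at h1
    exact h1
  unfold IsMono at hnz
  push Not at hnz
  obtain ⟨d, hd⟩ := hnz
  have hda : d ≠ a := by
    rintro rfl
    exact hd ⟨b, hb⟩
  unfold SingCol at hd
  push Not at hd
  obtain ⟨r₁, -, hr₁⟩ := hd a
  obtain ⟨r₂, hr₂', hr₂⟩ := hd r₁
  refine ⟨b, (z : Matrix ι ι F) *ᵥ Pi.single d 1, ?_, r₁, r₂, Ne.symm hr₂', ?_, ?_⟩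
  · exact (InR.single hs Q hH hda).conj hs hH hzH _ hl hcol
  · rw [mulVec_single_eq_col]
    exact hr₁
  · rw [mulVec_single_eq_col]
    exact hr₂

/-- Growing the support from three to four coordinates. -/
theorem grow_three (hs : Std σ f) (Q : QF σ q) (hH : Over f H) (hι : 13 ≤ Fintype.card ι) {i : ι} {x : ι → F}
    (hx : InR σ f H i x) (a a' b : ι) (h1 : a ≠ a') (h2 : a ≠ b) (h3 : a' ≠ b) (ha : x a ≠ 0) (ha' : x a' ≠ 0)
    (hb : x b ≠ 0) (ho : ∀ r, r ≠ a → r ≠ a' → r ≠ b → x r = 0) :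
    ∃ y, InR σ f H i y ∧ ∃ s : Fin 4 → ι, Function.Injective s ∧ ∀ k, y (s k) ≠ 0 := by
  classical
  have hf := hs.uf
  have hia : a ≠ i := fun h => ha (by rw [h]; exact hx.zero)
  have hia' : a' ≠ i := fun h => ha' (by rw [h]; exact hx.zero)
  have hib : b ≠ i := fun h => hb (by rw [h]; exact hx.zero)
  obtain ⟨g, g', hgg, hg, hg'⟩ := exists_two_notMem ({a, a', b, i} : Finset ι) (by
    have : ({a, a', b, i} : Finset ι).card ≤ 4 := Finset.card_le_four
    omega)
  simp only [Finset.mem_insert, Finset.mem_singleton, not_or] at hg hg'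
  obtain ⟨hga, hga', hgb, hgi⟩ := hg
  obtain ⟨hga₁, hga₁', hgb₁, hgi₁⟩ := hg'
  have hxg : x g = 0 := ho g hga hga' hgb
  have hxg' : x g' = 0 := ho g' hga₁ hga₁' hgb₁
  set π : Equiv.Perm ι := Equiv.swap a g * Equiv.swap a' g' with hπ
  have hπi : π i = i := by
    simp only [hπ, Equiv.Perm.mul_apply]
    rw [Equiv.swap_apply_of_ne_of_ne (Ne.symm hia') (Ne.symm hgi₁), Equiv.swap_apply_of_ne_of_ne (Ne.symm hia) (Ne.symm hgi)]
  have hπg : π g = a := by
    simp only [hπ, Equiv.Perm.mul_apply]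
    rw [Equiv.swap_apply_of_ne_of_ne hga' hgg, Equiv.swap_apply_right]
  have hπg' : π g' = a' := by
    simp only [hπ, Equiv.Perm.mul_apply]
    rw [Equiv.swap_apply_right, Equiv.swap_apply_of_ne_of_ne (Ne.symm h1) (Ne.symm hga')]
  have hπa : π a = g := by
    simp only [hπ, Equiv.Perm.mul_apply]
    rw [Equiv.swap_apply_of_ne_of_ne h1 (Ne.symm hga₁), Equiv.swap_apply_left]
  have hπa' : π a' = g' := by
    simp only [hπ, Equiv.Perm.mul_apply]
    rw [Equiv.swap_apply_left, Equiv.swap_apply_of_ne_of_ne hga₁ (Ne.symm hgg)]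
  have hπb : π b = b := by
    simp only [hπ, Equiv.Perm.mul_apply]
    rw [Equiv.swap_apply_of_ne_of_ne (Ne.symm h3) (Ne.symm hgb₁), Equiv.swap_apply_of_ne_of_ne (Ne.symm h2) (Ne.symm hgb)]
  have hy := hx.perm hs Q hH π hπi
  have hF : f (x ∘ π) x = x b * σ (x b) := by
    rw [hs.form, Finset.sum_eq_single b]
    · simp only [Function.comp_apply, hπb]
    · intro r _ hr
      by_cases hra : r = a
      · subst hra
        simp only [Function.comp_apply, hπa, hxg, zero_mul]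
      · by_cases hra' : r = a'
        · subst hra'
          simp only [Function.comp_apply, hπa', hxg', zero_mul]
        · rw [ho r hra hra' hr, map_zero, mul_zero]
    · simp
  have hF0 : x b * σ (x b) ≠ 0 := mul_ne_zero hb ((map_ne_zero σ).mpr hb)
  obtain ⟨μ, hμ⟩ := exists_U1_notMem Q {1} (by
    have := Q.two_le
    simp
    omega)
  simp only [Finset.mem_singleton] at hμ
  have hκ : (μ.1 - 1) * f (x ∘ π) x ≠ 0 := by
    rw [hF]
    exact mul_ne_zero (sub_ne_zero.mpr hμ) hF0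
  refine ⟨_, hx.reflect hs hH hy μ, ![g, g', a, a'], ?_, ?_⟩
  · intro k k' hkk
    fin_cases k <;> fin_cases k' <;> simp_all [Ne.symm]
  · intro k
    fin_cases k
    · show x (π g) + _ * x g ≠ 0
      rw [hπg, hxg, mul_zero, add_zero]
      exact ha
    · show x (π g') + _ * x g' ≠ 0
      rw [hπg', hxg', mul_zero, add_zero]
      exact ha'
    · simp only [Pi.add_apply, Pi.smul_apply, smul_eq_mul, Function.comp_apply]
      show x (π a) + _ * x a ≠ 0
      rw [hπa, hxg, zero_add]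
      exact mul_ne_zero hκ ha
    · simp only [Pi.add_apply, Pi.smul_apply, smul_eq_mul, Function.comp_apply]
      show x (π a') + _ * x a' ≠ 0
      rw [hπa', hxg', zero_add]
      exact mul_ne_zero hκ ha'

/-- Growing the support from two to three coordinates. -/
theorem grow_two (hs : Std σ f) (Q : QF σ q) (hH : Over f H) (hι : 13 ≤ Fintype.card ι) {i : ι} {x : ι → F}
    (hx : InR σ f H i x) (a b : ι) (h2 : a ≠ b) (ha : x a ≠ 0) (hb : x b ≠ 0) (ho : ∀ r, r ≠ a → r ≠ b → x r = 0) :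
    ∃ y, InR σ f H i y ∧ ∃ r₁ r₂ r₃, r₁ ≠ r₂ ∧ r₁ ≠ r₃ ∧ r₂ ≠ r₃ ∧ y r₁ ≠ 0 ∧ y r₂ ≠ 0 ∧ y r₃ ≠ 0 := by
  classical
  have hf := hs.uf
  have hia : a ≠ i := fun h => ha (by rw [h]; exact hx.zero)
  have hib : b ≠ i := fun h => hb (by rw [h]; exact hx.zero)
  obtain ⟨g, hg⟩ := exists_notMem_finset ({a, b, i} : Finset ι) (by
    have : ({a, b, i} : Finset ι).card ≤ 3 := Finset.card_le_three
    omega)
  simp only [Finset.mem_insert, Finset.mem_singleton, not_or] at hg
  obtain ⟨hga, hgb, hgi⟩ := hg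
  have hxg : x g = 0 := ho g hga hgb
  set π : Equiv.Perm ι := Equiv.swap a g with hπ
  have hπi : π i = i := Equiv.swap_apply_of_ne_of_ne (Ne.symm hia) (Ne.symm hgi)
  have hπg : π g = a := Equiv.swap_apply_right _ _
  have hπa : π a = g := Equiv.swap_apply_left _ _
  have hπb : π b = b := Equiv.swap_apply_of_ne_of_ne (Ne.symm h2) (Ne.symm hgb)
  have hy := hx.perm hs Q hH π hπi
  have hF : f (x ∘ π) x = x b * σ (x b) := by
    rw [hs.form, Finset.sum_eq_single b]
    · simp only [Function.comp_apply, hπb]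
    · intro r _ hr
      by_cases hra : r = a
      · subst hra
        simp only [Function.comp_apply, hπa, hxg, zero_mul]
      · rw [ho r hra hr, map_zero, mul_zero]
    · simp
  have hF0 : x b * σ (x b) ≠ 0 := mul_ne_zero hb ((map_ne_zero σ).mpr hb)
  obtain ⟨μ, hμ⟩ := exists_U1_notMem Q {1, 1 - 1 / (x b * σ (x b))} (le_trans Finset.card_le_two Q.two_le)
  simp only [Finset.mem_insert, Finset.mem_singleton, not_or] at hμ
  have hκ : (μ.1 - 1) * f (x ∘ π) x ≠ 0 := by
    rw [hF]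
    exact mul_ne_zero (sub_ne_zero.mpr hμ.1) hF0
  have hκ1 : 1 + (μ.1 - 1) * f (x ∘ π) x ≠ 0 := by
    rw [hF]
    intro h
    apply hμ.2
    apply mul_right_cancel₀ hF0
    rw [sub_mul, div_mul_cancel₀ _ hF0]
    linear_combination h
  refine ⟨_, hx.reflect hs hH hy μ, g, a, b, hga, hgb, h2, ?_, ?_, ?_⟩
  · show x (π g) + _ * x g ≠ 0
    rw [hπg, hxg, mul_zero, add_zero]
    exact ha
  · simp only [Pi.add_apply, Pi.smul_apply, smul_eq_mul, Function.comp_apply]
    show x (π a) + _ * x a ≠ 0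
    rw [hπa, hxg, zero_add]
    exact mul_ne_zero hκ ha
  · simp only [Pi.add_apply, Pi.smul_apply, smul_eq_mul, Function.comp_apply]
    show x (π b) + _ * x b ≠ 0
    rw [hπb]
    have : x b + (μ.1 - 1) * f (x ∘ π) x * x b = (1 + (μ.1 - 1) * f (x ∘ π) x) * x b := by ring
    rw [this]
    exact mul_ne_zero hκ1 hb

theorem exists_four (hs : Std σ f) (Q : QF σ q) (hH : Over f H) (hι : 13 ≤ Fintype.card ι) {i : ι} {x : ι → F}
    (hx : InR σ f H i x) (r₁ r₂ : ι) (hr : r₁ ≠ r₂) (h1 : x r₁ ≠ 0) (h2 : x r₂ ≠ 0) :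
    ∃ y, InR σ f H i y ∧ ∃ s : Fin 4 → ι, Function.Injective s ∧ ∀ k, y (s k) ≠ 0 := by
  classical
  -- supports with at least four elements
  have h4 : ∀ y : ι → F, InR σ f H i y → 4 ≤ (Finset.univ.filter fun r => y r ≠ 0).card →
      ∃ y, InR σ f H i y ∧ ∃ s : Fin 4 → ι, Function.Injective s ∧ ∀ k, y (s k) ≠ 0 := by
    intro y hy hc
    have hc' : Fintype.card (Fin 4) ≤ Fintype.card ↥(Finset.univ.filter fun r => y r ≠ 0) := by
      rw [Fintype.card_fin, Fintype.card_coe]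
      exact hc
    obtain ⟨e⟩ := Function.Embedding.nonempty_of_card_le hc'
    refine ⟨y, hy, fun k => (e k).1, fun k k' h => e.injective (Subtype.ext h), fun k => ?_⟩
    have := (e k).2
    rw [Finset.mem_filter] at this
    exact this.2
  have h3 : ∀ y : ι → F, InR σ f H i y → ∀ r₁ r₂ r₃, r₁ ≠ r₂ → r₁ ≠ r₃ → r₂ ≠ r₃ → y r₁ ≠ 0 → y r₂ ≠ 0 → y r₃ ≠ 0 →
      ∃ y, InR σ f H i y ∧ ∃ s : Fin 4 → ι, Function.Injective s ∧ ∀ k, y (s k) ≠ 0 := by
    intro y hy r₁ r₂ r₃ h12 h13 h23 h1 h2 h3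
    by_cases hc : 4 ≤ (Finset.univ.filter fun r => y r ≠ 0).card
    · exact h4 y hy hc
    · apply grow_three hs Q hH hι hy r₁ r₂ r₃ h12 h13 h23 h1 h2 h3
      intro r hr1 hr2 hr3
      by_contra hr
      apply hc
      have hsub : ({r₁, r₂, r₃, r} : Finset ι) ⊆ Finset.univ.filter fun r => y r ≠ 0 := by
        intro z hz
        simp only [Finset.mem_insert, Finset.mem_singleton] at hz
        rw [Finset.mem_filter]
        refine ⟨Finset.mem_univ _, ?_⟩
        rcases hz with rfl | rfl | rfl | rfl <;> assumption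
      have hcard : ({r₁, r₂, r₃, r} : Finset ι).card = 4 := by
        rw [Finset.card_insert_of_notMem, Finset.card_insert_of_notMem, Finset.card_insert_of_notMem, Finset.card_singleton]
        · simpa using Ne.symm hr3
        · simp [h23, Ne.symm hr2]
        · simp [h12, h13, Ne.symm hr1]
      rw [← hcard]
      exact Finset.card_le_card hsub
  by_cases hc : ∃ r, r ≠ r₁ ∧ r ≠ r₂ ∧ x r ≠ 0
  · obtain ⟨r, hr1, hr2, hr3⟩ := hc
    exact h3 x hx r₁ r₂ r hr (Ne.symm hr1) (Ne.symm hr2) h1 h2 hr3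
  · push Not at hc
    obtain ⟨y, hy, a, b, c, h12, h13, h23, ha, hb, hc'⟩ := grow_two hs Q hH hι hx r₁ r₂ hr h1 h2 hc
    exact h3 y hy a b c h12 h13 h23 ha hb hc'

/-- The transvections with centre the difference of two unit vectors. -/
theorem cen_of_pair (hs : Std σ f) (Q : QF σ q) (hH : Over f H) {i : ι} {x x' : ι → F} (hx : InR σ f H i x)
    (hx' : InR σ f H i x') (hY : f x' x = 1) (hne : x' ≠ x) : x' - x ∈ cen hs.uf H := by
  classical
  have hf := hs.uf
  have P := UForm.isPolar hf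
  obtain ⟨c, hc⟩ : ∃ c, c = x' - x := ⟨_, rfl⟩
  rw [← hc]
  have hx'c : x' = x + c := by rw [hc]; abel
  have hxx := hx.unit
  have hx'x' := hx'.unit
  have hcx : f c x = 0 := by
    rw [hc, P.sub_left, hY, hxx, sub_self]
  have hxc : f x c = 0 := UForm.refl hf _ _ hcx
  have hcc : f c c = 0 := by
    have h1 : f x' x' = f x x + f x c + f c x + f c c := by
      rw [hx'c, hf.add_left, UForm.add_right hf, UForm.add_right hf]
      ring
    rw [hx'x', hxx, hxc, hcx] at h1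
    linear_combination -h1
  have hei : f (Pi.single i 1) (Pi.single i 1) = 1 := by
    rw [form_single_left hs]
    simp
  have hex : f (Pi.single i 1) x = 0 := by
    rw [form_single_left hs, hx.zero, map_zero]
  have hx'e : f x' (Pi.single i 1) = 0 := by
    rw [form_single_right hs, hx'.zero]
  have hEE : ∀ μ : U1 σ, ∃ E ∈ H, ∀ y, (E : Matrix ι ι F) *ᵥ y =
      y + ((1 - μ.1) * f y c) • x - ((1 - σ μ.1) * f y x) • c + ((-(1 - σ μ.1)) * f y c) • c := by
    intro μ
    obtain ⟨h₁, hh₁, hact₁⟩ := hx.mem μ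
    obtain ⟨h₂, hh₂, hact₂⟩ := hx'.mem (conjU Q μ)
    refine ⟨h₁ * h₂, H.mul_mem hh₁ hh₂, fun y => ?_⟩
    have hμ := μ.2
    rw [Units.val_mul, ← Matrix.mulVec_mulVec, hact₂, hact₁]
    simp only [hf.add_left, hf.smul_left, hx'e, hY, hex, hei, coe_conjU, Q.inv]
    have hA : f y x' = f y x + f y c := by rw [hx'c, UForm.add_right hf]
    rw [hA]
    funext r
    have hr : x' r = x r + c r := by rw [hx'c]; rfl
    simp only [Pi.add_apply, Pi.sub_apply, Pi.smul_apply, smul_eq_mul, hr]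
    linear_combination (f y (Pi.single i 1) * (Pi.single i 1 : ι → F) r + x r * (f y x + f y c)) * hμ
  -- the product formula
  have hprod : ∀ (E₁ E₂ : GL ι F) (β₁ β₂ a₁ a₂ : F),
      (∀ y, (E₁ : Matrix ι ι F) *ᵥ y = y + (β₁ * f y c) • x - (σ β₁ * f y x) • c + (a₁ * f y c) • c) →
      (∀ y, (E₂ : Matrix ι ι F) *ᵥ y = y + (β₂ * f y c) • x - (σ β₂ * f y x) • c + (a₂ * f y c) • c) →
      ∀ y, ((E₁ * E₂ : GL ι F) : Matrix ι ι F) *ᵥ y = y + ((β₁ + β₂) * f y c) • x - ((σ β₁ + σ β₂) * f y x) • c +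
        ((a₁ + a₂ - σ β₁ * β₂) * f y c) • c := by
    intro E₁ E₂ β₁ β₂ a₁ a₂ h1 h2 y
    have P1 : f (y + (β₂ * f y c) • x - (σ β₂ * f y x) • c + (a₂ * f y c) • c) c = f y c := by
      simp only [hf.add_left, P.sub_left, hf.smul_left, hxc, hcc]
      ring
    have P2 : f (y + (β₂ * f y c) • x - (σ β₂ * f y x) • c + (a₂ * f y c) • c) x = f y x + β₂ * f y c := by
      simp only [hf.add_left, P.sub_left, hf.smul_left, hxx, hcx]
      ring
    rw [Units.val_mul, ← Matrix.mulVec_mulVec, h2, h1, P1, P2]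
    funext r
    simp only [Pi.add_apply, Pi.sub_apply, Pi.smul_apply, smul_eq_mul]
    ring
  -- the commutators
  have hcomm : ∀ μ ν : U1 σ, uT hf c ((1 - μ.1) * σ (1 - ν.1) - (1 - ν.1) * σ (1 - μ.1)) hcc ∈ H := by
    intro μ ν
    obtain ⟨E₁, hE₁, h1⟩ := hEE μ
    obtain ⟨E₂, hE₂, h2⟩ := hEE ν
    have h1' : ∀ y, (E₁ : Matrix ι ι F) *ᵥ y = y + ((1 - μ.1) * f y c) • x - (σ (1 - μ.1) * f y x) • c +
        ((-(1 - σ μ.1)) * f y c) • c := by
      intro y
      rw [h1, map_sub, map_one]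
    have h2' : ∀ y, (E₂ : Matrix ι ι F) *ᵥ y = y + ((1 - ν.1) * f y c) • x - (σ (1 - ν.1) * f y x) • c +
        ((-(1 - σ ν.1)) * f y c) • c := by
      intro y
      rw [h2, map_sub, map_one]
    have e1 := hprod E₁ E₂ _ _ _ _ h1' h2'
    have e2 := hprod E₂ E₁ _ _ _ _ h2' h1'
    have hT : uT hf c ((1 - μ.1) * σ (1 - ν.1) - (1 - ν.1) * σ (1 - μ.1)) hcc * (E₂ * E₁) = E₁ * E₂ := by
      apply gl_ext_mulVec
      intro y
      rw [Units.val_mul, ← Matrix.mulVec_mulVec, uT_mulVec, e1, e2]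
      have P1 : f (y + ((1 - ν.1 + (1 - μ.1)) * f y c) • x - ((σ (1 - ν.1) + σ (1 - μ.1)) * f y x) • c +
          ((-(1 - σ ν.1) + -(1 - σ μ.1) - σ (1 - ν.1) * (1 - μ.1)) * f y c) • c) c = f y c := by
        simp only [hf.add_left, P.sub_left, hf.smul_left, hxc, hcc]
        ring
      rw [P1]
      funext r
      simp only [Pi.add_apply, Pi.sub_apply, Pi.smul_apply, smul_eq_mul]
      ring
    rw [eq_mul_inv_of_mul_eq hT]
    exact H.mul_mem (H.mul_mem hE₁ hE₂) (H.inv_mem (H.mul_mem hE₂ hE₁))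
  refine ⟨hcc, fun a ha => ?_⟩
  obtain ⟨μ₀, hμ₀⟩ := exists_U1_notMem Q {1} (by
    have := Q.two_le
    simp
    omega)
  simp only [Finset.mem_singleton] at hμ₀
  have hw : σ (1 - μ₀.1) ≠ 0 := (map_ne_zero σ).mpr (sub_ne_zero.mpr (Ne.symm hμ₀))
  obtain ⟨μ, ν, hsum⟩ := exists_comm_sum Q (σ (1 - μ₀.1)) hw a ha
  have hadd : uT hf c a hcc = uT hf c ((1 - μ.1) * σ (1 - μ₀.1) - (1 - μ₀.1) * σ (1 - μ.1)) hcc *
      uT hf c ((1 - ν.1) * σ (1 - μ₀.1) - (1 - μ₀.1) * σ (1 - ν.1)) hcc := by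
    apply gl_ext_mulVec
    intro y
    rw [Units.val_mul, ← Matrix.mulVec_mulVec, uT_mulVec, uT_mulVec, uT_mulVec, hf.add_left, hf.smul_left, hf.smul_left, hcc]
    rw [← hsum]
    funext r
    simp only [Pi.add_apply, Pi.smul_apply, smul_eq_mul, map_sub, map_one, Q.inv]
    ring
  rw [hadd]
  exact H.mul_mem (hcomm μ μ₀) (hcomm ν μ₀)

/-- The centre from a unit vector with four non-zero coordinates. -/
theorem exists_cen_of_four (hs : Std σ f) (Q : QF σ q) (hH : Over f H) {i : ι} {x : ι → F} (hx : InR σ f H i x)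
    (s : Fin 4 → ι) (hs' : Function.Injective s) (hsx : ∀ k, x (s k) ≠ 0) :
    ∃ c ∈ cen hs.uf H, c ≠ 0 ∧ c i = 0 := by
  classical
  obtain ⟨t, ht⟩ : ∃ t : ι → F, t = fun j => x j * σ (x j) := ⟨_, rfl⟩
  have htj : ∀ j, t j = x j * σ (x j) := fun j => by rw [ht]
  have ht0 : ∀ k, t (s k) ≠ 0 := fun k => by
    rw [htj]
    exact mul_ne_zero (hsx k) ((map_ne_zero σ).mpr (hsx k))
  obtain ⟨θ₀, θ₁, θ₂, θ₃, hw, hne⟩ := four_circles Q (t (s 0)) (t (s 1)) (t (s 2)) (t (s 3)) (ht0 0) (ht0 1) (ht0 2) (ht0 3)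
    (t (s 0) + t (s 1) + (t (s 2) + t (s 3))) (t (s 0) + t (s 1))
  obtain ⟨θ, hθ⟩ : ∃ θ : ι → U1 σ, θ = Function.extend s ![θ₀, θ₁, θ₂, θ₃] (fun _ => oneU σ) := ⟨_, rfl⟩
  have hθs : ∀ k, θ (s k) = ![θ₀, θ₁, θ₂, θ₃] k := fun k => by rw [hθ, hs'.extend_apply]
  have hθo : ∀ j, j ∉ Set.range s → θ j = oneU σ := fun j hj => by
    rw [hθ, Function.extend_apply' _ _ _ hj]
  have hx' := hx.phase hs Q hH θ
  have hY : f (fun j => (θ j).1 * x j) x = 1 := by
    rw [hs.form]
    have h1 : f x x = ∑ j, t j := by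
      rw [hs.form]
      exact Finset.sum_congr rfl fun j _ => (htj j).symm
    rw [hx.unit] at h1
    have h2 : ∑ j, ((θ j).1 - 1) * t j = 0 := by
      rw [← Fintype.sum_of_injective s hs' (fun k => ((θ (s k)).1 - 1) * t (s k)) _ (by
        intro j hj
        rw [hθo j hj]
        simp) (fun _ => rfl)]
      rw [Fin.sum_univ_four, hθs, hθs, hθs, hθs]
      simp only [Matrix.cons_val]
      linear_combination hw
    calc ∑ j, (θ j).1 * x j * σ (x j) = ∑ j, ((θ j).1 - 1) * t j + ∑ j, t j := by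
          rw [← Finset.sum_add_distrib]
          refine Finset.sum_congr rfl fun j _ => ?_
          rw [htj]
          ring
      _ = 1 := by rw [h2, ← h1, zero_add]
  have hne' : (fun j => (θ j).1 * x j) ≠ x := by
    intro h
    have h0 : ∀ k, (θ (s k)).1 = 1 := fun k => by
      have := congrFun h (s k)
      exact mul_right_cancel₀ (hsx k) (this.trans (one_mul _).symm)
    apply hne
    have e0 := h0 0
    have e1 := h0 1
    rw [hθs] at e0 e1
    simp only [Matrix.cons_val] at e0 e1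
    rw [e0, e1]
    ring
  refine ⟨_, cen_of_pair hs Q hH hx hx' hY hne', sub_ne_zero.mpr hne', ?_⟩
  simp only [Pi.sub_apply, hx.zero, mul_zero, sub_self]

end Cfsg.Agent.Lib.SUMon.Rf
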