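/-
The game on centres for the monomial overgroup: from one centre with a zero coordinate to all isotropic vectors.
-/
import Cfsg.Agent.Lib.SUMon.Rf
set_option autoImplicit false

namespace Cfsg.Agent.Lib.SUMon.Game

open Cfsg Cfsg.Geo Cfsg.Agent.Lib.Geo.Basic Cfsg.Agent.Lib.Geo.Centres Cfsg.Agent.Lib.Geo.Parabolic
open Cfsg.Agent.Lib.Geo.Polar Cfsg.Agent.Lib.Geo.UnitaryInSL Cfsg.Agent.Lib.Geo.QForm
open Cfsg.Agent.Lib.Geo.SUGen Cfsg.Agent.Lib.Geo.SUBase
open Cfsg.Agent.Lib.SLC2.Mono Cfsg.Agent.Lib.SLC2.MonoA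
open Cfsg.Agent.Lib.SUMon.Field Cfsg.Agent.Lib.SUMon.Base Cfsg.Agent.Lib.SUMon.Sums
open Cfsg.Agent.Lib.SUMon.Zero Cfsg.Agent.Lib.SUMon.Coord Cfsg.Agent.Lib.SUMon.Even Cfsg.Agent.Lib.SUMon.Rf
open scoped MatrixGroups Matrix

variable {ι : Type} [Fintype ι] [DecidableEq ι] {F : Type*} [Field F] [Fintype F]
variable {σ : F ≃+* F} {q : ℕ} {f : (ι → F) → (ι → F) → F} {H : Subgroup (GL ι F)}

/-- Phases on a centre with a zero coordinate. -/
theorem cen_phase (hs : Std σ f) (Q : QF σ q) (hH : Over f H) {c : ι → F} (hc : c ∈ cen hs.uf H) {i : ι}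
    (hi : c i = 0) (θ : ι → U1 σ) : (fun j => (θ j).1 * c j) ∈ cen hs.uf H := by
  classical
  let l : F := ∏ j ∈ Finset.univ.erase i, σ (θ j).1
  have hl : l * σ l = 1 := by
    simp only [l, map_prod, Q.inv]
    rw [← Finset.prod_mul_distrib]
    refine Finset.prod_eq_one fun j _ => ?_
    rw [mul_comm]
    exact (θ j).2
  let t : ι → U1 σ := fun j => if j = i then ⟨l, hl⟩ else θ j
  have hti : t i = ⟨l, hl⟩ := by simp [t]
  have hto : ∀ j, j ≠ i → t j = θ j := fun j hj => by simp [t, hj]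
  have hprod : ∏ j, (t j).1 = 1 := by
    rw [← Finset.mul_prod_erase Finset.univ _ (Finset.mem_univ i), hti]
    have h1 : ∏ j ∈ Finset.univ.erase i, (t j).1 = ∏ j ∈ Finset.univ.erase i, (θ j).1 :=
      Finset.prod_congr rfl fun j hj => by rw [hto j (Finset.ne_of_mem_erase hj)]
    rw [h1]
    simp only [l]
    rw [← Finset.prod_mul_distrib]
    refine Finset.prod_eq_one fun j _ => ?_
    rw [mul_comm]
    exact (θ j).2
  have h1 := cen_mulVec hc (dg_mem hs hH t hprod) (dg_iso hs t)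
  rw [dg_mulVec] at h1
  convert h1 using 1
  funext r
  simp only [coe_uD]
  by_cases hr : r = i
  · subst hr
    rw [hi, mul_zero, mul_zero]
  · rw [hto r hr]

/-- Permutations of a centre with a zero coordinate. -/
theorem cen_perm (hs : Std σ f) (hH : Over f H) {c : ι → F} (hc : c ∈ cen hs.uf H) {i : ι} (hi : c i = 0)
    (π : Equiv.Perm ι) : c ∘ π ∈ cen hs.uf H := by
  classical
  let ε : F := ((Equiv.Perm.sign π : ℤˣ) : ℤ)
  have hε2 : ε * ε = 1 := by
    simp only [ε]
    rcases Int.units_eq_one_or (Equiv.Perm.sign π) with h | h <;> simp [h]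
  have hεσ : σ ε = ε := by
    simp only [ε]
    rcases Int.units_eq_one_or (Equiv.Perm.sign π) with h | h <;> simp [h]
  have hl : ε * σ ε = 1 := by rw [hεσ, hε2]
  obtain ⟨i', hi'⟩ : ∃ i', π i' = i := ⟨π.symm i, by simp⟩
  let t : ι → U1 σ := fun j => if j = i' then ⟨ε, hl⟩ else oneU σ
  have hti : t i' = ⟨ε, hl⟩ := by simp [t]
  have hto : ∀ j, j ≠ i' → t j = oneU σ := fun j hj => by simp [t, hj]
  have hprod : ∏ j, (t j).1 = ε := by
    rw [Finset.prod_eq_single i']
    · rw [hti]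
    · intro b _ hb
      rw [hto b hb]
      rfl
    · simp
  set g : GL ι F := dg (uD t) * pm π with hg
  have hgv : ∀ v : ι → F, (g : Matrix ι ι F) *ᵥ v = fun r => (t r).1 * v (π r) := by
    intro v
    rw [hg, Units.val_mul, ← Matrix.mulVec_mulVec, dg_mulVec, pm_mulVec]
    rfl
  have hgH : g ∈ H := by
    apply hH.mono
    · exact (dg_iso hs t).mul (pm_iso' hs π)
    · rw [hg, Units.val_mul, Matrix.det_mul, det_dg, det_pm]
      simp only [coe_uD, hprod]
      exact hε2
    · exact isMono_mul_gl (isMono_dg _) (isMono_pm _)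
  have h1 := cen_mulVec hc hgH ((dg_iso hs t).mul (pm_iso' hs π))
  rw [hgv] at h1
  convert h1 using 1
  funext r
  simp only [Function.comp_apply]
  by_cases hr : r = i'
  · subst hr
    rw [hi', hi, mul_zero]
  · rw [hto r hr]
    change _ = 1 * _
    rw [one_mul]

theorem inv_trace {x : F} (hT : x + σ x = 0) : x⁻¹ + σ x⁻¹ = 0 := by
  rw [map_inv₀, eq_neg_of_add_eq_zero_right hT, inv_neg]
  ring

/-- The subtraction rule. -/
theorem cen_sub (hf : IsUnitaryForm σ f) {c c' : ι → F} (hc : c ∈ cen hf H) (hc' : c' ∈ cen hf H) (hF : f c c' ≠ 0)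
    (hT : f c c' + σ (f c c') = 0) : c - c' ∈ cen hf H := by
  have ha : -(f c c')⁻¹ + σ (-(f c c')⁻¹) = 0 := by
    rw [map_neg]
    linear_combination -inv_trace hT
  have h1 := cen_plane hc' hc _ ha
  rw [smul_smul, mul_neg, mul_inv_cancel₀ hF] at h1
  convert h1 using 1
  funext r
  simp [sub_eq_add_neg]

/-- The addition rule. -/
theorem cen_add (hf : IsUnitaryForm σ f) {c c' : ι → F} (hc : c ∈ cen hf H) (hc' : c' ∈ cen hf H) (hF : f c c' ≠ 0)
    (hT : f c c' + σ (f c c') = 0) : c + c' ∈ cen hf H := by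
  have ha : (f c c')⁻¹ + σ ((f c c')⁻¹) = 0 := inv_trace hT
  have h1 := cen_plane hc' hc _ ha
  rw [smul_smul, mul_inv_cancel₀ hF, one_smul] at h1
  exact h1

/-- The pair of phases. -/
theorem exists_pair_F (Q : QF σ q) (ta tb : F) (hta : σ ta = ta) (htb : σ tb = tb) (hta0 : ta ≠ 0) (htb0 : tb ≠ 0) :
    ∃ μ ν : U1 σ, μ.1 ≠ 1 ∧ ν.1 ≠ 1 ∧ (σ μ.1 - 1) * ta + (σ ν.1 - 1) * tb ≠ 0 ∧
      ((σ μ.1 - 1) * ta + (σ ν.1 - 1) * tb) + σ ((σ μ.1 - 1) * ta + (σ ν.1 - 1) * tb) = 0 := by
  by_cases h0 : ta + tb = 0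
  · obtain ⟨l, hl⟩ := exists_sq_ne Q
    have hl1 : l.1 ≠ 1 := by
      intro h
      apply hl
      rw [h, one_pow]
    have hl2 : σ l.1 ≠ l.1 := by
      intro h
      apply hl
      have := l.2
      rw [h] at this
      rw [sq]
      exact this
    have hl3 : σ l.1 ≠ 1 := by
      intro h
      apply hl1
      have := congrArg σ h
      rwa [Q.inv, map_one] at this
    have htb' : tb = -ta := by linear_combination h0
    refine ⟨l, conjU Q l, hl1, by rwa [coe_conjU], ?_, ?_⟩
    · rw [coe_conjU, Q.inv, htb']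
      have : (σ l.1 - 1) * ta + (l.1 - 1) * -ta = (σ l.1 - l.1) * ta := by ring
      rw [this]
      exact mul_ne_zero (sub_ne_zero.mpr hl2) hta0
    · rw [coe_conjU, Q.inv, htb']
      simp only [map_add, map_mul, map_sub, map_one, Q.inv, map_neg, hta]
      ring
  · obtain ⟨μ, ν, hμ, hν, hs⟩ := exists_s_pair Q ta tb hta htb hta0 htb0
    have hμ' := sN_eq μ
    have hν' := sN_eq ν
    rw [hμ', hν'] at hs
    have hsμ : σ μ.1 ≠ 1 := by
      intro h
      apply hμ
      have := congrArg σ h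
      rwa [Q.inv, map_one] at this
    have hsν : σ ν.1 ≠ 1 := by
      intro h
      apply hν
      have := congrArg σ h
      rwa [Q.inv, map_one] at this
    have htr : ∀ A B : F, A + σ A = σ μ.1 + μ.1 → B + σ B = σ ν.1 + ν.1 →
        ((A - 1) * ta + (B - 1) * tb) + σ ((A - 1) * ta + (B - 1) * tb) = 0 := by
      intro A B hA hB
      simp only [map_add, map_mul, map_sub, map_one, hta, htb]
      linear_combination ta * hA + tb * hB - hs
    by_cases h1 : (σ μ.1 - 1) * ta + (σ ν.1 - 1) * tb = 0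
    · by_cases h2 : (σ μ.1 - 1) * ta + (ν.1 - 1) * tb = 0
      · by_cases h3 : (μ.1 - 1) * ta + (σ ν.1 - 1) * tb = 0
        · exfalso
          have h4 : σ ν.1 = ν.1 := by
            have : (σ ν.1 - ν.1) * tb = 0 := by linear_combination h1 - h2
            exact sub_eq_zero.mp ((mul_eq_zero.mp this).resolve_right htb0)
          have h5 : σ μ.1 = μ.1 := by
            have : (σ μ.1 - μ.1) * ta = 0 := by linear_combination h1 - h3
            exact sub_eq_zero.mp ((mul_eq_zero.mp this).resolve_right hta0)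
          have h6 : ν.1 = -1 := by
            have h7 := ν.2
            rw [h4] at h7
            have : (ν.1 - 1) * (ν.1 + 1) = 0 := by linear_combination h7
            rcases mul_eq_zero.mp this with h | h
            · exact absurd (sub_eq_zero.mp h) hν
            · exact eq_neg_of_add_eq_zero_left h
          have h8 : μ.1 = -1 := by
            have h7 := μ.2
            rw [h5] at h7
            have : (μ.1 - 1) * (μ.1 + 1) = 0 := by linear_combination h7
            rcases mul_eq_zero.mp this with h | h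
            · exact absurd (sub_eq_zero.mp h) hμ
            · exact eq_neg_of_add_eq_zero_left h
          have h9 : (2 : F) ≠ 0 := by
            intro h
            apply hν
            rw [h6]
            linear_combination -h
          rw [h4, h5, h6, h8] at h1
          apply h0
          apply mul_left_cancel₀ h9
          linear_combination -h1
        · refine ⟨conjU Q μ, ν, by rwa [coe_conjU], hν, by rwa [coe_conjU, Q.inv], ?_⟩
          rw [coe_conjU, Q.inv]
          exact htr _ _ (by first | ring1 | (rw [Q.inv]; ring1) | rw [Q.inv]) (by first | ring1 | (rw [Q.inv]; ring1) | rw [Q.inv])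
      · refine ⟨μ, conjU Q ν, hμ, by rwa [coe_conjU], by rwa [coe_conjU, Q.inv], ?_⟩
        rw [coe_conjU, Q.inv]
        exact htr _ _ (by first | ring1 | (rw [Q.inv]; ring1) | rw [Q.inv]) (by first | ring1 | (rw [Q.inv]; ring1) | rw [Q.inv])
    · exact ⟨μ, ν, hμ, hν, h1, htr _ _ (by first | ring1 | (rw [Q.inv]; ring1) | rw [Q.inv]) (by first | ring1 | (rw [Q.inv]; ring1) | rw [Q.inv])⟩

/-- The norm of a coordinate is fixed. -/
theorem norm_fix (Q : QF σ q) (x : F) : σ (x * σ x) = x * σ x := by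
  rw [map_mul, Q.inv, mul_comm]

theorem norm_ne_zero {x : F} (hx : x ≠ 0) : x * σ x ≠ 0 := mul_ne_zero hx ((map_ne_zero σ).mpr hx)

theorem div_norm_one {u w : F} (hw : w ≠ 0) (h : w * σ w = u * σ u) : (u / w) * σ (u / w) = 1 := by
  have hsw : σ w ≠ 0 := (map_ne_zero σ).mpr hw
  rw [map_div₀]
  field_simp
  linear_combination -h

/-- Permutations moving an injective family to another. -/
theorem exists_perm_of_inj {m : ℕ} (s s' : Fin m → ι) (hs : Function.Injective s) (hs' : Function.Injective s') :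
    ∃ π : Equiv.Perm ι, ∀ k, π (s' k) = s k := by
  classical
  let e : {x // x ∈ Set.range s'} ≃ {x // x ∈ Set.range s} :=
    (Equiv.ofInjective s' hs').symm.trans (Equiv.ofInjective s hs)
  refine ⟨e.extendSubtype, fun k => ?_⟩
  have h1 : s' k ∈ Set.range s' := ⟨k, rfl⟩
  rw [Equiv.extendSubtype_apply_of_mem e _ h1]
  have : (Equiv.ofInjective s' hs').symm ⟨s' k, h1⟩ = k := by
    apply (Equiv.ofInjective s' hs').injective
    simp
  simp only [e, Equiv.trans_apply, this]
  rfl

/-- Two coordinates. -/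
theorem form_two (hs : Std σ f) {a b : ι} (hab : a ≠ b) {x y : ι → F} (hx : ∀ r, r ≠ a → r ≠ b → x r = 0) :
    f x y = x a * σ (y a) + x b * σ (y b) := by
  rw [hs.form, Fintype.sum_eq_add a b hab]
  intro r hr
  rw [hx r hr.1 hr.2, zero_mul]

/-- From a centre with a zero coordinate to a centre with support exactly two. -/
theorem exists_two_support (hs : Std σ f) (Q : QF σ q) (hH : Over f H) {c : ι → F} (hc : c ∈ cen hs.uf H)
    (hc0 : c ≠ 0) {i : ι} (hi : c i = 0) : ∃ d ∈ cen hs.uf H, ∃ a b, a ≠ b ∧ d a ≠ 0 ∧ d b ≠ 0 ∧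
      ∀ r, r ≠ a → r ≠ b → d r = 0 := by
  classical
  have hf := hs.uf
  obtain ⟨a, ha⟩ : ∃ a, c a ≠ 0 := by
    by_contra hcon
    push Not at hcon
    exact hc0 (funext hcon)
  have hN : ∑ j, c j * σ (c j) = 0 := by
    rw [← hs.form]
    exact cen_iso hc
  obtain ⟨b, hba, hb⟩ : ∃ b, b ≠ a ∧ c b ≠ 0 := by
    by_contra hcon
    push Not at hcon
    rw [Finset.sum_eq_single a (fun r _ hr => by rw [hcon r hr, zero_mul]) (by simp)] at hN
    exact norm_ne_zero ha hN
  obtain ⟨μ, ν, hμ, hν, hF, hT⟩ := exists_pair_F Q (c a * σ (c a)) (c b * σ (c b)) (norm_fix Q _) (norm_fix Q _)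
    (norm_ne_zero ha) (norm_ne_zero hb)
  let θ : ι → U1 σ := fun j => if j = a then μ else if j = b then ν else oneU σ
  have hθa : θ a = μ := by simp [θ]
  have hθb : θ b = ν := by simp [θ, hba]
  have hθo : ∀ r, r ≠ a → r ≠ b → θ r = oneU σ := fun r h1 h2 => by simp [θ, h1, h2]
  have hc' := cen_phase hs Q hH hc hi θ
  have hFF : f c (fun j => (θ j).1 * c j) = (σ μ.1 - 1) * (c a * σ (c a)) + (σ ν.1 - 1) * (c b * σ (c b)) := by
    rw [hs.form]
    have : ∑ j, c j * σ ((θ j).1 * c j) = ∑ j, (σ (θ j).1 - 1) * (c j * σ (c j)) + ∑ j, c j * σ (c j) := by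
      rw [← Finset.sum_add_distrib]
      refine Finset.sum_congr rfl fun j _ => ?_
      rw [map_mul]
      ring
    rw [this, hN, add_zero, Fintype.sum_eq_add a b (Ne.symm hba)]
    · rw [hθa, hθb]
    · intro r hr
      rw [hθo r hr.1 hr.2]
      simp
  have hd := cen_sub hf hc hc' (by rw [hFF]; exact hF) (by rw [hFF]; exact hT)
  refine ⟨_, hd, a, b, Ne.symm hba, ?_, ?_, ?_⟩
  · simp only [Pi.sub_apply, hθa]
    have : c a - μ.1 * c a = (1 - μ.1) * c a := by ring
    rw [this]
    exact mul_ne_zero (sub_ne_zero.mpr (Ne.symm hμ)) ha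
  · simp only [Pi.sub_apply, hθb]
    have : c b - ν.1 * c b = (1 - ν.1) * c b := by ring
    rw [this]
    exact mul_ne_zero (sub_ne_zero.mpr (Ne.symm hν)) hb
  · intro r h1 h2
    simp only [Pi.sub_apply, hθo r h1 h2, coe_oneU, one_mul, sub_self]

/-- All vectors of support two. -/
theorem cen_two (hs : Std σ f) (Q : QF σ q) (hH : Over f H) (hι : 3 ≤ Fintype.card ι) {d : ι → F}
    (hd : d ∈ cen hs.uf H) {a b : ι} (hab : a ≠ b) (ha : d a ≠ 0) (hb : d b ≠ 0) (ho : ∀ r, r ≠ a → r ≠ b → d r = 0)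
    {a' b' : ι} (hab' : a' ≠ b') {x : ι → F} (hxo : ∀ r, r ≠ a' → r ≠ b' → x r = 0) (hxx : f x x = 0) :
    x ∈ cen hs.uf H := by
  classical
  have hf := hs.uf
  have hzero : ∀ (c : ι → F) (a b : ι), (∀ r, r ≠ a → r ≠ b → c r = 0) → ∃ i, c i = 0 := by
    intro c a b h
    obtain ⟨i, hi⟩ := exists_notMem_finset ({a, b} : Finset ι) (by
      have : ({a, b} : Finset ι).card ≤ 2 := Finset.card_le_two
      omega)
    simp only [Finset.mem_insert, Finset.mem_singleton, not_or] at hi
    exact ⟨i, h i hi.1 hi.2⟩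
  by_cases hx0 : x a' = 0
  · have hxb : x b' = 0 := by
      have h1 := form_two hs hab' (y := x) hxo
      rw [hxx, hx0, zero_mul, zero_add] at h1
      by_contra h
      exact norm_ne_zero h h1.symm
    have hx : x = 0 := by
      funext r
      by_cases h1 : r = a'
      · rw [h1, hx0]
        rfl
      · by_cases h2 : r = b'
        · rw [h2, hxb]
          rfl
        · exact hxo r h1 h2
    rw [hx]
    have := cen_smul hd 0
    rwa [zero_smul] at this
  have hNd := form_two hs hab (y := d) ho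
  rw [cen_iso hd] at hNd
  have hNx := form_two hs hab' (y := x) hxo
  rw [hxx] at hNx
  have hxb : x b' ≠ 0 := by
    intro h
    rw [h, zero_mul, add_zero] at hNx
    exact norm_ne_zero hx0 hNx.symm
  obtain ⟨π, hπ⟩ := exists_perm_of_inj ![a, b] ![a', b'] (by
    intro k k' h
    fin_cases k <;> fin_cases k' <;> simp_all) (by
    intro k k' h
    fin_cases k <;> fin_cases k' <;> simp_all)
  have hπa : π a' = a := hπ 0
  have hπb : π b' = b := hπ 1
  obtain ⟨i, hi⟩ := hzero d a b ho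
  have h1 := cen_perm hs hH hd hi π
  -- the scalar
  obtain ⟨l, hl⟩ := exists_mul_sigma_eq σ hf.ne_refl hf.involutive (x a' * σ (x a') / (d a * σ (d a)))
    (by rw [map_div₀, norm_fix Q, norm_fix Q]) (div_ne_zero (norm_ne_zero hx0) (norm_ne_zero ha))
  have hl0 : l ≠ 0 := by
    rintro rfl
    rw [zero_mul] at hl
    exact div_ne_zero (norm_ne_zero hx0) (norm_ne_zero ha) hl.symm
  have h2 := cen_smul h1 l
  have hoo : ∀ r, r ≠ a' → r ≠ b' → π r ≠ a ∧ π r ≠ b := by
    intro r h3 h4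
    exact ⟨fun h => h3 (π.injective (h.trans hπa.symm)), fun h => h4 (π.injective (h.trans hπb.symm))⟩
  obtain ⟨i', hi'⟩ := hzero (l • d ∘ π) a' b' (by
    intro r h3 h4
    simp only [Pi.smul_apply, Function.comp_apply, smul_eq_mul]
    rw [ho _ (hoo r h3 h4).1 (hoo r h3 h4).2, mul_zero])
  have hl' : l * σ l * (d a * σ (d a)) = x a' * σ (x a') := by
    rw [hl, div_mul_cancel₀ _ (norm_ne_zero ha)]
  have hθa : (x a' / (l * d a)) * σ (x a' / (l * d a)) = 1 :=
    div_norm_one (mul_ne_zero hl0 ha) (by rw [map_mul]; linear_combination hl')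
  have hθb : (x b' / (l * d b)) * σ (x b' / (l * d b)) = 1 :=
    div_norm_one (mul_ne_zero hl0 hb) (by rw [map_mul]; linear_combination -hl' + hNx - (l * σ l) * hNd)
  let θ : ι → U1 σ := fun j => if j = a' then ⟨_, hθa⟩ else if j = b' then ⟨_, hθb⟩ else oneU σ
  have h3 := cen_phase hs Q hH h2 hi' θ
  convert h3 using 1
  funext r
  simp only [Pi.smul_apply, Function.comp_apply, smul_eq_mul]
  by_cases h4 : r = a'
  · subst h4
    simp only [θ, if_true, hπa]
    field_simp
  · by_cases h5 : r = b'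
    · subst h5
      simp only [θ, if_neg h4, if_true, hπb]
      field_simp
    · rw [hxo r h4 h5, ho _ (hoo r h4 h5).1 (hoo r h4 h5).2, mul_zero, mul_zero]

/-- Reachability in the overgroup. -/
def Reach (f : (ι → F) → (ι → F) → F) (H : Subgroup (GL ι F)) (v v' : ι → F) : Prop :=
  ∃ h ∈ H, IsIso f h ∧ (h : Matrix ι ι F) *ᵥ v = v'

theorem Reach.trans {u v w : ι → F} (h1 : Reach f H u v) (h2 : Reach f H v w) : Reach f H u w := by
  obtain ⟨g, hg, hgi, rfl⟩ := h1
  obtain ⟨g', hg', hgi', rfl⟩ := h2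
  refine ⟨g' * g, H.mul_mem hg' hg, hgi'.mul hgi, ?_⟩
  rw [Units.val_mul, ← Matrix.mulVec_mulVec]

theorem Reach.cen (hf : IsUnitaryForm σ f) {v v' : ι → F} (h : Reach f H v v') (hv' : v' ∈ cen hf H) :
    v ∈ cen hf H := by
  obtain ⟨g, hg, hgi, rfl⟩ := h
  have := cen_mulVec hv' (H.inv_mem hg) hgi.inv
  rwa [inv_mulVec_mulVec] at this

theorem Reach.norm {v v' : ι → F} (h : Reach f H v v') : f v' v' = f v v := by
  obtain ⟨g, hg, hgi, rfl⟩ := h
  exact hgi v v

/-- One step of a transvection. -/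
theorem reach_step (hf : IsUnitaryForm σ f) {p v : ι → F} {y z : F} (hp : p ∈ cen hf H) (hy : f v p = y) (hy0 : y ≠ 0)
    (hz : z * σ y + σ z * y = 0) : Reach f H v (v + z • p) := by
  have hsy : σ y ≠ 0 := (map_ne_zero σ).mpr hy0
  have ha : z / y + σ (z / y) = 0 := by
    rw [map_div₀]
    field_simp
    linear_combination hz
  refine ⟨uT hf p (z / y) (cen_iso hp), cen_mem hp _ _ ha, uT_isIso hf p _ _ ha, ?_⟩
  rw [uT_mulVec, hy, smul_smul, mul_div_cancel₀ _ hy0]

theorem exists_x_plane (Q : QF σ q) {y y' τ : F} (hτ : σ τ = τ) (hδ : y * σ y' - σ y * y' ≠ 0) :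
    ∃ X, X * σ y + σ X * y = τ ∧ X * σ y' + σ X * y' = τ := by
  have h1 : σ (y * σ y' - σ y * y') = -(y * σ y' - σ y * y') := by
    simp only [map_sub, map_mul, Q.inv]
    ring
  obtain ⟨δ, hδd⟩ : ∃ δ, δ = y * σ y' - σ y * y' := ⟨_, rfl⟩
  rw [← hδd] at hδ h1
  have hN : -δ ≠ 0 := neg_ne_zero.mpr hδ
  refine ⟨τ * (y - y') / δ, ?_, ?_⟩
  · rw [map_div₀, h1]
    simp only [map_mul, map_sub, hτ]
    field_simp
    rw [hδd]
    ring
  · rw [map_div₀, h1]
    simp only [map_mul, map_sub, hτ]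
    field_simp
    rw [hδd]
    ring

/-- The chain of three transvections in a hyperbolic plane. -/
theorem plane_move (hf : IsUnitaryForm σ f) (Q : QF σ q) {p p' v : ι → F} (hp : p ∈ cen hf H) (hp' : p' ∈ cen hf H)
    (hpp' : f p p' = 1) {x y x' y' : F} (hx : f v p' = x) (hy : f v p = y) (hτ0 : x * σ y + σ x * y ≠ 0)
    (hn : x' * σ y' + σ x' * y' = x * σ y + σ x * y) (hδ : y * σ y' - σ y * y' ≠ 0) :
    Reach f H v (v + (x' - x) • p + (y' - y) • p') := by
  have hpp := cen_iso hp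
  have hp'p' := cen_iso hp'
  have hp'p : f p' p = 1 := by rw [hf.herm, hpp', map_one]
  obtain ⟨τ, hτd⟩ : ∃ τ, τ = x * σ y + σ x * y := ⟨_, rfl⟩
  rw [← hτd] at hτ0 hn
  have hτf : σ τ = τ := by
    rw [hτd]
    simp only [map_add, map_mul, Q.inv]
    ring
  obtain ⟨X, hX1, hX2⟩ := exists_x_plane Q hτf hδ
  have hX0 : X ≠ 0 := by
    rintro rfl
    rw [map_zero] at hX1
    apply hτ0
    rw [← hX1]
    ring
  have hy0 : y ≠ 0 := by
    rintro rfl
    rw [map_zero] at hX1
    apply hτ0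
    rw [← hX1]
    ring
  have hy'0 : y' ≠ 0 := by
    rintro rfl
    rw [map_zero] at hX2
    apply hτ0
    rw [← hX2]
    ring
  have h1 := reach_step hf (v := v) (z := X - x) hp hy hy0 (by
    rw [map_sub]
    linear_combination hX1 + hτd)
  have hy1 : f (v + (X - x) • p) p = y := by
    rw [hf.add_left, hf.smul_left, hpp, hy, mul_zero, add_zero]
  have hx1 : f (v + (X - x) • p) p' = X := by
    rw [hf.add_left, hf.smul_left, hpp', hx]
    ring
  have h2 := reach_step hf (v := v + (X - x) • p) (z := y' - y) hp' hx1 hX0 (by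
    rw [map_sub]
    linear_combination hX2 - hX1)
  have hy2 : f (v + (X - x) • p + (y' - y) • p') p = y' := by
    rw [hf.add_left, hf.smul_left, hp'p, hy1]
    ring
  have h3 := reach_step hf (v := v + (X - x) • p + (y' - y) • p') (z := x' - X) hp hy2 hy'0 (by
    rw [map_sub]
    linear_combination hn - hX2)
  have h4 := (h1.trans h2).trans h3
  convert h4 using 1
  funext r
  simp only [Pi.add_apply, Pi.smul_apply, smul_eq_mul]
  ring

theorem form_pair (hs : Std σ f) (v : ι → F) (a b : ι) (A B : F) :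
    f v (A • Pi.single a 1 + B • Pi.single b 1) = σ A * v a + σ B * v b := by
  rw [UForm.add_right hs.uf, UForm.smul_right hs.uf, UForm.smul_right hs.uf, form_single_right hs, form_single_right hs]

theorem pair_left {a b : ι} (hab : a ≠ b) (A B : F) : (A • Pi.single a 1 + B • Pi.single b 1 : ι → F) a = A := by
  simp [Pi.single_apply, hab]

theorem pair_right {a b : ι} (hab : a ≠ b) (A B : F) : (A • Pi.single a 1 + B • Pi.single b 1 : ι → F) b = B := by
  simp [Pi.single_apply, Ne.symm hab]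

theorem pair_other {a b r : ι} (h1 : r ≠ a) (h2 : r ≠ b) (A B : F) :
    (A • Pi.single a 1 + B • Pi.single b 1 : ι → F) r = 0 := by
  simp [Pi.single_apply, h1, h2]

/-- Killing a coordinate in a hyperbolic plane, given a frame of the plane. -/
theorem plane_norm (Q : QF σ q) {A B A' B' : F}
    (Ia : A * σ A' + A' * σ A = 1) (Ib : A * σ B' + A' * σ B = 0) (Ic : B * σ A' + B' * σ A = 0)
    (Id : B * σ B' + B' * σ B = 1) (u w : F) :
    (σ A' * u + σ B' * w) * σ (σ A * u + σ B * w) + σ (σ A' * u + σ B' * w) * (σ A * u + σ B * w) =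
      u * σ u + w * σ w := by
  simp only [map_add, map_mul, Q.inv]
  linear_combination (u * σ u) * Ia + (w * σ w) * Id + (u * σ w) * Ic + (w * σ u) * Ib

theorem plane_kill_core (hs : Std σ f) (Q : QF σ q) {a b : ι} (hab : a ≠ b) {A B A' B' : F}
    (hp : (A • Pi.single a 1 + B • Pi.single b 1 : ι → F) ∈ cen hs.uf H)
    (hp' : (A' • Pi.single a 1 + B' • Pi.single b 1 : ι → F) ∈ cen hs.uf H)
    (Ia : A * σ A' + A' * σ A = 1) (Ib : A * σ B' + A' * σ B = 0) (Ic : B * σ A' + B' * σ A = 0)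
    (Id : B * σ B' + B' * σ B = 1) (H1 : A * σ A' + B * σ B' = 1) {v : ι → F} {γ : F}
    (hγ : γ * σ γ = v a * σ (v a) + v b * σ (v b)) (hτ : v a * σ (v a) + v b * σ (v b) ≠ 0)
    (hδ : (σ A * v a + σ B * v b) * σ (σ B * γ) - σ (σ A * v a + σ B * v b) * (σ B * γ) ≠ 0) :
    ∃ v', Reach f H v v' ∧ v' a = 0 ∧ v' b = γ ∧ ∀ r, r ≠ a → r ≠ b → v' r = v r := by
  have hf := hs.uf
  have hN := plane_norm Q Ia Ib Ic Id (v a) (v b)
  have hr := plane_move hf Q (x' := σ B' * γ) (y' := σ B * γ) hp hp' (by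
    rw [form_pair hs, pair_left hab, pair_right hab]
    linear_combination H1) (form_pair hs v a b A' B') (form_pair hs v a b A B) (by rw [hN]; exact hτ) (by
    rw [hN]
    simp only [map_add, map_mul, Q.inv]
    linear_combination hγ + (γ * σ γ) * Id) hδ
  refine ⟨_, hr, ?_, ?_, ?_⟩
  · simp only [Pi.add_apply, Pi.smul_apply, smul_eq_mul, pair_left hab]
    linear_combination (γ - v b) * Ib - v a * Ia
  · simp only [Pi.add_apply, Pi.smul_apply, smul_eq_mul, pair_right hab]
    linear_combination (γ - v b) * Id - v a * Ic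
  · intro r h1 h2
    simp only [Pi.add_apply, Pi.smul_apply, smul_eq_mul, pair_other h1 h2]
    ring

/-- Killing a coordinate in a hyperbolic plane. -/
theorem plane_kill (hs : Std σ f) (Q : QF σ q)
    (H2 : ∀ (a b : ι) (x : ι → F), a ≠ b → (∀ r, r ≠ a → r ≠ b → x r = 0) → f x x = 0 → x ∈ cen hs.uf H)
    {a b : ι} (hab : a ≠ b) {v : ι → F} (hτ : v a * σ (v a) + v b * σ (v b) ≠ 0) :
    ∃ v', Reach f H v v' ∧ v' a = 0 ∧ v' b ≠ 0 ∧ ∀ r, r ≠ a → r ≠ b → v' r = v r := by
  have hf := hs.uf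
  obtain ⟨η, hη⟩ := exists_mul_sigma_eq σ hf.ne_refl hf.involutive (-1) (by rw [map_neg, map_one])
    (neg_ne_zero.mpr one_ne_zero)
  have hη0 : η ≠ 0 := by
    rintro rfl
    rw [zero_mul] at hη
    exact neg_ne_zero.mpr one_ne_zero hη.symm
  have hsη0 : σ η ≠ 0 := (map_ne_zero σ).mpr hη0
  obtain ⟨ζ, hζ⟩ := exists_U1_notMem Q {1} (by
    have := Q.two_le
    simp
    omega)
  simp only [Finset.mem_singleton] at hζ
  have hζ1 : 1 - ζ.1 ≠ 0 := sub_ne_zero.mpr (Ne.symm hζ)
  obtain ⟨l, hl⟩ : ∃ l, l * (1 - ζ.1) = 1 := ⟨(1 - ζ.1)⁻¹, inv_mul_cancel₀ hζ1⟩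
  have hζ2 : ζ.1 * σ ζ.1 = 1 := ζ.2
  have hsl : σ l * (1 - σ ζ.1) = 1 := by
    have := congrArg σ hl
    simpa using this
  have hu : σ l = - ζ.1 * l := by
    have h1 : ζ.1 - 1 ≠ 0 := sub_ne_zero.mpr hζ
    apply mul_left_cancel₀ h1
    linear_combination ζ.1 * hsl + σ l * hζ2 - ζ.1 * hl
  have Ia : (1 : F) * σ l + l * σ 1 = 1 := by
    rw [map_one, hu]
    linear_combination hl
  have Ib : (1 : F) * σ (l * ζ.1 * η) + l * σ η = 0 := by
    simp only [map_mul, hu]
    linear_combination (-l * σ η) * hζ2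
  have Ic : η * σ l + (l * ζ.1 * η) * σ 1 = 0 := by
    rw [map_one, hu]
    ring
  have Id : η * σ (l * ζ.1 * η) + (l * ζ.1 * η) * σ η = 1 := by
    simp only [map_mul, hu]
    linear_combination (-l * η * σ η) * hζ2 + (l * ζ.1 - l) * hη + hl
  have H1 : (1 : F) * σ l + η * σ (l * ζ.1 * η) = 1 := by
    simp only [map_mul, hu]
    linear_combination (-l * η * σ η) * hζ2 - l * hη + hl
  have hP : ∀ A B : F, A * σ A + B * σ B = 0 → (A • Pi.single a 1 + B • Pi.single b 1 : ι → F) ∈ cen hs.uf H := by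
    intro A B h
    refine H2 a b (A • Pi.single a 1 + B • Pi.single b 1) hab (fun r h1 h2 => pair_other h1 h2 _ _) ?_
    rw [form_pair hs, pair_left hab, pair_right hab]
    linear_combination h
  have hp := hP 1 η (by rw [map_one, hη]; ring)
  have hp' := hP l (l * ζ.1 * η) (by
    simp only [map_mul]
    linear_combination (l * σ l * η * σ η) * hζ2 + (l * σ l) * hη)
  have hN := plane_norm Q Ia Ib Ic Id (v a) (v b)
  have hy0 : σ 1 * v a + σ η * v b ≠ 0 := by
    intro h
    simp only [h, map_zero, mul_zero, add_zero] at hN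
    exact hτ hN.symm
  have hsfix : σ (v a * σ (v a) + v b * σ (v b)) = v a * σ (v a) + v b * σ (v b) := by
    rw [map_add, norm_fix Q, norm_fix Q]
  obtain ⟨γ₀, hγ₀⟩ := exists_mul_sigma_eq σ hf.ne_refl hf.involutive _ hsfix hτ
  have hγ0 : γ₀ ≠ 0 := by
    rintro rfl
    rw [zero_mul] at hγ₀
    exact hτ hγ₀.symm
  have hsγ0 : σ γ₀ ≠ 0 := (map_ne_zero σ).mpr hγ0
  have hex : ∀ y : F, y ≠ 0 → ∃ μ : U1 σ, y * σ (σ η * (μ.1 * γ₀)) - σ y * (σ η * (μ.1 * γ₀)) ≠ 0 := by
    intro y hy0
    by_contra hcon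
    push Not at hcon
    obtain ⟨l₂, hl₂⟩ := exists_sq_ne Q
    have h1 := hcon (oneU σ)
    have h2 := hcon l₂
    simp only [coe_oneU, map_mul, Q.inv, map_one, one_mul] at h1
    simp only [map_mul, Q.inv] at h2
    have hne : σ l₂.1 - l₂.1 ≠ 0 := by
      intro h
      apply hl₂
      have := l₂.2
      rw [sub_eq_zero.mp h] at this
      rw [sq]
      exact this
    have h3 : (σ l₂.1 - l₂.1) * (y * (η * σ γ₀)) = 0 := by
      linear_combination h2 - l₂.1 * h1
    rcases mul_eq_zero.mp h3 with h | h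
    · exact hne h
    · exact mul_ne_zero hy0 (mul_ne_zero hη0 hsγ0) h
  obtain ⟨μ, hμ⟩ := hex _ hy0
  obtain ⟨v', h1, h2, h3, h4⟩ := plane_kill_core hs Q hab hp hp' Ia Ib Ic Id H1 (v := v) (γ := μ.1 * γ₀) (by
    rw [map_mul, ← hγ₀]
    have := μ.2
    linear_combination (γ₀ * σ γ₀) * this) hτ hμ
  exact ⟨v', h1, h2, by rw [h3]; exact mul_ne_zero (Field.ne_zero μ) hγ0, h4⟩

/-- A trace zero element avoiding a small set. -/
theorem exists_ker_notMem (Q : QF σ q) (S : Finset F) (hS : S.card < q) : ∃ a : F, a + σ a = 0 ∧ a ∉ S := by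
  classical
  by_contra hcon
  push Not at hcon
  have h1 : (Finset.univ.filter fun x : F => x + σ x = 0) ⊆ S := by
    intro x hx
    rw [Finset.mem_filter] at hx
    exact hcon x hx.2
  have h2 := Finset.card_le_card h1
  have h3 : (Finset.univ.filter fun x : F => x + σ x = 0).card = q := by
    have := Q.ker
    rw [Nat.card_eq_fintype_card, Fintype.card_subtype] at this
    exact this
  omega

/-- In characteristic two, a transvection changes the norm of a coordinate when `q ≥ 3`. -/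
theorem change_norm (hs : Std σ f) (Q : QF σ q) (hq : 3 ≤ q) (h2 : (2 : F) = 0)
    (H2 : ∀ (a b : ι) (x : ι → F), a ≠ b → (∀ r, r ≠ a → r ≠ b → x r = 0) → f x x = 0 → x ∈ cen hs.uf H)
    {a b : ι} (hab : a ≠ b) {v : ι → F} (hb : v b ≠ 0) :
    ∃ v', Reach f H v v' ∧ v' a * σ (v' a) ≠ v a * σ (v a) ∧ ∀ r, r ≠ a → r ≠ b → v' r = v r := by
  classical
  have hf := hs.uf
  obtain ⟨μ, hμ⟩ := exists_U1_notMem Q {- v a / v b} (by
    have := Q.two_le
    simp
    omega)
  simp only [Finset.mem_singleton] at hμ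
  have hG : v a + μ.1 * v b ≠ 0 := by
    intro h
    apply hμ
    field_simp
    linear_combination h
  obtain ⟨G, hGd⟩ : ∃ G, G = v a + μ.1 * v b := ⟨_, rfl⟩
  rw [← hGd] at hG
  have hsG : σ G ≠ 0 := (map_ne_zero σ).mpr hG
  have hN : (1 : F) * σ 1 + (σ μ.1) * σ (σ μ.1) = 0 := by
    rw [Q.inv, map_one, mul_comm (σ μ.1), μ.2]
    linear_combination h2
  have hp : ((1 : F) • Pi.single a 1 + (σ μ.1) • Pi.single b 1 : ι → F) ∈ cen hs.uf H := by
    refine H2 a b _ hab (fun r h1 h2 => pair_other h1 h2 _ _) ?_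
    rw [form_pair hs, pair_left hab, pair_right hab]
    linear_combination hN
  have hy : f v ((1 : F) • Pi.single a 1 + (σ μ.1) • Pi.single b 1) = G := by
    rw [form_pair hs, Q.inv, map_one, hGd]
    ring
  obtain ⟨E, hE⟩ : ∃ E, E = G * σ (v a) + σ G * v a := ⟨_, rfl⟩
  obtain ⟨t, ht0, ht⟩ : ∃ t : F, t + σ t = 0 ∧ t ≠ 0 ∧ t * (G * σ G) ≠ - E := by
    obtain ⟨t, ht, hm⟩ := exists_ker_notMem Q {0, - E / (G * σ G)} (by
      have : ({0, - E / (G * σ G)} : Finset F).card ≤ 2 := Finset.card_le_two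
      omega)
    simp only [Finset.mem_insert, Finset.mem_singleton, not_or] at hm
    refine ⟨t, ht, hm.1, fun h => hm.2 ?_⟩
    field_simp
    linear_combination h
  have hst : σ t = t := by linear_combination ht0 - t * h2
  have hr := reach_step hf (v := v) (z := G * t) hp hy hG (by
    rw [map_mul]
    linear_combination (G * σ G) * ht0)
  refine ⟨_, hr, ?_, ?_⟩
  · simp only [Pi.add_apply, Pi.smul_apply, smul_eq_mul, pair_left hab, mul_one, map_add, map_mul, hst]
    intro h
    have h3 : t * (E + t * (G * σ G)) = 0 := by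
      rw [hE]
      linear_combination h
    rcases mul_eq_zero.mp h3 with h4 | h4
    · exact ht.1 h4
    · apply ht.2
      linear_combination h4
  · intro r h1 h3
    simp only [Pi.add_apply, Pi.smul_apply, smul_eq_mul, pair_other h1 h3]
    ring

open Classical in
/-- The support of a vector. -/
noncomputable def sup (v : ι → F) : Finset ι := Finset.univ.filter fun r => v r ≠ 0

theorem mem_sup {v : ι → F} {r : ι} : r ∈ sup v ↔ v r ≠ 0 := by
  simp [sup]

/-- Vectors of support at most two. -/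
theorem cen_small (hι : 2 ≤ Fintype.card ι) (hf : IsUnitaryForm σ f)
    (H2 : ∀ (a b : ι) (x : ι → F), a ≠ b → (∀ r, r ≠ a → r ≠ b → x r = 0) → f x x = 0 → x ∈ cen hf H)
    {v : ι → F} (hv : f v v = 0) (hc : (sup v).card ≤ 2) : v ∈ cen hf H := by
  obtain ⟨t, ht, htc⟩ := Finset.exists_superset_card_eq hc hι
  obtain ⟨a, b, hab, rfl⟩ := Finset.card_eq_two.mp htc
  refine H2 a b v hab (fun r h1 h2 => ?_) hv
  by_contra h
  have := ht (mem_sup.mpr h)
  simp only [Finset.mem_insert, Finset.mem_singleton] at this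
  rcases this with h3 | h3
  · exact h1 h3
  · exact h2 h3

/-- All isotropic vectors, once those of support two are centres, for `q ≥ 3`. -/
theorem forall_cen_of_two (hs : Std σ f) (Q : QF σ q) (hq : 3 ≤ q) (hι : 2 ≤ Fintype.card ι)
    (H2 : ∀ (a b : ι) (x : ι → F), a ≠ b → (∀ r, r ≠ a → r ≠ b → x r = 0) → f x x = 0 → x ∈ cen hs.uf H) :
    ∀ (n : ℕ) (v : ι → F), f v v = 0 → (sup v).card ≤ n → v ∈ cen hs.uf H := by
  have hf := hs.uf
  intro n
  induction n with
  | zero =>
    intro v hv hc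
    exact cen_small hι hf H2 hv (by omega)
  | succ n ih =>
    intro v hv hc
    by_cases hc1 : (sup v).card ≤ n
    · exact ih v hv hc1
    by_cases hc2 : (sup v).card ≤ 2
    · exact cen_small hι hf H2 hv hc2
    have hcard : (sup v).card = n + 1 := by omega
    have hkill : ∀ w : ι → F, f w w = 0 → sup w ⊆ sup v → ∀ a b, a ≠ b → a ∈ sup v → b ∈ sup v →
        w a * σ (w a) + w b * σ (w b) ≠ 0 → w ∈ cen hf H := by
      intro w hw hsub a b hab ha hb hne
      obtain ⟨w', h1, h2, h3, h4⟩ := plane_kill hs Q H2 hab hne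
      apply h1.cen hf
      apply ih w' (by rw [h1.norm, hw])
      have hsub' : sup w' ⊆ (sup v).erase a := by
        intro r hr
        rw [mem_sup] at hr
        rw [Finset.mem_erase]
        have hra : r ≠ a := by
          rintro rfl
          exact hr h2
        refine ⟨hra, ?_⟩
        by_cases hrb : r = b
        · rw [hrb]
          exact hb
        · rw [h4 r hra hrb] at hr
          exact hsub (mem_sup.mpr hr)
      have := Finset.card_le_card hsub'
      rw [Finset.card_erase_of_mem ha, hcard] at this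
      omega
    by_cases hex : ∃ a b, a ≠ b ∧ a ∈ sup v ∧ b ∈ sup v ∧ v a * σ (v a) + v b * σ (v b) ≠ 0
    · obtain ⟨a, b, hab, ha, hb, hne⟩ := hex
      exact hkill v hv (Finset.Subset.refl _) a b hab ha hb hne
    · push Not at hex
      obtain ⟨a, b, c, ha, hb, hc', hab, hac, hbc⟩ := Finset.two_lt_card_iff.mp (show 2 < (sup v).card by omega)
      have e1 := hex a b hab ha hb
      have e2 := hex a c hac ha hc'
      have e3 := hex b c hbc hb hc'
      have hna := norm_ne_zero (σ := σ) (mem_sup.mp ha)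
      have h2 : (2 : F) = 0 := by
        have : 2 * (v a * σ (v a)) = 0 := by linear_combination e1 + e2 - e3
        exact (mul_eq_zero.mp this).resolve_right hna
      obtain ⟨v₁, h1, h3, h4⟩ := change_norm hs Q hq h2 H2 hab (mem_sup.mp hb)
      apply h1.cen hf
      apply hkill v₁ (by rw [h1.norm, hv]) _ a c hac ha hc'
      · rw [h4 c (Ne.symm hac) (Ne.symm hbc)]
        intro h5
        apply h3
        linear_combination h5 - e2
      · intro r hr
        rw [mem_sup] at hr
        by_cases hra : r = a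
        · rw [hra]
          exact ha
        · by_cases hrb : r = b
          · rw [hrb]
            exact hb
          · rw [h4 r hra hrb] at hr
            exact mem_sup.mpr hr

/-- From one centre with a zero coordinate to all isotropic vectors, for `q ≥ 3`. -/
theorem all_cen_of_centre (hs : Std σ f) (Q : QF σ q) (hH : Over f H) (hq : 3 ≤ q) (hι : 3 ≤ Fintype.card ι)
    {c : ι → F} (hc : c ∈ cen hs.uf H) (hc0 : c ≠ 0) {i : ι} (hi : c i = 0) :
    ∀ v : ι → F, f v v = 0 → v ∈ cen hs.uf H := by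
  obtain ⟨d, hd, a, b, hab, ha, hb, ho⟩ := exists_two_support hs Q hH hc hc0 hi
  intro v hv
  exact forall_cen_of_two hs Q hq (by omega)
    (fun a' b' x h1 h2 h3 => cen_two hs Q hH hι hd hab ha hb ho h1 h2 h3) _ v hv (Finset.card_le_univ _)

/-- The transvection with a centre having a zero coordinate and three non-zero coordinates. -/
theorem uT_not_mono (hf : IsUnitaryForm σ f) (hs : Std σ f) {c : ι → F} (hc : f c c = 0) (hS : Supp3 c) :
    ¬ IsMono ((uT hf c 1 hc : GL ι F) : Matrix ι ι F) := by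
  obtain ⟨r₁, r₂, r₃, h12, h13, h23, h1, h2, h3⟩ := hS
  intro hm
  obtain ⟨b, hb⟩ := hm r₁
  have hent : ∀ i, ((uT hf c 1 hc : GL ι F) : Matrix ι ι F) i r₁ = (Pi.single r₁ 1 : ι → F) i + σ (c r₁) * c i := by
    intro i
    have := congrFun (uT_mulVec hf c 1 hc (Pi.single r₁ 1)) i
    rw [mulVec_single_eq_col, form_single_left hs] at this
    simpa [col] using this
  have hs1 : σ (c r₁) ≠ 0 := (map_ne_zero σ).mpr h1
  by_cases hr : r₂ = b
  · have := hb r₃ (by rw [← hr]; exact Ne.symm h23)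
    rw [hent, Pi.single_eq_of_ne (Ne.symm h13), zero_add] at this
    exact mul_ne_zero hs1 h3 this
  · have := hb r₂ hr
    rw [hent, Pi.single_eq_of_ne (Ne.symm h12), zero_add] at this
    exact mul_ne_zero hs1 h2 this

/-- The transvection fixes a coordinate vector when the centre vanishes there. -/
theorem uT_singCol (hf : IsUnitaryForm σ f) (hs : Std σ f) {c : ι → F} (hc : f c c = 0) {r : ι} (hr : c r = 0) :
    SingCol ((uT hf c 1 hc : GL ι F) : Matrix ι ι F) r := by
  refine ⟨r, fun i hi => ?_⟩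
  have := congrFun (uT_mulVec hf c 1 hc (Pi.single r 1)) i
  rw [mulVec_single_eq_col, form_single_left hs, hr, map_zero, zero_smul, add_zero, Pi.single_eq_of_ne hi] at this
  exact this

/-- **The main theorem for `q ≥ 3`.** -/
theorem main_large (hs : Std σ f) (Q : QF σ q) (hH : Over f H) (hq : 3 ≤ q) (hι : 13 ≤ Fintype.card ι)
    {g : GL ι F} (hgH : g ∈ H) (hng : ¬ IsMono (g : Matrix ι ι F)) :
    ∀ v : ι → F, f v v = 0 → v ∈ cen hs.uf H := by
  obtain ⟨z, hzH, hnz, a, ha⟩ : ∃ z ∈ H, ¬ IsMono (z : Matrix ι ι F) ∧ ∃ a, SingCol (z : Matrix ι ι F) a := by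
    by_cases h2 : (2 : F) = 0
    · obtain ⟨c, hc, hm, hS, r, hr⟩ := exists_centre_even h2 hs Q hH hι hgH hng
      exact ⟨_, hm, uT_not_mono hs.uf hs hc hS, r, uT_singCol hs.uf hs hc hr⟩
    · exact exists_coord_odd hs Q hH h2 hι hgH hng
  obtain ⟨i, x, hx, r₁, r₂, hr, h1, h2⟩ := exists_InR_two hs Q hH hzH hnz ha
  obtain ⟨y, hy, s, hs', hsy⟩ := exists_four hs Q hH hι hx r₁ r₂ hr h1 h2
  obtain ⟨c, hc, hc0, hi⟩ := exists_cen_of_four hs Q hH hy s hs' hsy
  exact all_cen_of_centre hs Q hH hq (by omega) hc hc0 hi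

end Cfsg.Agent.Lib.SUMon.Game
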