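/-
The game on centres over the field with four elements.
-/
import Cfsg.Agent.Lib.SUMon.Game
set_option autoImplicit false

namespace Cfsg.Agent.Lib.SUMon.GameTwo

open Cfsg Cfsg.Geo Cfsg.Agent.Lib.Geo.Basic Cfsg.Agent.Lib.Geo.Centres Cfsg.Agent.Lib.Geo.Parabolic
open Cfsg.Agent.Lib.Geo.Polar Cfsg.Agent.Lib.Geo.UnitaryInSL Cfsg.Agent.Lib.Geo.QForm
open Cfsg.Agent.Lib.Geo.SUGen Cfsg.Agent.Lib.Geo.SUBase
open Cfsg.Agent.Lib.SLC2.Mono Cfsg.Agent.Lib.SLC2.MonoA
open Cfsg.Agent.Lib.SUMon.Field Cfsg.Agent.Lib.SUMon.Base Cfsg.Agent.Lib.SUMon.Sums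
open Cfsg.Agent.Lib.SUMon.Zero Cfsg.Agent.Lib.SUMon.Coord Cfsg.Agent.Lib.SUMon.Even Cfsg.Agent.Lib.SUMon.Rf
open Cfsg.Agent.Lib.SUMon.Game
open scoped MatrixGroups Matrix

variable {ι : Type} [Fintype ι] [DecidableEq ι] {F : Type*} [Field F] [Fintype F]
variable {σ : F ≃+* F} {f : (ι → F) → (ι → F) → F} {H : Subgroup (GL ι F)}

theorem fixed_two (Q : QF σ 2) {x : F} (h : σ x = x) : x = 0 ∨ x = 1 := by
  classical
  by_contra hcon
  push Not at hcon
  have h1 : ({0, 1, x} : Finset F) ⊆ Finset.univ.filter fun y : F => σ y = y := by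
    intro y hy
    simp only [Finset.mem_insert, Finset.mem_singleton] at hy
    rw [Finset.mem_filter]
    refine ⟨Finset.mem_univ _, ?_⟩
    rcases hy with rfl | rfl | rfl
    · exact map_zero σ
    · exact map_one σ
    · exact h
  have h2 := Finset.card_le_card h1
  have h3 : (Finset.univ.filter fun y : F => σ y = y).card = 2 := by
    have := Q.fix
    rw [Nat.card_eq_fintype_card, Fintype.card_subtype] at this
    exact this
  have h4 : ({0, 1, x} : Finset F).card = 3 := by
    rw [Finset.card_insert_of_notMem, Finset.card_insert_of_notMem, Finset.card_singleton]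
    · simpa using Ne.symm hcon.2
    · simp [Ne.symm hcon.1]
  omega

theorem two_zero (Q : QF σ 2) : (2 : F) = 0 := by
  rcases fixed_two Q (x := 2) (map_ofNat σ 2) with h | h
  · exact h
  · exfalso
    have : (1 : F) = 0 := by linear_combination h
    exact one_ne_zero this

theorem norm_one (Q : QF σ 2) {x : F} (hx : x ≠ 0) : x * σ x = 1 :=
  (fixed_two Q (norm_fix Q x)).resolve_left (norm_ne_zero hx)

theorem trace_two (Q : QF σ 2) {a : F} (ha : a + σ a = 0) : a = 0 ∨ a = 1 :=
  fixed_two Q (by linear_combination ha - a * two_zero Q)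

/-- The non-trivial element of the norm one group. -/
theorem exists_omega (Q : QF σ 2) : ∃ ω : U1 σ, ω.1 ≠ 1 ∧ ω.1 + σ ω.1 = 1 := by
  have h20 := two_zero Q
  obtain ⟨ω, hω⟩ := exists_U1_notMem Q {1} (by simp)
  simp only [Finset.mem_singleton] at hω
  refine ⟨ω, hω, ?_⟩
  rcases fixed_two Q (x := ω.1 + σ ω.1) (by rw [map_add, Q.inv, add_comm]) with h | h
  · exfalso
    apply hω
    have h1 := ω.2
    have h2 : σ ω.1 = ω.1 := by linear_combination h - ω.1 * h20
    rw [h2] at h1
    have h3 : (ω.1 - 1) * (ω.1 - 1) = 0 := by linear_combination h1 + (-ω.1 + 1) * h20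
    have h4 := mul_self_eq_zero.mp h3
    exact sub_eq_zero.mp h4
  · exact h

/-- Transvections of a centre from the transvection with parameter `1`. -/
theorem cen_of_uT_one (hf : IsUnitaryForm σ f) (Q : QF σ 2) {c : ι → F} (hc : f c c = 0) (hm : uT hf c 1 hc ∈ H) :
    c ∈ cen hf H := by
  refine ⟨hc, fun a ha => ?_⟩
  rcases trace_two Q ha with rfl | rfl
  · have : uT hf c 0 hc = 1 := by
      apply gl_ext_mulVec
      intro x
      rw [uT_mulVec, zero_smul, smul_zero, add_zero, Units.val_one, Matrix.one_mulVec]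
    rw [this]
    exact H.one_mem
  · exact hm

/-- A family of four elements in the support. -/
theorem exists_four_of_card (v : ι → F) (h : 4 ≤ (sup v).card) :
    ∃ s : Fin 4 → ι, Function.Injective s ∧ ∀ k, v (s k) ≠ 0 := by
  have hc' : Fintype.card (Fin 4) ≤ Fintype.card ↥(sup v) := by
    rw [Fintype.card_fin, Fintype.card_coe]
    exact h
  obtain ⟨e⟩ := Function.Embedding.nonempty_of_card_le hc'
  refine ⟨fun k => (e k).1, fun k k' h => e.injective (Subtype.ext h), fun k => ?_⟩
  exact mem_sup.mp (e k).2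

theorem form_self_two (hs : Std σ f) (Q : QF σ 2) (v : ι → F) : f v v = ((sup v).card : F) := by
  rw [hs.form, ← Finset.sum_subset (Finset.subset_univ (sup v))]
  · rw [Finset.sum_congr rfl fun r hr => norm_one Q (mem_sup.mp hr)]
    simp
  · intro r _ hr
    have : v r = 0 := by
      by_contra h
      exact hr (mem_sup.mpr h)
    rw [this, zero_mul]

/-- From a centre with four non-zero coordinates to one with support exactly four. -/
theorem exists_four_support (hs : Std σ f) (Q : QF σ 2) (hH : Over f H) {c : ι → F} (hc : c ∈ cen hs.uf H) {i : ι}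
    (hi : c i = 0) (s : Fin 4 → ι) (hs' : Function.Injective s) (hsc : ∀ k, c (s k) ≠ 0) :
    ∃ d ∈ cen hs.uf H, (∀ k, d (s k) ≠ 0) ∧ ∀ r, r ∉ Set.range s → d r = 0 := by
  classical
  have hf := hs.uf
  have h20 := two_zero Q
  obtain ⟨ω, hω, hωt⟩ := exists_omega Q
  obtain ⟨θ, hθ⟩ : ∃ θ : ι → U1 σ, θ = Function.extend s ![ω, ω, ω, conjU Q ω] (fun _ => oneU σ) := ⟨_, rfl⟩
  have hθs : ∀ k, θ (s k) = ![ω, ω, ω, conjU Q ω] k := fun k => by rw [hθ, hs'.extend_apply]
  have hθo : ∀ j, j ∉ Set.range s → θ j = oneU σ := fun j hj => by rw [hθ, Function.extend_apply' _ _ _ hj]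
  have hc' := cen_phase hs Q hH hc hi θ
  have hN : ∑ j, c j * σ (c j) = 0 := by
    rw [← hs.form]
    exact cen_iso hc
  have hF : f c (fun j => (θ j).1 * c j) = 1 := by
    rw [hs.form]
    have h1 : ∑ j, c j * σ ((θ j).1 * c j) = ∑ j, (σ (θ j).1 - 1) * (c j * σ (c j)) + ∑ j, c j * σ (c j) := by
      rw [← Finset.sum_add_distrib]
      refine Finset.sum_congr rfl fun j _ => ?_
      rw [map_mul]
      ring
    rw [h1, hN, add_zero, ← Fintype.sum_of_injective s hs' (fun k => (σ (θ (s k)).1 - 1) * (c (s k) * σ (c (s k)))) _ (by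
      intro j hj
      rw [hθo j hj]
      simp) (fun _ => rfl)]
    rw [Fin.sum_univ_four, hθs, hθs, hθs, hθs]
    simp only [norm_one Q (hsc _), Matrix.cons_val, coe_conjU, Q.inv]
    linear_combination hωt + (σ ω.1 - 2) * h20
  have hd := cen_sub hf hc hc' (by rw [hF]; exact one_ne_zero) (by rw [hF, map_one]; linear_combination h20)
  refine ⟨_, hd, fun k => ?_, fun r hr => ?_⟩
  · simp only [Pi.sub_apply]
    have h1 : c (s k) - (θ (s k)).1 * c (s k) = (1 - (θ (s k)).1) * c (s k) := by ring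
    rw [h1]
    refine mul_ne_zero (sub_ne_zero.mpr ?_) (hsc k)
    rw [hθs]
    intro h
    have hsω : σ ω.1 ≠ 1 := by
      intro h2
      apply hω
      have := congrArg σ h2
      rwa [Q.inv, map_one] at this
    fin_cases k <;> simp at h
    · exact hω h.symm
    · exact hω h.symm
    · exact hω h.symm
    · exact hsω h.symm
  · simp only [Pi.sub_apply, hθo r hr, coe_oneU, one_mul, sub_self]

/-- All vectors with a given support of size four are centres. -/
theorem cen_four (hs : Std σ f) (Q : QF σ 2) (hH : Over f H) (hι : 5 ≤ Fintype.card ι) {d : ι → F}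
    (hd : d ∈ cen hs.uf H) (s : Fin 4 → ι) (hs' : Function.Injective s) (hsd : ∀ k, d (s k) ≠ 0)
    (hod : ∀ r, r ∉ Set.range s → d r = 0) (s₁ : Fin 4 → ι) (hs₁ : Function.Injective s₁) {x : ι → F}
    (hsx : ∀ k, x (s₁ k) ≠ 0) (hox : ∀ r, r ∉ Set.range s₁ → x r = 0) : x ∈ cen hs.uf H := by
  classical
  obtain ⟨π, hπ⟩ := exists_perm_of_inj s s₁ hs' hs₁
  have hzero : ∀ (s : Fin 4 → ι), ∃ i, i ∉ Set.range s := by
    intro s
    by_contra hcon
    push Not at hcon
    have hsur : Function.Surjective s := fun i => hcon i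
    have := Fintype.card_le_of_surjective s hsur
    simp at this
    omega
  obtain ⟨i, hi⟩ := hzero s
  have h1 := cen_perm hs hH hd (hod i hi) π
  obtain ⟨i', hi'⟩ := hzero s₁
  have hsup : ∀ r, d (π r) = 0 ↔ x r = 0 := by
    intro r
    by_cases hr : r ∈ Set.range s₁
    · obtain ⟨k, rfl⟩ := hr
      rw [hπ]
      exact ⟨fun h => absurd h (hsd k), fun h => absurd h (hsx k)⟩
    · have h2 : π r ∉ Set.range s := by
        rintro ⟨k, hk⟩
        apply hr
        refine ⟨k, π.injective ?_⟩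
        rw [hπ, hk]
      exact ⟨fun _ => hox r hr, fun _ => hod _ h2⟩
  have hθ : ∀ r, x r ≠ 0 → (x r / d (π r)) * σ (x r / d (π r)) = 1 := by
    intro r hr
    have h3 : d (π r) ≠ 0 := fun h => hr ((hsup r).mp h)
    exact div_norm_one h3 (by rw [norm_one Q h3, norm_one Q hr])
  let θ : ι → U1 σ := fun r => if h : x r ≠ 0 then ⟨_, hθ r h⟩ else oneU σ
  have h3 := cen_phase hs Q hH h1 (i := i') (by
    rw [Function.comp_apply]
    exact (hsup i').mpr (hox i' hi')) θ
  convert h3 using 1
  funext r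
  simp only [Function.comp_apply]
  by_cases hr : x r = 0
  · rw [hr, (hsup r).mpr hr, mul_zero]
  · have h4 : d (π r) ≠ 0 := fun h => hr ((hsup r).mp h)
    simp only [θ, ne_eq, hr, not_false_eq_true, dif_pos]
    field_simp

/-- All isotropic vectors. -/
theorem forall_cen_two (hs : Std σ f) (Q : QF σ 2) (hι : 5 ≤ Fintype.card ι)
    (H2 : ∀ (a b : ι) (x : ι → F), a ≠ b → (∀ r, r ≠ a → r ≠ b → x r = 0) → f x x = 0 → x ∈ cen hs.uf H)
    (H4 : ∀ (s : Fin 4 → ι) (x : ι → F), Function.Injective s → (∀ k, x (s k) ≠ 0) →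
      (∀ r, r ∉ Set.range s → x r = 0) → x ∈ cen hs.uf H) :
    ∀ (n : ℕ) (v : ι → F), f v v = 0 → (sup v).card ≤ n → v ∈ cen hs.uf H := by
  classical
  have hf := hs.uf
  have h20 := two_zero Q
  intro n
  induction n with
  | zero =>
    intro v hv hc
    exact cen_small (by omega) hf H2 hv (by omega)
  | succ n ih =>
    intro v hv hc
    by_cases hc1 : (sup v).card ≤ n
    · exact ih v hv hc1
    by_cases hc2 : (sup v).card ≤ 2
    · exact cen_small (by omega) hf H2 hv hc2
    have hcard : (sup v).card = n + 1 := by omega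
    have hc3 : (sup v).card ≠ 3 := by
      intro h3
      have := form_self_two hs Q v
      rw [hv, h3] at this
      have h4 : (1 : F) = 0 := by
        push_cast at this
        linear_combination this + 2 * h20
      exact one_ne_zero h4
    obtain ⟨s, hs', hsv⟩ := exists_four_of_card v (by omega)
    obtain ⟨ω, hω, hωt⟩ := exists_omega Q
    obtain ⟨θ, hθ⟩ : ∃ θ : ι → F, θ = Function.extend s (fun k => ![1, 1, ω.1, σ ω.1] k * v (s k)) (fun _ => 0) := ⟨_, rfl⟩
    have hθs : ∀ k, θ (s k) = ![1, 1, ω.1, σ ω.1] k * v (s k) := fun k => by rw [hθ, hs'.extend_apply]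
    have hθo : ∀ j, j ∉ Set.range s → θ j = 0 := fun j hj => by rw [hθ, Function.extend_apply' _ _ _ hj]
    have hsω : σ ω.1 ≠ 1 := by
      intro h2
      apply hω
      have := congrArg σ h2
      rwa [Q.inv, map_one] at this
    have hsω0 : σ ω.1 ≠ 0 := Field.sig_ne_zero ω
    have hω0 : ω.1 ≠ 0 := Field.ne_zero ω
    have hne : ∀ k, θ (s k) ≠ 0 := by
      intro k
      rw [hθs]
      refine mul_ne_zero ?_ (hsv k)
      fin_cases k <;> simp [hsω0, hω0]
    have hcen : θ ∈ cen hf H := H4 s θ hs' hne hθo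
    have hF : f v θ = 1 := by
      rw [hs.form, ← Fintype.sum_of_injective s hs' (fun k => v (s k) * σ (θ (s k))) _ (by
        intro j hj
        rw [hθo j hj, map_zero, mul_zero]) (fun _ => rfl)]
      rw [Fin.sum_univ_four, hθs, hθs, hθs, hθs]
      have hk : ∀ (k : Fin 4), v (s k) * σ (v (s k)) = 1 := fun k => norm_one Q (hsv k)
      simp only [Matrix.cons_val, map_mul, map_one, Q.inv, one_mul]
      linear_combination hk 0 + hk 1 + (σ ω.1) * hk 2 + ω.1 * hk 3 + hωt + h20
    have hr := reach_step hf (v := v) (z := 1) hcen hF one_ne_zero (by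
      rw [map_one]
      linear_combination h20)
    apply hr.cen hf
    apply ih _ (by rw [hr.norm, hv])
    have hsub : sup (v + (1 : F) • θ) ⊆ (sup v).erase (s 0) := by
      intro r hr
      rw [mem_sup] at hr
      rw [Finset.mem_erase]
      by_cases hr0 : r = s 0
      · exfalso
        apply hr
        simp only [Pi.add_apply, Pi.smul_apply, smul_eq_mul, one_mul, hr0, hθs]
        simp only [Matrix.cons_val, one_mul]
        linear_combination (v (s 0)) * h20
      · refine ⟨hr0, mem_sup.mpr ?_⟩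
        intro h
        apply hr
        by_cases hrs : r ∈ Set.range s
        · obtain ⟨k, rfl⟩ := hrs
          exact absurd h (hsv k)
        · simp only [Pi.add_apply, Pi.smul_apply, smul_eq_mul, one_mul, h, hθo r hrs, add_zero]
    have := Finset.card_le_card hsub
    rw [Finset.card_erase_of_mem (mem_sup.mpr (hsv 0)), hcard] at this
    omega

/-- **The main theorem for `q = 2`.** -/
theorem main_two (hs : Std σ f) (Q : QF σ 2) (hH : Over f H) (hι : 13 ≤ Fintype.card ι)
    {g : GL ι F} (hgH : g ∈ H) (hng : ¬ IsMono (g : Matrix ι ι F)) :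
    ∀ v : ι → F, f v v = 0 → v ∈ cen hs.uf H := by
  classical
  have hf := hs.uf
  have h20 := two_zero Q
  obtain ⟨c, hc, hm, hS, r, hr⟩ := exists_centre_even h20 hs Q hH hι hgH hng
  have hcc := cen_of_uT_one hf Q hc hm
  obtain ⟨r₁, r₂, r₃, h12, h13, h23, h1, h2, h3⟩ := hS
  have hc3 : 3 ≤ (sup c).card := by
    have hsub : ({r₁, r₂, r₃} : Finset ι) ⊆ sup c := by
      intro z hz
      simp only [Finset.mem_insert, Finset.mem_singleton] at hz
      rw [mem_sup]
      rcases hz with rfl | rfl | rfl <;> assumption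
    have hcard : ({r₁, r₂, r₃} : Finset ι).card = 3 := by
      rw [Finset.card_insert_of_notMem, Finset.card_insert_of_notMem, Finset.card_singleton]
      · simpa using h23
      · simp [h12, h13]
    rw [← hcard]
    exact Finset.card_le_card hsub
  have hc3' : (sup c).card ≠ 3 := by
    intro h3
    have := form_self_two hs Q c
    rw [hc, h3] at this
    have h4 : (1 : F) = 0 := by
      push_cast at this
      linear_combination this + 2 * h20
    exact one_ne_zero h4
  obtain ⟨s, hs', hsc⟩ := exists_four_of_card c (by omega)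
  have hc0 : c ≠ 0 := by
    rintro rfl
    exact h1 rfl
  obtain ⟨d, hd, a, b, hab, ha, hb, ho⟩ := exists_two_support hs Q hH hcc hc0 hr
  have H2 : ∀ (a' b' : ι) (x : ι → F), a' ≠ b' → (∀ r, r ≠ a' → r ≠ b' → x r = 0) → f x x = 0 → x ∈ cen hs.uf H :=
    fun a' b' x h1 h2 h3 => cen_two hs Q hH (by omega) hd hab ha hb ho h1 h2 h3
  obtain ⟨d₄, hd₄, h4, ho₄⟩ := exists_four_support hs Q hH hcc hr s hs' hsc
  have H4 : ∀ (s₁ : Fin 4 → ι) (x : ι → F), Function.Injective s₁ → (∀ k, x (s₁ k) ≠ 0) →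
      (∀ r, r ∉ Set.range s₁ → x r = 0) → x ∈ cen hs.uf H :=
    fun s₁ x h1 h2 h3 => cen_four hs Q hH (by omega) hd₄ s hs' h4 ho₄ s₁ h1 h2 h3
  intro v hv
  exact forall_cen_two hs Q (by omega) H2 H4 _ v hv (Finset.card_le_univ _)

end Cfsg.Agent.Lib.SUMon.GameTwo
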