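/-
Small facts on non-degenerate subspaces of a unitary space.
-/
import Cfsg.Agent.Lib.SUMon.GameTwo
import Cfsg.Agent.Lib.Geo.SUNondeg
set_option autoImplicit false

namespace Cfsg.Agent.Lib.SUMon.Y

open Cfsg Cfsg.Geo Cfsg.Agent.Lib.Geo.Basic Cfsg.Agent.Lib.Geo.Centres Cfsg.Agent.Lib.Geo.Parabolic
open Cfsg.Agent.Lib.Geo.Polar Cfsg.Agent.Lib.Geo.UnitaryInSL Cfsg.Agent.Lib.Geo.QForm
open Cfsg.Agent.Lib.Geo.SUGen Cfsg.Agent.Lib.Geo.SUBase Cfsg.Agent.Lib.Geo.SUNondeg
open Cfsg.Agent.Lib.SUMon.Field Cfsg.Agent.Lib.SUMon.Even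
open scoped MatrixGroups Matrix

variable {ι : Type} [Fintype ι] [DecidableEq ι] {F : Type*} [Field F] [Fintype F]
variable {σ : F ≃+* F} {q : ℕ} {f : (ι → F) → (ι → F) → F}

/-- A non-zero non-degenerate subspace has an anisotropic vector. -/
theorem exists_aniso_in (hf : IsUnitaryForm σ f) {X : Submodule F (ι → F)} (hX : IsNondegenerateOn f X) (hne : X ≠ ⊥) :
    ∃ e ∈ X, f e e ≠ 0 := by
  obtain ⟨x, hx, hx0⟩ := Submodule.exists_mem_ne_zero_of_ne_bot hne
  by_cases h1 : f x x = 0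
  swap
  · exact ⟨x, hx, h1⟩
  obtain ⟨-, ⟨y, hy, hxy⟩⟩ := hX x hx hx0
  by_cases h2 : f y y = 0
  swap
  · exact ⟨y, hy, h2⟩
  obtain ⟨s, hs⟩ := exists_add_sigma_eq σ hf.ne_refl hf.involutive 1 (map_one σ)
  obtain ⟨l, hl⟩ : ∃ l, l = σ (s / f x y) := ⟨_, rfl⟩
  have hsl : σ l = s / f x y := by rw [hl, hf.involutive]
  refine ⟨x + l • y, X.add_mem hx (X.smul_mem _ hy), ?_⟩
  have hE : f (x + l • y) (x + l • y) = 1 := by
    rw [hf.add_left, UForm.add_right hf, UForm.add_right hf, hf.smul_left, hf.smul_left, UForm.smul_right hf,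
      UForm.smul_right hf, h1, h2, hsl, ← hs, hf.herm y x, hl, map_div₀]
    have hσ : σ (f x y) ≠ 0 := (map_ne_zero σ).mpr hxy
    field_simp
    ring
  rw [hE]
  exact one_ne_zero

/-- Scaling an anisotropic vector to a given non-zero norm. -/
theorem exists_scale (hf : IsUnitaryForm σ f) {X : Submodule F (ι → F)} {e : ι → F} (he : e ∈ X) (hee : f e e ≠ 0)
    {t : F} (ht : σ t = t) (ht0 : t ≠ 0) : ∃ e' ∈ X, f e' e' = t ∧ ∃ b : F, e' = b • e := by
  have hfix : σ (t / f e e) = t / f e e := by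
    rw [map_div₀, ht, UForm.sigma_self hf]
  obtain ⟨b, hb⟩ := exists_mul_sigma_eq σ hf.ne_refl hf.involutive _ hfix (div_ne_zero ht0 hee)
  refine ⟨b • e, X.smul_mem _ he, ?_, b, rfl⟩
  rw [hf.smul_left, UForm.smul_right hf, ← mul_assoc, hb, div_mul_cancel₀ _ hee]

/-- The orthogonal complement of a vector in a subspace. -/
noncomputable def perpL (hf : IsUnitaryForm σ f) (X : Submodule F (ι → F)) (c : ι → F) : Submodule F (ι → F) :=
  X ⊓ orth hf (Submodule.span F {c})

theorem mem_perpL (hf : IsUnitaryForm σ f) (X : Submodule F (ι → F)) (c x : ι → F) :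
    x ∈ perpL hf X c ↔ x ∈ X ∧ f c x = 0 := by
  rw [perpL, Submodule.mem_inf, mem_orth]
  constructor
  · intro h
    exact ⟨h.1, h.2 c (Submodule.mem_span_singleton_self c)⟩
  · rintro ⟨h1, h2⟩
    refine ⟨h1, fun w hw => ?_⟩
    obtain ⟨a, rfl⟩ := Submodule.mem_span_singleton.mp hw
    rw [hf.smul_left, h2, mul_zero]

theorem perpL_nondeg (hf : IsUnitaryForm σ f) {X : Submodule F (ι → F)} (hX : IsNondegenerateOn f X) {c : ι → F}
    (hc : c ∈ X) (hcc : f c c ≠ 0) : IsNondegenerateOn f (perpL hf X c) := by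
  have P := UForm.isPolar hf
  intro w hw hw0
  obtain ⟨hwX, hcw⟩ := (mem_perpL hf X c w).mp hw
  have hwc : f w c = 0 := UForm.refl hf _ _ hcw
  obtain ⟨⟨x, hx, h1⟩, ⟨y, hy, h2⟩⟩ := hX w hwX hw0
  have hS : σ (f c c) = f c c := UForm.sigma_self hf c
  have hproj : ∀ x ∈ X, x - (f x c / f c c) • c ∈ perpL hf X c := by
    intro x hx
    rw [mem_perpL]
    refine ⟨X.sub_mem hx (X.smul_mem _ hc), ?_⟩
    have h : σ (f x c) = f c x := by rw [hf.herm x c, hf.involutive]
    rw [P.sub_right, UForm.smul_right hf, map_div₀, hS, h, div_mul_cancel₀ _ hcc, sub_self]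
  refine ⟨⟨_, hproj x hx, ?_⟩, ⟨_, hproj y hy, ?_⟩⟩
  · rw [P.sub_left, hf.smul_left, hcw, mul_zero, sub_zero]
    exact h1
  · rw [P.sub_right, UForm.smul_right hf, hwc, mul_zero, sub_zero]
    exact h2

theorem perpL_finrank (hf : IsUnitaryForm σ f) {X : Submodule F (ι → F)} {c : ι → F} (hcc : f c c ≠ 0) :
    Module.finrank F X ≤ Module.finrank F (perpL hf X c) + 1 := by
  have hc0 : c ≠ 0 := by
    rintro rfl
    exact hcc (UForm.zero_left hf _)
  have hS : IsNondegenerateOn f (Submodule.span F {c}) := by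
    intro w hw hw0
    obtain ⟨a, rfl⟩ := Submodule.mem_span_singleton.mp hw
    have ha : a ≠ 0 := by
      rintro rfl
      exact hw0 (zero_smul _ _)
    have hsa : σ a ≠ 0 := (map_ne_zero σ).mpr ha
    refine ⟨⟨c, Submodule.mem_span_singleton_self c, ?_⟩, ⟨c, Submodule.mem_span_singleton_self c, ?_⟩⟩
    · rw [UForm.smul_right hf]
      exact mul_ne_zero hsa hcc
    · rw [hf.smul_left]
      exact mul_ne_zero ha hcc
  have h1 := finrank_add_orth hf hS
  rw [finrank_span_singleton hc0] at h1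
  have h2 := Submodule.finrank_sup_add_finrank_inf_eq X (orth hf (Submodule.span F {c}))
  have h3 : Module.finrank F ↥(X ⊔ orth hf (Submodule.span F {c})) ≤ Fintype.card ι := by
    have := Submodule.finrank_le (X ⊔ orth hf (Submodule.span F {c}))
    simpa using this
  rw [perpL]
  omega

theorem ne_bot_of_finrank {X : Submodule F (ι → F)} (h : 0 < Module.finrank F X) : X ≠ ⊥ := by
  rintro rfl
  simp at h

/-- An anisotropic vector orthogonal to an anisotropic one. -/
theorem exists_aniso_perp (hf : IsUnitaryForm σ f) {X : Submodule F (ι → F)} (hX : IsNondegenerateOn f X) {c : ι → F}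
    (hc : c ∈ X) (hcc : f c c ≠ 0) (hd : 2 ≤ Module.finrank F X) : ∃ e ∈ X, f e e ≠ 0 ∧ f c e = 0 := by
  have h1 := perpL_finrank hf (X := X) hcc
  obtain ⟨e, he, hee⟩ := exists_aniso_in hf (perpL_nondeg hf hX hc hcc) (ne_bot_of_finrank (by omega))
  obtain ⟨h2, h3⟩ := (mem_perpL hf X c e).mp he
  exact ⟨e, h2, hee, h3⟩

/-- An isotropic vector with a prescribed non-zero value of the form. -/
theorem exists_iso_form (hf : IsUnitaryForm σ f) {X : Submodule F (ι → F)} (hX : IsNondegenerateOn f X) {c : ι → F}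
    (hc : c ∈ X) (hc0 : c ≠ 0) (hd : 2 ≤ Module.finrank F X) {G : F} (hG : G ≠ 0) :
    ∃ y ∈ X, f y y = 0 ∧ f c y = G := by
  by_cases hcc : f c c = 0
  · obtain ⟨c', hc', h1, -, h3⟩ := exists_partner hf hX hc hc0 hcc
    refine ⟨σ G • c', X.smul_mem _ hc', ?_, ?_⟩
    · rw [hf.smul_left, UForm.smul_right hf, h1]
      ring
    · rw [UForm.smul_right hf, hf.involutive, h3, mul_one]
  · obtain ⟨e, he, hee, hce⟩ := exists_aniso_perp hf hX hc hcc hd
    have hec : f e c = 0 := UForm.refl hf _ _ hce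
    obtain ⟨α, hα⟩ : ∃ α, α = σ (G / f c c) := ⟨_, rfl⟩
    have hsα : σ α = G / f c c := by rw [hα, hf.involutive]
    have hS : σ (f c c) = f c c := UForm.sigma_self hf c
    have hα0 : α ≠ 0 := by
      rw [hα]
      exact (map_ne_zero σ).mpr (div_ne_zero hG hcc)
    have hfix : σ (-(α * σ α * f c c)) = -(α * σ α * f c c) := by
      rw [map_neg, map_mul, map_mul, hf.involutive, hS]
      ring
    have hne : -(α * σ α * f c c) ≠ 0 :=
      neg_ne_zero.mpr (mul_ne_zero (mul_ne_zero hα0 ((map_ne_zero σ).mpr hα0)) hcc)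
    obtain ⟨e', he', he'e', b, rfl⟩ := exists_scale hf he hee hfix hne
    have hce' : f c (b • e) = 0 := by
      rw [UForm.smul_right hf, hce, mul_zero]
    have he'c : f (b • e) c = 0 := UForm.refl hf _ _ hce'
    refine ⟨α • c + b • e, X.add_mem (X.smul_mem _ hc) he', ?_, ?_⟩
    · have h1 : f (α • c) (b • e) = 0 := by rw [hf.smul_left, hce', mul_zero]
      have h2 : f (b • e) (α • c) = 0 := by rw [UForm.smul_right hf, he'c, mul_zero]
      rw [hf.add_left, UForm.add_right hf, UForm.add_right hf, h1, h2, he'e', hf.smul_left, UForm.smul_right hf]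
      ring
    · rw [UForm.add_right hf, UForm.smul_right hf, hce', hsα, add_zero, div_mul_cancel₀ _ hcc]

/-- An anisotropic vector orthogonal to a given vector in dimension at least three. -/
theorem exists_aniso_perp3 (hf : IsUnitaryForm σ f) {X : Submodule F (ι → F)} (hX : IsNondegenerateOn f X) {c : ι → F}
    (hc : c ∈ X) (hd : 3 ≤ Module.finrank F X) : ∃ e ∈ X, f e e ≠ 0 ∧ f c e = 0 := by
  by_cases hc0 : c = 0
  · subst hc0
    obtain ⟨e, he, hee⟩ := exists_aniso_in hf hX (ne_bot_of_finrank (by omega))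
    exact ⟨e, he, hee, UForm.zero_left hf _⟩
  by_cases hcc : f c c = 0
  swap
  · exact exists_aniso_perp hf hX hc hcc (by omega)
  -- the hyperbolic plane of `c`
  obtain ⟨c', hc', h1, h2, h3⟩ := exists_partner hf hX hc hc0 hcc
  obtain ⟨s, hs⟩ := exists_add_sigma_eq σ hf.ne_refl hf.involutive 1 (map_one σ)
  obtain ⟨d, hd'⟩ : ∃ d, d = c + σ s • c' := ⟨_, rfl⟩
  have hdX : d ∈ X := by
    rw [hd']
    exact X.add_mem hc (X.smul_mem _ hc')
  have hdd : f d d = 1 := by
    have e1 : f c (σ s • c') = s := by rw [UForm.smul_right hf, hf.involutive, h3, mul_one]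
    have e2 : f (σ s • c') c = σ s := by rw [hf.smul_left, h2, mul_one]
    have e3 : f (σ s • c') (σ s • c') = 0 := by
      rw [hf.smul_left, UForm.smul_right hf, h1]
      ring
    rw [hd', hf.add_left, UForm.add_right hf, UForm.add_right hf, hcc, e1, e2, e3, ← hs]
    ring
  have hdd0 : f d d ≠ 0 := by
    rw [hdd]
    exact one_ne_zero
  have hcd : f c d = s := by
    rw [hd', UForm.add_right hf, UForm.smul_right hf, hcc, h3, hf.involutive]
    ring
  have hs0 : s ≠ 0 := by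
    rintro rfl
    rw [map_zero, add_zero] at hs
    exact zero_ne_one hs
  -- an orthogonal vector in the plane
  obtain ⟨d₂, hd₂⟩ : ∃ d₂, d₂ = c - s • d := ⟨_, rfl⟩
  have P := UForm.isPolar hf
  have hd₂d : f d₂ d = 0 := by
    rw [hd₂, P.sub_left, hf.smul_left, hcd, hdd]
    ring
  have hdd₂ : f d d₂ = 0 := UForm.refl hf _ _ hd₂d
  have hdc : f d c = σ s := by rw [hf.herm, hcd]
  have hd₂d₂ : f d₂ d₂ ≠ 0 := by
    have : f d₂ d₂ = - (s * σ s) := by
      rw [hd₂, P.sub_left, P.sub_right, P.sub_right, hf.smul_left, hf.smul_left, UForm.smul_right hf, UForm.smul_right hf,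
        hcc, hcd, hdc, hdd]
      ring
    rw [this]
    exact neg_ne_zero.mpr (mul_ne_zero hs0 ((map_ne_zero σ).mpr hs0))
  have hW := perpL_nondeg hf hX hdX hdd0
  have hrk := perpL_finrank hf (X := X) hdd0
  have hd₂W : d₂ ∈ perpL hf X d := by
    rw [mem_perpL]
    exact ⟨by rw [hd₂]; exact X.sub_mem hc (X.smul_mem _ hdX), hdd₂⟩
  obtain ⟨e, he, hee, h5⟩ := exists_aniso_perp hf hW hd₂W hd₂d₂ (by omega)
  obtain ⟨h6, h7⟩ := (mem_perpL hf X d e).mp he
  refine ⟨e, h6, hee, ?_⟩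
  have hc_eq : c = d₂ + s • d := by
    rw [hd₂]
    abel
  rw [hc_eq, hf.add_left, hf.smul_left, h5, h7]
  ring

/-- A non-zero isotropic vector orthogonal to a given non-zero vector, not its negative. -/
theorem exists_iso_perp3 (hf : IsUnitaryForm σ f) (Q : QF σ q) {X : Submodule F (ι → F)} (hX : IsNondegenerateOn f X)
    {c : ι → F} (hc : c ∈ X) (hc0 : c ≠ 0) (hd : 3 ≤ Module.finrank F X) :
    ∃ w ∈ X, w ≠ 0 ∧ f c w = 0 ∧ f w w = 0 ∧ c + w ≠ 0 := by
  by_cases hcc : f c c = 0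
  · obtain ⟨μ, hμ⟩ := exists_U1_notMem Q {-1} (by
      have := Q.two_le
      simp
      omega)
    simp only [Finset.mem_singleton] at hμ
    have hμ0 : μ.1 ≠ 0 := Field.ne_zero μ
    refine ⟨μ.1 • c, X.smul_mem _ hc, smul_ne_zero hμ0 hc0, ?_, ?_, ?_⟩
    · rw [UForm.smul_right hf, hcc, mul_zero]
    · rw [hf.smul_left, UForm.smul_right hf, hcc]
      ring
    · intro h
      have h1 : (1 + μ.1) • c = 0 := by
        rw [add_smul, one_smul]
        exact h
      rcases smul_eq_zero.mp h1 with h2 | h2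
      · apply hμ
        linear_combination h2
      · exact hc0 h2
  · have hW := perpL_nondeg hf hX hc hcc
    have hrk := perpL_finrank hf (X := X) hcc
    obtain ⟨e, he, hee⟩ := exists_aniso_in hf hW (ne_bot_of_finrank (by omega))
    obtain ⟨e₂, he₂, he₂e₂, hee₂⟩ := exists_aniso_perp hf hW he hee (by omega)
    obtain ⟨he1, hce⟩ := (mem_perpL hf X c e).mp he
    obtain ⟨he3, hce₂⟩ := (mem_perpL hf X c e₂).mp he₂
    have hfix : σ (- (f e e) / f e₂ e₂) = - (f e e) / f e₂ e₂ := by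
      rw [map_div₀, map_neg, UForm.sigma_self hf, UForm.sigma_self hf]
    obtain ⟨b, hb⟩ := exists_mul_sigma_eq σ hf.ne_refl hf.involutive _ hfix (div_ne_zero (neg_ne_zero.mpr hee) he₂e₂)
    have he₂e : f e₂ e = 0 := UForm.refl hf _ _ hee₂
    have hw0 : f (e + b • e₂) e = f e e := by
      rw [hf.add_left, hf.smul_left, he₂e, mul_zero, add_zero]
    have hne : e + b • e₂ ≠ 0 := by
      intro h
      rw [h, UForm.zero_left hf] at hw0
      exact hee hw0.symm
    have hww : f (e + b • e₂) (e + b • e₂) = 0 := by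
      have hb' : b * σ b * f e₂ e₂ = - f e e := by rw [hb, div_mul_cancel₀ _ he₂e₂]
      rw [hf.add_left, UForm.add_right hf, UForm.add_right hf, hf.smul_left, UForm.smul_right hf, UForm.smul_right hf,
        hf.smul_left, hee₂, he₂e]
      linear_combination hb'
    refine ⟨e + b • e₂, X.add_mem he1 (X.smul_mem _ he3), hne, ?_, hww, ?_⟩
    · rw [UForm.add_right hf, UForm.smul_right hf, hce, hce₂]
      ring
    · intro h
      have h1 : c = -(e + b • e₂) := eq_neg_of_add_eq_zero_left h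
      apply hcc
      rw [h1]
      have P := UForm.isPolar hf
      rw [P.neg_left, P.neg_right, hww]
      ring

end Cfsg.Agent.Lib.SUMon.Y
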