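/-
The overgroups of the stabiliser of an orthogonal decomposition into coordinate blocks of dimension at least two.
-/
import Cfsg.Agent.Lib.SUMon.Y
import Cfsg.Agent.Lib.Geo.SUWitt
set_option autoImplicit false

namespace Cfsg.Agent.Lib.SUMon.Blk

open Cfsg Cfsg.Geo Cfsg.Agent.Lib.Geo.Basic Cfsg.Agent.Lib.Geo.Centres Cfsg.Agent.Lib.Geo.Parabolic
open Cfsg.Agent.Lib.Geo.Polar Cfsg.Agent.Lib.Geo.UnitaryInSL Cfsg.Agent.Lib.Geo.QForm
open Cfsg.Agent.Lib.Geo.SUGen Cfsg.Agent.Lib.Geo.SUBase Cfsg.Agent.Lib.Geo.SUNondeg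
open Cfsg.Agent.Lib.SLC2.Mono Cfsg.Agent.Lib.SLC2.MonoA
open Cfsg.Agent.Lib.SUMon.Field Cfsg.Agent.Lib.SUMon.Base Cfsg.Agent.Lib.SUMon.Even Cfsg.Agent.Lib.SUMon.Game
open Cfsg.Agent.Lib.SUMon.Y Cfsg.Agent.Lib.Geo.SUWitt
open scoped MatrixGroups Matrix

variable {ι κ : Type} [Fintype ι] [DecidableEq ι] [Fintype κ] [DecidableEq κ] {F : Type*} [Field F] [Fintype F]
variable {σ : F ≃+* F} {q : ℕ} {f : (ι → F) → (ι → F) → F} {H : Subgroup (GL ι F)} {bl : ι → κ}

/-- A block of coordinates. -/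
def blk (bl : ι → κ) (r : κ) : Submodule F (ι → F) where
  carrier := {v | ∀ j, bl j ≠ r → v j = 0}
  add_mem' {a b} ha hb j hj := by
    simp only [Pi.add_apply, ha j hj, hb j hj, add_zero]
  zero_mem' j _ := rfl
  smul_mem' c x hx j hj := by
    simp only [Pi.smul_apply, hx j hj, smul_zero]

theorem mem_blk {r : κ} {v : ι → F} : v ∈ blk bl r ↔ ∀ j, bl j ≠ r → v j = 0 := Iff.rfl

/-- The component in a block. -/
def pr (bl : ι → κ) (r : κ) (v : ι → F) : ι → F := fun j => if bl j = r then v j else 0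

theorem pr_mem (r : κ) (v : ι → F) : pr bl r v ∈ blk bl r := fun j hj => by
  simp [pr, hj]

theorem pr_add (r : κ) (u v : ι → F) : pr bl r (u + v) = pr bl r u + pr bl r v := by
  funext j
  by_cases h : bl j = r <;> simp [pr, h]

theorem pr_smul (r : κ) (c : F) (v : ι → F) : pr bl r (c • v) = c • pr bl r v := by
  funext j
  by_cases h : bl j = r <;> simp [pr, h]

theorem pr_neg (r : κ) (v : ι → F) : pr bl r (-v) = - pr bl r v := by
  funext j
  by_cases h : bl j = r <;> simp [pr, h]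

theorem pr_of_mem {r : κ} {v : ι → F} (h : v ∈ blk bl r) : pr bl r v = v := by
  funext j
  by_cases hj : bl j = r
  · simp [pr, hj]
  · simp [pr, hj, h j hj]

theorem pr_of_mem_ne {r l : κ} {v : ι → F} (h : v ∈ blk bl r) (hl : l ≠ r) : pr bl l v = 0 := by
  funext j
  by_cases hj : bl j = l
  · have : bl j ≠ r := by rw [hj]; exact hl
    simp [pr, hj, h j this]
  · simp [pr, hj]

theorem apply_eq_pr (v : ι → F) (j : ι) : v j = pr bl (bl j) v j := by
  simp [pr]

/-- The form only sees the component. -/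
theorem form_blk (hs : Std σ f) {r : κ} (v : ι → F) {w : ι → F} (hw : w ∈ blk bl r) : f v w = f (pr bl r v) w := by
  rw [hs.form, hs.form]
  refine Finset.sum_congr rfl fun j _ => ?_
  by_cases hj : bl j = r
  · simp [pr, hj]
  · rw [hw j hj, map_zero, mul_zero, mul_zero]

theorem form_blk_left (hs : Std σ f) {r : κ} {v : ι → F} (hv : v ∈ blk bl r) (w : ι → F) : f v w = f v (pr bl r w) := by
  rw [hs.form, hs.form]
  refine Finset.sum_congr rfl fun j _ => ?_
  by_cases hj : bl j = r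
  · simp [pr, hj]
  · rw [hv j hj, zero_mul, zero_mul]

theorem orth_blk (hs : Std σ f) {r s : κ} {u w : ι → F} (hu : u ∈ blk bl r) (hw : w ∈ blk bl s) (hrs : r ≠ s) : f u w = 0 := by
  rw [hs.form]
  refine Finset.sum_eq_zero fun j _ => ?_
  by_cases hj : bl j = r
  · have : bl j ≠ s := by rw [hj]; exact hrs
    rw [hw j this, map_zero, mul_zero]
  · rw [hu j hj, zero_mul]

theorem nondeg_blk (hs : Std σ f) (r : κ) : IsNondegenerateOn f (blk bl r) := by
  intro w hw hw0
  obtain ⟨j, hj⟩ : ∃ j, w j ≠ 0 := by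
    by_contra hcon
    push Not at hcon
    exact hw0 (funext hcon)
  have hbl : bl j = r := by
    by_contra h
    exact hj (hw j h)
  have hm : (Pi.single j 1 : ι → F) ∈ blk bl r := by
    intro i hi
    have : i ≠ j := by
      rintro rfl
      exact hi hbl
    exact Pi.single_eq_of_ne this _
  refine ⟨⟨_, hm, ?_⟩, ⟨_, hm, ?_⟩⟩
  · rw [form_single_left hs]
    exact (map_ne_zero σ).mpr hj
  · rw [form_single_right hs]
    exact hj

theorem finrank_blk {k : ℕ} {r : κ} (hk : (Finset.univ.filter fun j => bl j = r).card = k) :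
    k ≤ Module.finrank F (blk (F := F) bl r) := by
  classical
  let b : {j // bl j = r} → ↥(blk (F := F) bl r) := fun j => ⟨Pi.single j.1 1, by
    intro i hi
    have : i ≠ j.1 := by
      rintro rfl
      exact hi j.2
    exact Pi.single_eq_of_ne this _⟩
  have hb : LinearIndependent F b := by
    apply LinearIndependent.of_comp (blk (F := F) bl r).subtype
    have h1 := (Pi.linearIndependent_single_one ι F).comp (Subtype.val : {j // bl j = r} → ι) Subtype.val_injective
    exact h1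
  have h2 := hb.fintype_card_le_finrank
  rw [Fintype.card_subtype, hk] at h2
  exact h2

/-- An overgroup of the stabiliser of the block decomposition, in the special unitary group. -/
structure OverB (f : (ι → F) → (ι → F) → F) (bl : ι → κ) (H : Subgroup (GL ι F)) : Prop where
  iso : ∀ h ∈ H, IsIso f h
  det : ∀ h ∈ H, (h : Matrix ι ι F).det = 1
  stab : ∀ g : GL ι F, IsIso f g → (g : Matrix ι ι F).det = 1 →
    (∃ τ : κ → κ, ∀ r v, v ∈ blk (F := F) bl r → (g : Matrix ι ι F) *ᵥ v ∈ blk (F := F) bl (τ r)) → g ∈ H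

/-- Isotropic vectors in a block are centres. -/
theorem cen_blk (hs : Std σ f) (hH : OverB f bl H) {r : κ} {u : ι → F} (hu : u ∈ blk bl r) (huu : f u u = 0) :
    u ∈ cen hs.uf H := by
  have hf := hs.uf
  refine ⟨huu, fun a ha => hH.stab _ (uT_isIso hf u a huu ha) (mem_specialLinear_iff _ |>.mp (uT_mem hf u a huu ha).2)
    ⟨id, fun s v hv => ?_⟩⟩
  rw [uT_mulVec]
  by_cases hsr : s = r
  · subst hsr
    exact Submodule.add_mem _ hv (Submodule.smul_mem _ _ (Submodule.smul_mem _ _ hu))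
  · rw [orth_blk hs hv hu hsr, zero_smul, add_zero]
    exact hv

/-- Compensating the determinant. -/
theorem reach_comp (hs : Std σ f) (hH : OverB f bl H) {g : GL ι F} (hgi : IsIso f g) (τ : κ → κ)
    (hg : ∀ r v, v ∈ blk (F := F) bl r → (g : Matrix ι ι F) *ᵥ v ∈ blk (F := F) bl (τ r)) {e : ι → F} {l : κ}
    (he : e ∈ blk bl l) (hee : f e e ≠ 0) {c : ι → F} (hec : f ((g : Matrix ι ι F) *ᵥ c) e = 0) :
    Reach f H c ((g : Matrix ι ι F) *ᵥ c) := by
  have hf := hs.uf
  have hN := isIso_norm_det hf hgi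
  obtain ⟨d, hd⟩ : ∃ d, d = (g : Matrix ι ι F).det := ⟨_, rfl⟩
  rw [← hd] at hN
  have hd0 : d ≠ 0 := left_ne_zero_of_mul_eq_one hN
  have hsd0 : σ d ≠ 0 := right_ne_zero_of_mul_eq_one hN
  have hinv : d⁻¹ * σ d⁻¹ = 1 := by
    rw [map_inv₀, ← mul_inv, hN, inv_one]
  have hG : IsIso f (uR hf e d⁻¹ hee hinv * g) := (uR_isIso hf e d⁻¹ hee hinv).mul hgi
  refine ⟨uR hf e d⁻¹ hee hinv * g, hH.stab _ hG ?_ ⟨τ, fun r v hv => ?_⟩, hG, ?_⟩
  · rw [Units.val_mul, Matrix.det_mul, uR_det, ← hd]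
    exact inv_mul_cancel₀ hd0
  · rw [Units.val_mul, ← Matrix.mulVec_mulVec, uR_mulVec]
    have h1 := hg r v hv
    by_cases h2 : τ r = l
    · rw [h2] at h1 ⊢
      exact Submodule.add_mem _ h1 (Submodule.smul_mem _ _ he)
    · rw [orth_blk hs h1 he h2, zero_mul, zero_smul, add_zero]
      exact h1
  · rw [Units.val_mul, ← Matrix.mulVec_mulVec, uR_mulVec, hec, zero_mul, zero_smul, add_zero]

theorem reach_fwd (hf : IsUnitaryForm σ f) {v v' : ι → F} (h : Reach f H v v') (hv : v ∈ cen hf H) : v' ∈ cen hf H := by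
  obtain ⟨g, hg, hgi, rfl⟩ := h
  exact cen_mulVec hv hg hgi

/-- A move in one block respects all blocks. -/
theorem isMove_blk (hs : Std σ f) {r s : κ} {h : GL ι F} (hm : IsMove f σ (blk (F := F) bl r) h) {v : ι → F}
    (hv : v ∈ blk (F := F) bl s) : (h : Matrix ι ι F) *ᵥ v ∈ blk (F := F) bl s := by
  by_cases hsr : s = r
  · subst hsr
    exact hm.pres v hv
  · rw [hm.fix v (fun x hx => orth_blk hs hv hx hsr)]
    exact hv

/-- Block permutations lift. -/
theorem exists_lift_perm {k : ℕ} (hk : ∀ r, (Finset.univ.filter fun j => bl j = r).card = k) (τ : Equiv.Perm κ) :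
    ∃ π : Equiv.Perm ι, ∀ j, bl (π j) = τ (bl j) := by
  classical
  have hcard : ∀ c, Fintype.card {a // τ (bl a) = c} = Fintype.card {b // bl b = c} := by
    intro c
    rw [Fintype.card_subtype, Fintype.card_subtype, hk c]
    have h1 : (Finset.univ.filter fun a => τ (bl a) = c) = Finset.univ.filter fun a => bl a = τ.symm c := by
      ext a
      simp only [Finset.mem_filter, Finset.mem_univ, true_and]
      exact ⟨fun h => by rw [← h]; simp, fun h => by rw [h]; simp⟩
    rw [h1, hk]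
  let e : ∀ c, {a // τ (bl a) = c} ≃ {b // bl b = c} := fun c => Fintype.equivOfCardEq (hcard c)
  refine ⟨Equiv.ofFiberEquiv e, fun j => ?_⟩
  exact Equiv.ofFiberEquiv_map e j

/-- Pairs of non-zero isotropic vectors in two blocks: one of them gives all. -/
theorem cen_s0 (hs : Std σ f) (hH : OverB f bl H) {k : ℕ}
    (hk : ∀ r, (Finset.univ.filter fun j => bl j = r).card = k)
    (hE : ∀ r s, r ≠ s → ∀ a' ∈ blk (F := F) bl r, ∀ b' ∈ blk (F := F) bl s, ∃ l, ∃ e ∈ blk (F := F) bl l, f e e ≠ 0 ∧ f (a' + b') e = 0)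
    {r₀ s₀ : κ} (hrs₀ : r₀ ≠ s₀) {a b : ι → F} (ha : a ∈ blk bl r₀) (hb : b ∈ blk bl s₀) (ha0 : a ≠ 0) (hb0 : b ≠ 0)
    (haa : f a a = 0) (hbb : f b b = 0) (hc : a + b ∈ cen hs.uf H)
    {r s : κ} (hrs : r ≠ s) {a' b' : ι → F} (ha' : a' ∈ blk bl r) (hb' : b' ∈ blk bl s) (ha'0 : a' ≠ 0) (hb'0 : b' ≠ 0)
    (ha'a' : f a' a' = 0) (hb'b' : f b' b' = 0) : a' + b' ∈ cen hs.uf H := by
  have hf := hs.uf
  obtain ⟨τ, hτ⟩ := exists_perm_of_inj ![r₀, s₀] ![r, s] (by
    intro i i' h
    fin_cases i <;> fin_cases i' <;> simp_all) (by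
    intro i i' h
    fin_cases i <;> fin_cases i' <;> simp_all)
  have hτr : τ r = r₀ := hτ 0
  have hτs : τ s = s₀ := hτ 1
  obtain ⟨π, hπ⟩ := exists_lift_perm hk τ
  have hpm : ∀ (v : ι → F), ((pm π : GL ι F) : Matrix ι ι F) *ᵥ v = v ∘ π := fun v => pm_mulVec π v
  have hpb : ∀ (u : κ) (v : ι → F), v ∈ blk (F := F) bl u → ((pm π : GL ι F) : Matrix ι ι F) *ᵥ v ∈ blk (F := F) bl (τ.symm u) := by
    intro u v hv
    rw [hpm]
    intro j hj
    apply hv
    rw [hπ]
    intro h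
    apply hj
    rw [← h]
    simp
  have hne : ∀ (v : ι → F), v ≠ 0 → v ∘ π ≠ 0 := by
    intro v hv h
    apply hv
    funext j
    have := congrFun h (π.symm j)
    simpa using this
  have ha₁ := hpb r₀ a ha
  have hb₁ := hpb s₀ b hb
  rw [← hτr, Equiv.symm_apply_apply] at ha₁
  rw [← hτs, Equiv.symm_apply_apply] at hb₁
  rw [hpm] at ha₁ hb₁
  have hna : f (a ∘ π) (a ∘ π) = 0 := by
    have := pm_iso' hs π a a
    rw [hpm] at this
    rw [this, haa]
  have hnb : f (b ∘ π) (b ∘ π) = 0 := by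
    have := pm_iso' hs π b b
    rw [hpm] at this
    rw [this, hbb]
  obtain ⟨h₁, hm₁, hh₁⟩ := exists_move_in hf (nondeg_blk hs r) ha₁ ha' (hne a ha0) ha'0 (by rw [ha'a', hna])
  obtain ⟨h₂, hm₂, hh₂⟩ := exists_move_in hf (nondeg_blk hs s) hb₁ hb' (hne b hb0) hb'0 (by rw [hb'b', hnb])
  have hG : ((h₁ * h₂ * pm π : GL ι F) : Matrix ι ι F) *ᵥ (a + b) = a' + b' := by
    rw [Units.val_mul, Units.val_mul, ← Matrix.mulVec_mulVec, ← Matrix.mulVec_mulVec, Matrix.mulVec_add, hpm, hpm,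
      Matrix.mulVec_add, hh₂, hm₂.fix _ (fun x hx => orth_blk hs ha₁ hx hrs), Matrix.mulVec_add, hh₁,
      hm₁.fix _ (fun x hx => orth_blk hs hb' hx (Ne.symm hrs))]
  obtain ⟨l, e, he, hee, hec⟩ := hE r s hrs a' ha' b' hb'
  have hiso : IsIso f (h₁ * h₂ * pm π) := (hm₁.iso.mul hm₂.iso).mul (pm_iso' hs π)
  have hr := reach_comp hs hH hiso τ.symm (fun u v hv => by
    rw [Units.val_mul, Units.val_mul, ← Matrix.mulVec_mulVec, ← Matrix.mulVec_mulVec]
    exact isMove_blk hs hm₁ (isMove_blk hs hm₂ (hpb u v hv))) he hee (c := a + b) (by rw [hG]; exact hec)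
  rw [hG] at hr
  exact reach_fwd hf hr hc

/-- From a centre with two non-zero components to a sum of two isotropic vectors in two blocks. -/
theorem exists_s0 (hs : Std σ f) (Q : QF σ q) (hH : OverB f bl H) (hd : ∀ r, 2 ≤ Module.finrank F (blk (F := F) bl r))
    (hex : 3 ≤ q ∨ ∀ r, 3 ≤ Module.finrank F (blk (F := F) bl r)) {c : ι → F} (hc : c ∈ cen hs.uf H) {r s : κ} (hrs : r ≠ s)
    (hr : pr bl r c ≠ 0) (hs' : pr bl s c ≠ 0) :
    ∃ r₀ s₀ a b, r₀ ≠ s₀ ∧ a ∈ blk (F := F) bl r₀ ∧ b ∈ blk (F := F) bl s₀ ∧ a ≠ 0 ∧ b ≠ 0 ∧ f a a = 0 ∧ f b b = 0 ∧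
      a + b ∈ cen hs.uf H := by
  classical
  have hf := hs.uf
  have hcc := cen_iso hc
  have P := UForm.isPolar hf
  -- isotropic vectors with a prescribed value
  have hU : ∀ (u : κ), pr bl u c ≠ 0 → ∀ x : F, x ≠ 0 → ∃ y ∈ blk (F := F) bl u, y ≠ 0 ∧ f y y = 0 ∧ f c y = x := by
    intro u hu x hx
    obtain ⟨y, hy, h1, h2⟩ := exists_iso_form hf (nondeg_blk hs u) (pr_mem u c) hu (hd u) hx
    have h3 : f c y = x := by rw [form_blk hs c hy, h2]
    refine ⟨y, hy, ?_, h1, h3⟩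
    rintro rfl
    rw [P.zero_right] at h3
    exact hx h3.symm
  by_cases hq : 3 ≤ q
  · obtain ⟨x₁, hx₁, hm₁⟩ := exists_ker_notMem Q {0} (by simp; omega)
    simp only [Finset.mem_singleton] at hm₁
    obtain ⟨x₂, hx₂, hm₂⟩ := exists_ker_notMem Q {0, - x₁} (by
      have : ({0, - x₁} : Finset F).card ≤ 2 := Finset.card_le_two
      omega)
    simp only [Finset.mem_insert, Finset.mem_singleton, not_or] at hm₂
    obtain ⟨u₁, hu₁, hu₁0, hn₁, hf₁⟩ := hU r hr x₁ hm₁
    obtain ⟨u₂, hu₂, hu₂0, hn₂, hf₂⟩ := hU s hs' x₂ hm₂.1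
    have hc₁ := cen_blk hs hH hu₁ hn₁
    have hc₂ := cen_blk hs hH hu₂ hn₂
    have h12 : f u₁ u₂ = 0 := orth_blk hs hu₁ hu₂ hrs
    have hr₁ := reach_step hf (v := c) (z := -1) hc₁ hf₁ hm₁ (by
      rw [map_neg, map_one]
      linear_combination -hx₁)
    have hf₂' : f (c + (-1 : F) • u₁) u₂ = x₂ := by
      rw [hf.add_left, hf.smul_left, h12, hf₂]
      ring
    have hr₂ := reach_step hf (v := c + (-1 : F) • u₁) (z := -1) hc₂ hf₂' hm₂.1 (by
      rw [map_neg, map_one]
      linear_combination -hx₂)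
    have hc' := reach_fwd hf (hr₁.trans hr₂) hc
    have hF : f c (c + (-1 : F) • u₁ + (-1 : F) • u₂) = - x₁ - x₂ := by
      rw [UForm.add_right hf, UForm.add_right hf, UForm.smul_right hf, UForm.smul_right hf, hcc, hf₁, hf₂, map_neg, map_one]
      ring
    have hd' := cen_sub hf hc hc' (by
      rw [hF]
      intro h
      apply hm₂.2
      linear_combination -h) (by
      rw [hF, map_sub, map_neg]
      linear_combination -hx₁ - hx₂)
    refine ⟨r, s, u₁, u₂, hrs, hu₁, hu₂, hu₁0, hu₂0, hn₁, hn₂, ?_⟩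
    convert hd' using 1
    funext j
    simp only [Pi.add_apply, Pi.sub_apply, Pi.smul_apply, smul_eq_mul]
    ring
  · have hd3 := hex.resolve_left hq
    obtain ⟨x₁, hx₁0, hx₁⟩ := exists_trace_zero σ hf.ne_refl hf.involutive
    obtain ⟨u₁, hu₁, hu₁0, hn₁, hf₁⟩ := hU r hr x₁ hx₁0
    have hc₁ := cen_blk hs hH hu₁ hn₁
    obtain ⟨w, hw, hw0, hcw, hww, hcw0⟩ := exists_iso_perp3 hf Q (nondeg_blk hs s) (pr_mem s c) hs' (hd3 s)
    have hN : f (pr bl s c + w) (pr bl s c + w) = f (pr bl s c) (pr bl s c) := by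
      have hwc : f w (pr bl s c) = 0 := UForm.refl hf _ _ hcw
      rw [hf.add_left, UForm.add_right hf, UForm.add_right hf, hcw, hwc, hww]
      ring
    obtain ⟨h, hm, hh⟩ := exists_move_in hf (nondeg_blk hs s) (pr_mem s c) (Submodule.add_mem _ (pr_mem s c) hw) hs' hcw0 hN
    obtain ⟨e, he, hee, hec⟩ := exists_aniso_perp3 hf (nondeg_blk hs s) (Submodule.add_mem _ (pr_mem s c) hw) (hd3 s)
    have hrest : (c - pr bl s c) ∈ orth hf (blk (F := F) bl s) := by
      intro x hx
      apply UForm.refl hf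
      rw [P.sub_left, ← form_blk hs c hx, sub_self]
    have hfix : (h : Matrix ι ι F) *ᵥ (c - pr bl s c) = c - pr bl s c := by
      apply hm.fix
      intro x hx
      rw [P.sub_left, ← form_blk hs c hx, sub_self]
    have hac : (h : Matrix ι ι F) *ᵥ c = c + w := by
      have h1 : c = pr bl s c + (c - pr bl s c) := by abel
      rw [h1, Matrix.mulVec_add, hh, hfix]
      simp only [add_sub_cancel]
      abel
    have hr₀ := reach_comp hs hH hm.iso id (fun u v hv => isMove_blk hs hm hv) he hee (c := c) (by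
      have h1 : c + w = (pr bl s c + w) + (c - pr bl s c) := by abel
      rw [hac, h1, hf.add_left, hec, P.sub_left, ← form_blk hs c he, sub_self, add_zero])
    rw [hac] at hr₀
    have hf₁' : f (c + w) u₁ = x₁ := by
      rw [hf.add_left, hf₁, orth_blk hs hw hu₁ (Ne.symm hrs), add_zero]
    have hr₂ := reach_step hf (v := c + w) (z := -1) hc₁ hf₁' hx₁0 (by
      rw [map_neg, map_one]
      linear_combination -hx₁)
    have hc' := reach_fwd hf (hr₀.trans hr₂) hc
    have hcw' : f c w = 0 := by rw [form_blk hs c hw, hcw]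
    have hF : f c (c + w + (-1 : F) • u₁) = - x₁ := by
      rw [UForm.add_right hf, UForm.add_right hf, UForm.smul_right hf, hcc, hcw', hf₁, map_neg, map_one]
      ring
    have hd' := cen_sub hf hc hc' (by
      rw [hF]
      exact neg_ne_zero.mpr hx₁0) (by
      rw [hF, map_neg]
      linear_combination -hx₁)
    refine ⟨r, s, u₁, -w, hrs, hu₁, Submodule.neg_mem _ hw, hu₁0, neg_ne_zero.mpr hw0, hn₁, ?_, ?_⟩
    · rw [P.neg_left, P.neg_right, hww]
      ring
    · convert hd' using 1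
      funext j
      simp only [Pi.add_apply, Pi.sub_apply, Pi.smul_apply, smul_eq_mul, Pi.neg_apply]
      ring

open _root_.Classical in
/-- The blocks in which a vector has a non-zero component. -/
noncomputable def bsup (bl : ι → κ) (v : ι → F) : Finset κ := Finset.univ.filter fun r => pr bl r v ≠ 0

theorem mem_bsup {v : ι → F} {r : κ} : r ∈ bsup bl v ↔ pr bl r v ≠ 0 := by
  simp [bsup]

/-- Killing an isotropic component. -/
theorem kill_iso (hs : Std σ f) (hH0 : ∀ r s, r ≠ s → ∀ a ∈ blk (F := F) bl r, ∀ b ∈ blk (F := F) bl s, a ≠ 0 → b ≠ 0 → f a a = 0 → f b b = 0 →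
      a + b ∈ cen hs.uf H) (hd : ∀ r, 2 ≤ Module.finrank F (blk (F := F) bl r)) {r s : κ} (hrs : r ≠ s) {v : ι → F}
    (hr : pr bl r v ≠ 0) (hs' : pr bl s v ≠ 0) (hn : f (pr bl r v) (pr bl r v) = 0) :
    ∃ v', Reach f H v v' ∧ pr bl r v' = 0 ∧ ∀ l, l ≠ r → l ≠ s → pr bl l v' = pr bl l v := by
  have hf := hs.uf
  have P := UForm.isPolar hf
  obtain ⟨ε, hε0, hε⟩ := exists_trace_zero σ hf.ne_refl hf.involutive
  obtain ⟨y, hy, hyy, hfy⟩ := exists_iso_form hf (nondeg_blk hs s) (pr_mem s v) hs' (hd s) hε0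
  have hy0 : y ≠ 0 := by
    rintro rfl
    rw [P.zero_right] at hfy
    exact hε0 hfy.symm
  have hc := hH0 r s hrs _ (Submodule.neg_mem _ (pr_mem r v)) y hy (neg_ne_zero.mpr hr) hy0 (by
    rw [P.neg_left, P.neg_right, hn]
    ring) hyy
  have hF : f v (- pr bl r v + y) = ε := by
    rw [UForm.add_right hf, P.neg_right, form_blk hs v (pr_mem r v), hn, form_blk hs v hy, hfy]
    ring
  have hrc := reach_step hf (v := v) (z := 1) hc hF hε0 (by
    rw [map_one]
    linear_combination hε)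
  refine ⟨_, hrc, ?_, ?_⟩
  · rw [pr_add, pr_smul, pr_add, pr_neg, pr_of_mem (pr_mem r v), pr_of_mem_ne hy hrs]
    simp
  · intro l h1 h2
    rw [pr_add, pr_smul, pr_add, pr_neg, pr_of_mem_ne (pr_mem r v) h1, pr_of_mem_ne hy h2]
    simp

/-- Making a component isotropic. -/
theorem make_iso (hs : Std σ f) (hH0 : ∀ r s, r ≠ s → ∀ a ∈ blk (F := F) bl r, ∀ b ∈ blk (F := F) bl s, a ≠ 0 → b ≠ 0 → f a a = 0 → f b b = 0 →
      a + b ∈ cen hs.uf H) (hd : ∀ r, 2 ≤ Module.finrank F (blk (F := F) bl r)) {r s : κ} (hrs : r ≠ s) {v : ι → F}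
    (hr : f (pr bl r v) (pr bl r v) ≠ 0) (hs' : pr bl s v ≠ 0) :
    ∃ v', Reach f H v v' ∧ f (pr bl r v') (pr bl r v') = 0 ∧ ∀ l, l ≠ r → l ≠ s → pr bl l v' = pr bl l v := by
  have hf := hs.uf
  have P := UForm.isPolar hf
  have hr0 : pr bl r v ≠ 0 := by
    intro h
    apply hr
    rw [h, P.zero_left]
  obtain ⟨t, ht⟩ : ∃ t, t = f (pr bl r v) (pr bl r v) := ⟨_, rfl⟩
  rw [← ht] at hr
  have htf : σ t = t := by rw [ht, UForm.sigma_self hf]
  obtain ⟨G, hG⟩ := exists_add_sigma_eq σ hf.ne_refl hf.involutive (-t) (by rw [map_neg, htf])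
  have hG0 : G ≠ 0 := by
    rintro rfl
    rw [map_zero, add_zero] at hG
    exact hr (by linear_combination hG)
  obtain ⟨ε, hε0, hε⟩ := exists_trace_zero σ hf.ne_refl hf.involutive
  have hG1 : ε - G ≠ 0 := by
    intro h
    have h1 : ε = G := by linear_combination h
    rw [h1] at hε
    apply hr
    linear_combination hG - hε
  obtain ⟨y₁, hy₁, hn₁, hf₁⟩ := exists_iso_form hf (nondeg_blk hs r) (pr_mem r v) hr0 (hd r) hG0
  obtain ⟨y₂, hy₂, hn₂, hf₂⟩ := exists_iso_form hf (nondeg_blk hs s) (pr_mem s v) hs' (hd s) hG1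
  have hy₁0 : y₁ ≠ 0 := by
    rintro rfl
    rw [P.zero_right] at hf₁
    exact hG0 hf₁.symm
  have hy₂0 : y₂ ≠ 0 := by
    rintro rfl
    rw [P.zero_right] at hf₂
    exact hG1 hf₂.symm
  have hc := hH0 r s hrs y₁ hy₁ y₂ hy₂ hy₁0 hy₂0 hn₁ hn₂
  have hF : f v (y₁ + y₂) = ε := by
    rw [UForm.add_right hf, form_blk hs v hy₁, form_blk hs v hy₂, hf₁, hf₂]
    ring
  have hrc := reach_step hf (v := v) (z := 1) hc hF hε0 (by
    rw [map_one]
    linear_combination hε)
  refine ⟨_, hrc, ?_, ?_⟩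
  · rw [pr_add, pr_smul, pr_add, pr_of_mem hy₁, pr_of_mem_ne hy₂ hrs, add_zero, one_smul, hf.add_left, UForm.add_right hf,
      UForm.add_right hf, hf₁, hn₁, hf.herm y₁, hf₁, ← ht]
    linear_combination hG
  · intro l h1 h2
    rw [pr_add, pr_smul, pr_add, pr_of_mem_ne hy₁ h1, pr_of_mem_ne hy₂ h2]
    simp

/-- All isotropic vectors, by induction on the number of non-zero components. -/
theorem forall_cen (hs : Std σ f) (hH : OverB f bl H)
    (hH0 : ∀ r s, r ≠ s → ∀ a ∈ blk (F := F) bl r, ∀ b ∈ blk (F := F) bl s, a ≠ 0 → b ≠ 0 → f a a = 0 → f b b = 0 →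
      a + b ∈ cen hs.uf H) (hd : ∀ r, 2 ≤ Module.finrank F (blk (F := F) bl r)) (r₀ : κ) :
    ∀ (n : ℕ) (v : ι → F), f v v = 0 → (bsup bl v).card ≤ n → v ∈ cen hs.uf H := by
  have hf := hs.uf
  haveI : Nonempty κ := ⟨r₀⟩
  have hsmall : ∀ v : ι → F, f v v = 0 → (bsup bl v).card ≤ 1 → v ∈ cen hs.uf H := by
    intro v hv hc
    obtain ⟨r, hr⟩ : ∃ r, bsup bl v ⊆ {r} := by
      by_cases hne : (bsup bl v).Nonempty
      · obtain ⟨r, hr⟩ := Finset.card_le_one_iff_subset_singleton.mp hc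
        exact ⟨r, hr⟩
      · rw [Finset.not_nonempty_iff_eq_empty] at hne
        exact ⟨r₀, by simp [hne]⟩
    refine cen_blk hs hH (r := r) (fun j hj => ?_) hv
    rw [apply_eq_pr (bl := bl) v j]
    have : pr bl (bl j) v = 0 := by
      by_contra h
      have := hr (mem_bsup.mpr h)
      exact hj (Finset.mem_singleton.mp this)
    rw [this]
    rfl
  intro n
  induction n with
  | zero =>
    intro v hv hc
    exact hsmall v hv (by omega)
  | succ n ih =>
    intro v hv hc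
    by_cases hc1 : (bsup bl v).card ≤ n
    · exact ih v hv hc1
    by_cases hc2 : (bsup bl v).card ≤ 1
    · exact hsmall v hv hc2
    have hcard : (bsup bl v).card = n + 1 := by omega
    -- a general reduction
    have hred : ∀ w : ι → F, f w w = 0 → ∀ a, a ∈ bsup bl v → pr bl a w = 0 → bsup bl w ⊆ bsup bl v → w ∈ cen hs.uf H := by
      intro w hw a ha h0 hsub
      apply ih w hw
      have hsub' : bsup bl w ⊆ (bsup bl v).erase a := by
        intro l hl
        rw [Finset.mem_erase]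
        refine ⟨?_, hsub hl⟩
        rintro rfl
        exact mem_bsup.mp hl h0
      have := Finset.card_le_card hsub'
      rw [Finset.card_erase_of_mem ha, hcard] at this
      omega
    obtain ⟨r, hr, s, hs', hrs⟩ := Finset.one_lt_card.mp (show 1 < (bsup bl v).card by omega)
    -- first the case of an isotropic component
    have hiso : ∀ w : ι → F, f w w = 0 → bsup bl w ⊆ bsup bl v → pr bl s w ≠ 0 → f (pr bl r w) (pr bl r w) = 0 →
        w ∈ cen hs.uf H := by
      intro w hw hsub hws hwr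
      by_cases hw0 : pr bl r w = 0
      · exact hred w hw r hr hw0 hsub
      · obtain ⟨w', h1, h2, h3⟩ := kill_iso hs hH0 hd hrs hw0 hws hwr
        apply h1.cen hf
        apply hred w' (by rw [h1.norm, hw]) r hr h2
        intro l hl
        by_cases hl1 : l = r
        · rw [hl1]
          exact hr
        · by_cases hl2 : l = s
          · rw [hl2]
            exact hs'
          · rw [mem_bsup, h3 l hl1 hl2] at hl
            exact hsub (mem_bsup.mpr hl)
    by_cases hnr : f (pr bl r v) (pr bl r v) = 0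
    · exact hiso v hv (Finset.Subset.refl _) (mem_bsup.mp hs') hnr
    · obtain ⟨v', h1, h2, h3⟩ := make_iso hs hH0 hd hrs hnr (mem_bsup.mp hs')
      apply h1.cen hf
      have hv' : f v' v' = 0 := by rw [h1.norm, hv]
      have hsub : bsup bl v' ⊆ bsup bl v := by
        intro l hl
        by_cases hl1 : l = r
        · rw [hl1]
          exact hr
        · by_cases hl2 : l = s
          · rw [hl2]
            exact hs'
          · rw [mem_bsup, h3 l hl1 hl2] at hl
            exact mem_bsup.mpr hl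
      by_cases hs0 : pr bl s v' = 0
      · exact hred v' hv' s hs' hs0 hsub
      · exact hiso v' hv' hsub hs0 h2

/-- An isometry not respecting the blocks sends an isotropic vector of a block to a vector with two non-zero components. -/
theorem exists_multi (hs : Std σ f) (Q : QF σ q) (hj : ∀ j : ι, ∃ j', j' ≠ j ∧ bl j' = bl j) (hr : ∀ r : κ, ∃ j, bl j = r)
    {g : GL ι F} (hgi : IsIso f g)
    (hg : ¬ ∃ τ : κ → κ, ∀ r v, v ∈ blk (F := F) bl r → (g : Matrix ι ι F) *ᵥ v ∈ blk (F := F) bl (τ r)) :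
    ∃ r x, x ∈ blk (F := F) bl r ∧ f x x = 0 ∧ ∃ s u, s ≠ u ∧ pr bl s ((g : Matrix ι ι F) *ᵥ x) ≠ 0 ∧
      pr bl u ((g : Matrix ι ι F) *ᵥ x) ≠ 0 := by
  classical
  have hf := hs.uf
  have P := UForm.isPolar hf
  by_contra hcon
  push Not at hcon
  apply hg
  -- every isotropic vector of a block goes to a block
  have hone : ∀ r x, x ∈ blk (F := F) bl r → f x x = 0 → ∃ s, (g : Matrix ι ι F) *ᵥ x ∈ blk (F := F) bl s := by
    intro r x hx hxx
    by_cases h0 : (g : Matrix ι ι F) *ᵥ x = 0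
    · exact ⟨r, by rw [h0]; exact Submodule.zero_mem _⟩
    · obtain ⟨j, hj'⟩ : ∃ j, ((g : Matrix ι ι F) *ᵥ x) j ≠ 0 := by
        by_contra h
        push Not at h
        exact h0 (funext h)
      refine ⟨bl j, fun j' hj'' => ?_⟩
      rw [apply_eq_pr (bl := bl) ((g : Matrix ι ι F) *ᵥ x) j']
      have h1 : pr bl (bl j) ((g : Matrix ι ι F) *ᵥ x) ≠ 0 := by
        intro h
        apply hj'
        rw [apply_eq_pr (bl := bl) ((g : Matrix ι ι F) *ᵥ x) j, h]
        rfl
      rw [hcon r x hx hxx (bl j) (bl j') (Ne.symm hj'') h1]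
      rfl
  have hinj : ∀ x : ι → F, x ≠ 0 → (g : Matrix ι ι F) *ᵥ x ≠ 0 := by
    intro x hx h
    apply hx
    have := inv_mulVec_mulVec g x
    rw [h, Matrix.mulVec_zero] at this
    exact this.symm
  have hconn : ∀ r x y s s', x ∈ blk (F := F) bl r → y ∈ blk (F := F) bl r → f x x = 0 → f y y = 0 → x ≠ 0 → y ≠ 0 →
      (g : Matrix ι ι F) *ᵥ x ∈ blk (F := F) bl s → (g : Matrix ι ι F) *ᵥ y ∈ blk (F := F) bl s' → s = s' := by
    intro r x y s s' hx hy hxx hyy hx0 hy0 hgx hgy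
    by_contra hss
    obtain ⟨l, hl0, hl⟩ : ∃ l : F, l ≠ 0 ∧ f (x + l • y) (x + l • y) = 0 := by
      by_cases hxy : f x y = 0
      · refine ⟨1, one_ne_zero, ?_⟩
        rw [one_smul, hf.add_left, UForm.add_right hf, UForm.add_right hf, hxx, hyy, hxy, UForm.refl hf _ _ hxy]
        ring
      · obtain ⟨ε, hε0, hε⟩ := exists_trace_zero σ hf.ne_refl hf.involutive
        refine ⟨σ (ε / f x y), (map_ne_zero σ).mpr (div_ne_zero hε0 hxy), ?_⟩
        have e1 : σ (ε / f x y) * σ (f x y) = σ ε := by rw [← map_mul, div_mul_cancel₀ _ hxy]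
        have e2 : ε / f x y * f x y = ε := div_mul_cancel₀ _ hxy
        rw [hf.add_left, UForm.add_right hf, UForm.add_right hf, hf.smul_left, hf.smul_left, UForm.smul_right hf,
          UForm.smul_right hf, hxx, hyy, hf.involutive, hf.herm y x]
        linear_combination hε + e1 + e2
    obtain ⟨s'', hs''⟩ := hone r _ (Submodule.add_mem _ hx (Submodule.smul_mem _ l hy)) hl
    rw [Matrix.mulVec_add, Matrix.mulVec_smul] at hs''
    by_cases h1 : s'' = s
    · have h2 : s' ≠ s'' := by rw [h1]; exact Ne.symm hss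
      have h3 := pr_of_mem_ne hs'' h2
      rw [pr_add, pr_smul, pr_of_mem hgy, pr_of_mem_ne hgx (by rw [← h1] at hss; rw [← h1]; exact Ne.symm hss), zero_add] at h3
      rcases smul_eq_zero.mp h3 with h4 | h4
      · exact hl0 h4
      · exact hinj y hy0 h4
    · have h3 := pr_of_mem_ne hs'' (Ne.symm h1)
      rw [pr_add, pr_smul, pr_of_mem hgx, pr_of_mem_ne hgy hss, smul_zero, add_zero] at h3
      exact hinj x hx0 h3
  -- the norm minus one element and the phase
  have hf' := hf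
  obtain ⟨η, hη⟩ := exists_mul_sigma_eq σ hf.ne_refl hf.involutive (-1) (by rw [map_neg, map_one])
    (neg_ne_zero.mpr one_ne_zero)
  have hη0 : η ≠ 0 := by
    rintro rfl
    rw [zero_mul] at hη
    exact neg_ne_zero.mpr one_ne_zero hη.symm
  obtain ⟨ζ, hζ⟩ := exists_U1_notMem Q {1} (by
    have := Q.two_le
    simp
    omega)
  simp only [Finset.mem_singleton] at hζ
  -- isotropic vectors supported on two coordinates of a block
  have hx₀ : ∀ (r : κ) (j j' : ι) (θ : F), θ * σ θ = -1 → j' ≠ j → bl j = r → bl j' = r →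
      (Pi.single j' 1 + θ • Pi.single j 1 : ι → F) ∈ blk (F := F) bl r ∧
      f (Pi.single j' 1 + θ • Pi.single j 1) (Pi.single j' 1 + θ • Pi.single j 1) = 0 ∧
      (Pi.single j' 1 + θ • Pi.single j 1 : ι → F) ≠ 0 := by
    intro r j j' θ hθ hjj hbj hbj'
    refine ⟨Submodule.add_mem _ ?_ (Submodule.smul_mem _ _ ?_), ?_, ?_⟩
    · intro i hi
      refine Pi.single_eq_of_ne ?_ _
      rintro rfl
      exact hi hbj'
    · intro i hi
      refine Pi.single_eq_of_ne ?_ _
      rintro rfl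
      exact hi hbj
    · rw [hf.add_left, UForm.add_right hf, UForm.add_right hf, hf.smul_left, hf.smul_left, UForm.smul_right hf,
        UForm.smul_right hf, form_single_left hs, form_single_left hs, form_single_left hs, form_single_left hs]
      simp only [Pi.single_eq_same, Pi.single_eq_of_ne (Ne.symm hjj), Pi.single_eq_of_ne hjj, map_zero, map_one]
      linear_combination hθ
    · intro h
      have := congrFun h j'
      simp [Pi.single_eq_same, Pi.single_eq_of_ne hjj] at this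
  -- the choice of the target blocks
  have hτ : ∀ r : κ, ∃ s, ∀ y, y ∈ blk (F := F) bl r → f y y = 0 → (g : Matrix ι ι F) *ᵥ y ∈ blk (F := F) bl s := by
    intro r
    obtain ⟨j, hj₁⟩ := hr r
    obtain ⟨j', hj'1, hj'2⟩ := hj j
    obtain ⟨h1, h2, h3⟩ := hx₀ r j j' η hη hj'1 hj₁ (hj'2.trans hj₁)
    obtain ⟨s, hs'⟩ := hone r _ h1 h2
    refine ⟨s, fun y hy hyy => ?_⟩
    by_cases hy0 : y = 0
    · rw [hy0, Matrix.mulVec_zero]
      exact Submodule.zero_mem _
    · obtain ⟨s', hs''⟩ := hone r y hy hyy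
      have := hconn r _ y s s' h1 hy h2 hyy h3 hy0 hs' hs''
      rw [this]
      exact hs''
  choose τ hτ' using hτ
  refine ⟨τ, fun r v hv => ?_⟩
  -- the span argument
  let S : Submodule F (ι → F) := (blk (F := F) bl (τ r)).comap (Matrix.mulVecLin (g : Matrix ι ι F))
  have hS : ∀ y, y ∈ blk (F := F) bl r → f y y = 0 → y ∈ S := fun y hy hyy => by
    rw [Submodule.mem_comap, Matrix.mulVecLin_apply]
    exact hτ' r y hy hyy
  have hsingle : ∀ j, bl j = r → (Pi.single j 1 : ι → F) ∈ S := by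
    intro j hbj
    obtain ⟨j', hj'1, hj'2⟩ := hj j
    have hbj' := hj'2.trans hbj
    have hθ : (ζ.1 * η) * σ (ζ.1 * η) = -1 := by
      rw [map_mul]
      have := ζ.2
      linear_combination (η * σ η) * this + hη
    obtain ⟨h1, h2, -⟩ := hx₀ r j j' η hη hj'1 hbj hbj'
    obtain ⟨h3, h4, -⟩ := hx₀ r j j' (ζ.1 * η) hθ hj'1 hbj hbj'
    have h5 := S.sub_mem (hS _ h1 h2) (hS _ h3 h4)
    have h6 : (Pi.single j' 1 + η • Pi.single j 1 - (Pi.single j' 1 + (ζ.1 * η) • Pi.single j 1) : ι → F) =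
        ((1 - ζ.1) * η) • Pi.single j 1 := by
      funext i
      simp only [Pi.sub_apply, Pi.add_apply, Pi.smul_apply, smul_eq_mul]
      ring
    rw [h6] at h5
    have h7 := S.smul_mem ((1 - ζ.1) * η)⁻¹ h5
    rwa [smul_smul, inv_mul_cancel₀ (mul_ne_zero (sub_ne_zero.mpr (Ne.symm hζ)) hη0), one_smul] at h7
  have hvS : v ∈ S := by
    have hsum : v = ∑ j, v j • (Pi.single j 1 : ι → F) := by
      funext i
      rw [Finset.sum_apply, Finset.sum_eq_single i]
      · simp
      · intro b _ hb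
        simp [Pi.single_apply, Ne.symm hb]
      · simp
    rw [hsum]
    refine S.sum_mem fun j _ => ?_
    by_cases hbj : bl j = r
    · exact S.smul_mem _ (hsingle j hbj)
    · rw [hv j hbj, zero_smul]
      exact S.zero_mem
  rw [Submodule.mem_comap, Matrix.mulVecLin_apply] at hvS
  exact hvS

/-- **The main theorem for blocks of dimension at least two.** -/
theorem main_blk (hs : Std σ f) (Q : QF σ q) (hH : OverB f bl H) {k : ℕ}
    (hk : ∀ r, (Finset.univ.filter fun j => bl j = r).card = k) (hk2 : 2 ≤ k) (hex : 3 ≤ q ∨ 3 ≤ k)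
    (hκ : k = 2 → 3 ≤ Fintype.card κ) {g : GL ι F} (hgH : g ∈ H)
    (hg : ¬ ∃ τ : κ → κ, ∀ r v, v ∈ blk (F := F) bl r → (g : Matrix ι ι F) *ᵥ v ∈ blk (F := F) bl (τ r)) :
    ∀ v : ι → F, f v v = 0 → v ∈ cen hs.uf H := by
  classical
  have hf := hs.uf
  have hfr : ∀ r, k ≤ Module.finrank F (blk (F := F) bl r) := fun r => finrank_blk (hk r)
  have hd : ∀ r, 2 ≤ Module.finrank F (blk (F := F) bl r) := fun r => le_trans hk2 (hfr r)
  have hj : ∀ j : ι, ∃ j', j' ≠ j ∧ bl j' = bl j := by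
    intro j
    have h1 : 1 < (Finset.univ.filter fun j' => bl j' = bl j).card := by
      rw [hk]
      omega
    obtain ⟨a, ha, b, hb, hab⟩ := Finset.one_lt_card.mp h1
    rw [Finset.mem_filter] at ha hb
    by_cases h2 : a = j
    · exact ⟨b, by rw [← h2]; exact Ne.symm hab, hb.2⟩
    · exact ⟨a, h2, ha.2⟩
  have hrr : ∀ r : κ, ∃ j, bl j = r := by
    intro r
    have h1 : 0 < (Finset.univ.filter fun j' => bl j' = r).card := by
      rw [hk]
      omega
    obtain ⟨a, ha⟩ := Finset.card_pos.mp h1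
    rw [Finset.mem_filter] at ha
    exact ⟨a, ha.2⟩
  obtain ⟨r, x, hx, hxx, s, u, hsu, h1, h2⟩ := exists_multi hs Q hj hrr (hH.iso g hgH) hg
  have hc := cen_mulVec (cen_blk hs hH hx hxx) hgH (hH.iso g hgH)
  obtain ⟨r₀, s₀, a, b, hrs₀, ha, hb, ha0, hb0, haa, hbb, hab⟩ := exists_s0 hs Q hH hd (by
    rcases hex with h | h
    · exact Or.inl h
    · exact Or.inr fun r => le_trans h (hfr r)) hc hsu h1 h2
  have hE : ∀ r s, r ≠ s → ∀ a' ∈ blk (F := F) bl r, ∀ b' ∈ blk (F := F) bl s, ∃ l, ∃ e ∈ blk (F := F) bl l, f e e ≠ 0 ∧ f (a' + b') e = 0 := by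
    intro r s hrs a' ha' b' hb'
    by_cases hk3 : 3 ≤ k
    · obtain ⟨e, he, hee, hae⟩ := exists_aniso_perp3 hf (nondeg_blk hs r) ha' (le_trans hk3 (hfr r))
      refine ⟨r, e, he, hee, ?_⟩
      rw [hf.add_left, hae, orth_blk hs hb' he (Ne.symm hrs), add_zero]
    · have hk2' : k = 2 := by omega
      obtain ⟨l, hl⟩ := exists_notMem_finset ({r, s} : Finset κ) (by
        have : ({r, s} : Finset κ).card ≤ 2 := Finset.card_le_two
        have := hκ hk2'
        omega)
      simp only [Finset.mem_insert, Finset.mem_singleton, not_or] at hl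
      obtain ⟨j, hbj⟩ := hrr l
      have hm : (Pi.single j 1 : ι → F) ∈ blk (F := F) bl l := by
        intro i hi
        refine Pi.single_eq_of_ne ?_ _
        rintro rfl
        exact hi hbj
      refine ⟨l, _, hm, ?_, ?_⟩
      · rw [form_single_right hs, Pi.single_eq_same]
        exact one_ne_zero
      · rw [form_single_right hs]
        have h3 : bl j ≠ r := by rw [hbj]; exact hl.1
        have h4 : bl j ≠ s := by rw [hbj]; exact hl.2
        simp only [Pi.add_apply]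
        rw [ha' j h3, hb' j h4, add_zero]
  intro v hv
  exact forall_cen hs hH (fun r s hrs a' ha' b' hb' h3 h4 h5 h6 =>
    cen_s0 hs hH hk hE hrs₀ ha hb ha0 hb0 haa hbb hab hrs ha' hb' h3 h4 h5 h6) hd r _ v hv (Finset.card_le_univ _)

end Cfsg.Agent.Lib.SUMon.Blk
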