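/-
The stabiliser of an orthogonal decomposition is maximal in the special unitary group.
-/
import Cfsg.Agent.Lib.SUMon.Blk
set_option autoImplicit false

namespace Cfsg.Agent.Lib.SUMon.Main

open Cfsg Cfsg.Geo Cfsg.Agent.Lib.Geo.Basic Cfsg.Agent.Lib.Geo.Centres Cfsg.Agent.Lib.Geo.Parabolic
open Cfsg.Agent.Lib.Geo.Polar Cfsg.Agent.Lib.Geo.UnitaryInSL Cfsg.Agent.Lib.Geo.QForm
open Cfsg.Agent.Lib.Geo.SUGen Cfsg.Agent.Lib.Geo.SUBase Cfsg.Agent.Lib.Geo.SUNondeg Cfsg.Agent.Lib.Geo.SUWitt
open Cfsg.Agent.Lib.SLC2.Mono Cfsg.Agent.Lib.SLC2.MonoA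
open Cfsg.Agent.Lib.SUMon.Field Cfsg.Agent.Lib.SUMon.Base Cfsg.Agent.Lib.SUMon.Even Cfsg.Agent.Lib.SUMon.Game
open Cfsg.Agent.Lib.SUMon.GameTwo Cfsg.Agent.Lib.SUMon.Y Cfsg.Agent.Lib.SUMon.Blk
open scoped MatrixGroups Matrix

variable {ι : Type} [Fintype ι] [DecidableEq ι] {F : Type*} [Field F] [Fintype F]
variable {σ : F ≃+* F} {q : ℕ} {f : (ι → F) → (ι → F) → F}

/-- Orthonormal families in a non-degenerate subspace. -/
theorem exists_orthonormal_in (hf : IsUnitaryForm σ f) : ∀ (m : ℕ) (X : Submodule F (ι → F)), IsNondegenerateOn f X →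
    m ≤ Module.finrank F X → ∃ b : Fin m → ι → F, (∀ a, b a ∈ X) ∧ ∀ a a', f (b a) (b a') = if a = a' then 1 else 0 := by
  intro m
  induction m with
  | zero =>
    intro X _ _
    exact ⟨Fin.elim0, fun a => a.elim0, fun a => a.elim0⟩
  | succ m ih =>
    intro X hX hm
    obtain ⟨e, he, hee⟩ := exists_aniso_in hf hX (ne_bot_of_finrank (by omega))
    obtain ⟨e', he', he'e', -⟩ := exists_scale hf he hee (map_one σ) one_ne_zero
    have he'0 : f e' e' ≠ 0 := by
      rw [he'e']
      exact one_ne_zero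
    have hW := perpL_nondeg hf hX he' he'0
    have hrk := perpL_finrank hf (X := X) he'0
    obtain ⟨b, hb, hbb⟩ := ih _ hW (by omega)
    have hb1 : ∀ a, b a ∈ X ∧ f e' (b a) = 0 := fun a => (mem_perpL hf X e' (b a)).mp (hb a)
    refine ⟨Fin.cons e' b, fun a => ?_, fun a a' => ?_⟩
    · refine Fin.cases ?_ (fun i => ?_) a
      · simpa using he'
      · simpa using (hb1 i).1
    · refine Fin.cases ?_ (fun i => ?_) a
      · refine Fin.cases ?_ (fun i' => ?_) a'
        · simpa using he'e'
        · simp only [Fin.cons_zero, Fin.cons_succ]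
          rw [if_neg (Fin.succ_ne_zero i').symm]
          exact (hb1 i').2
      · refine Fin.cases ?_ (fun i' => ?_) a'
        · simp only [Fin.cons_zero, Fin.cons_succ]
          rw [UForm.refl hf _ _ (hb1 i).2]
          simp
        · simp only [Fin.cons_succ, Fin.succ_inj]
          exact hbb i i'

/-- A decomposition into non-degenerate subspaces is the image of coordinate blocks under an isometry. -/
theorem exists_frame_unitary (hs : Std σ f) {t k : ℕ} (D : Fin t → Submodule F (ι → F))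
    (hD : IsNondegenerateMDecomposition f k D) :
    ∃ (bl : ι → Fin t) (P : GL ι F), IsIso f P ∧ (∀ r, (Finset.univ.filter fun j => bl j = r).card = k) ∧
      ∀ r, (blk (F := F) bl r).map (Matrix.toLin' (P : Matrix ι ι F)) = D r := by
  classical
  have hf := hs.uf
  have hdec := hD.decomp
  have hint := DirectSum.isInternal_submodule_of_iSupIndep_of_iSup_eq_top hdec.indep hdec.iSup_eq_top
  let bs : ∀ i, Module.Basis (Fin k) F (D i) := fun i => Module.finBasisOfFinrankEq F (D i) (hdec.finrank_eq i)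
  let B := hint.collectedBasis bs
  have hcard : Fintype.card ι = Fintype.card (Fin t × Fin k) := by
    have h1 := Module.finrank_eq_card_basis B
    simp only [Module.finrank_fintype_fun_eq_card, Fintype.card_fin, Fintype.card_sigma, Finset.sum_const,
      Finset.card_univ, smul_eq_mul] at h1
    simp [h1]
  let e : ι ≃ Fin t × Fin k := Fintype.equivOfCardEq hcard
  have hb : ∀ i, ∃ b : Fin k → ι → F, (∀ a, b a ∈ D i) ∧ ∀ a a', f (b a) (b a') = if a = a' then 1 else 0 :=
    fun i => exists_orthonormal_in hf k (D i) (hD.nondegenerate i) (by rw [hdec.finrank_eq])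
  choose b hb1 hb2 using hb
  let u : ι → ι → F := fun j => b (e j).1 (e j).2
  have hu : ∀ j j', f (u j) (u j') = if j = j' then 1 else 0 := by
    intro j j'
    by_cases h1 : (e j).1 = (e j').1
    · simp only [u]
      rw [h1, hb2]
      by_cases h2 : (e j).2 = (e j').2
      · have : j = j' := e.injective (Prod.ext h1 h2)
        simp [this]
      · have : j ≠ j' := fun h => h2 (by rw [h])
        simp [h2, this]
    · have : j ≠ j' := fun h => h1 (by rw [h])
      rw [if_neg this]
      exact hD.orthogonal _ _ h1 _ (hb1 _ _) _ (hb1 _ _)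
  have huLI : LinearIndependent F u := by
    rw [Fintype.linearIndependent_iff]
    intro g hg j
    have h1 : f (∑ x, g x • u x) (u j) = g j := by
      have h2 : ∀ s : Finset ι, f (∑ x ∈ s, g x • u x) (u j) = ∑ x ∈ s, g x * f (u x) (u j) := by
        intro s
        induction s using Finset.induction_on with
        | empty => simpa using UForm.zero_left hf _
        | insert a s ha ih =>
          rw [Finset.sum_insert ha, Finset.sum_insert ha, hf.add_left, hf.smul_left, ih]
      rw [h2, Finset.sum_eq_single j]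
      · rw [hu, if_pos rfl, mul_one]
      · intro x _ hx
        rw [hu, if_neg hx, mul_zero]
      · simp
    rw [hg, UForm.zero_left hf] at h1
    exact h1.symm
  obtain ⟨P, hP, hPu⟩ := exists_isometry_family hf (fun j => (Pi.single j 1 : ι → F)) u
    (Pi.linearIndependent_single_one ι F) huLI (by
    intro j j'
    rw [form_single_right hs, hu]
    by_cases h : j = j'
    · simp [h]
    · simp [h, Pi.single_eq_of_ne (Ne.symm h)])
  have hcardr : ∀ r, (Finset.univ.filter fun j => (e j).1 = r).card = k := by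
    intro r
    rw [← Fintype.card_subtype]
    have : {j // (e j).1 = r} ≃ Fin k :=
      { toFun := fun j => (e j.1).2
        invFun := fun a => ⟨e.symm (r, a), by simp⟩
        left_inv := by
          rintro ⟨j, rfl⟩
          simp
        right_inv := by
          intro a
          simp }
    rw [Fintype.card_congr this]
    simp
  refine ⟨fun j => (e j).1, P, hP, hcardr, fun r => ?_⟩
  refine Submodule.eq_of_le_of_finrank_le ?_ ?_
  · rintro _ ⟨v, hv, rfl⟩
    rw [Matrix.toLin'_apply]
    have hsum : v = ∑ j, v j • (Pi.single j 1 : ι → F) := by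
      funext i
      rw [Finset.sum_apply, Finset.sum_eq_single i]
      · simp
      · intro c _ hc
        simp [Pi.single_apply, Ne.symm hc]
      · simp
    have h1 : (P : Matrix ι ι F) *ᵥ v = ∑ j, v j • u j := by
      have h2 : (P : Matrix ι ι F) *ᵥ v = Matrix.mulVecLin (P : Matrix ι ι F) v := rfl
      rw [h2]
      conv_lhs => rw [hsum]
      rw [map_sum]
      refine Finset.sum_congr rfl fun j _ => ?_
      rw [map_smul, Matrix.mulVecLin_apply, hPu]
    rw [h1]
    refine Submodule.sum_mem _ fun j _ => ?_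
    by_cases hj : (e j).1 = r
    · rw [← hj]
      exact Submodule.smul_mem _ _ (hb1 _ _)
    · rw [hv j hj, zero_smul]
      exact Submodule.zero_mem _
  · rw [finrank_map_toLin', hdec.finrank_eq]
    exact finrank_blk (hcardr r)

/-- With blocks of size one, monomial matrices respect the blocks. -/
theorem blockMap_of_mono {κ : Type} [Fintype κ] [DecidableEq κ] {bl : ι → κ}
    (hk : ∀ r, (Finset.univ.filter fun j => bl j = r).card = 1) {g : GL ι F} (hg : IsMono (g : Matrix ι ι F)) :
    ∃ τ : κ → κ, ∀ r v, v ∈ blk (F := F) bl r → (g : Matrix ι ι F) *ᵥ v ∈ blk (F := F) bl (τ r) := by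
  classical
  have hex : ∀ r : κ, ∃ j, bl j = r ∧ ∀ j', bl j' = r → j' = j := by
    intro r
    obtain ⟨j, hj⟩ := Finset.card_eq_one.mp (hk r)
    refine ⟨j, ?_, fun j' hj' => ?_⟩
    · have : j ∈ Finset.univ.filter fun j => bl j = r := by
        rw [hj]
        exact Finset.mem_singleton_self j
      exact (Finset.mem_filter.mp this).2
    · have : j' ∈ Finset.univ.filter fun j => bl j = r := Finset.mem_filter.mpr ⟨Finset.mem_univ _, hj'⟩
      rw [hj] at this
      exact Finset.mem_singleton.mp this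
  choose J hJ1 hJ2 using hex
  have hc : ∀ r, ∃ b, ∀ i, i ≠ b → (g : Matrix ι ι F) i (J r) = 0 := fun r => hg (J r)
  choose b hb using hc
  refine ⟨fun r => bl (b r), fun r v hv i hi => ?_⟩
  have hib : i ≠ b r := by
    rintro rfl
    exact hi rfl
  change ∑ j, (g : Matrix ι ι F) i j * v j = 0
  rw [Finset.sum_eq_single (J r)]
  · rw [hb r i hib, zero_mul]
  · intro j _ hj
    have : bl j ≠ r := fun h => hj (hJ2 r j h)
    rw [hv j this, mul_zero]
  · simp

/-- **The stabiliser of an orthogonal decomposition is maximal in the special unitary group.** -/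
theorem max_of_std (hs : Std σ f) (Q : QF σ q) {I : Subgroup (GL ι F)} (S : IsSUGroup hs.uf I)
    (hι : 13 ≤ Fintype.card ι) {t k : ℕ} (D : Fin t → Submodule F (ι → F))
    (hD : IsNondegenerateMDecomposition f k D) (hex : ¬ (k = 2 ∧ q = 2)) :
    IsMaximalIn I (decompositionStabilizer D ⊓ I) := by
  classical
  have hf := hs.uf
  have hdec := hD.decomp
  have hk0 := hdec.pos
  have ht := hdec.two_le
  obtain ⟨bl, P, hP, hcard, hmap⟩ := exists_frame_unitary hs D hD
  have hB1 : ∀ r v, v ∈ blk (F := F) bl r → (P : Matrix ι ι F) *ᵥ v ∈ D r := by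
    intro r v hv
    rw [← hmap r]
    exact ⟨v, hv, rfl⟩
  have hB2 : ∀ r y, y ∈ D r → ((P⁻¹ : GL ι F) : Matrix ι ι F) *ᵥ y ∈ blk (F := F) bl r := by
    intro r y hy
    rw [← hmap r] at hy
    obtain ⟨v, hv, rfl⟩ := hy
    rw [Matrix.toLin'_apply, inv_mulVec_mulVec]
    exact hv
  -- elements of the stabiliser respect the blocks after conjugation
  have hA : ∀ h : GL ι F, h ∈ decompositionStabilizer D → ∃ τ : Fin t → Fin t, ∀ r v, v ∈ blk (F := F) bl r →
      ((P⁻¹ * h * P : GL ι F) : Matrix ι ι F) *ᵥ v ∈ blk (F := F) bl (τ r) := by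
    rintro h ⟨π, hπ⟩
    refine ⟨π, fun r v hv => ?_⟩
    rw [Units.val_mul, Units.val_mul, ← Matrix.mulVec_mulVec, ← Matrix.mulVec_mulVec]
    apply hB2
    rw [← hπ r]
    exact ⟨_, hB1 r v hv, rfl⟩
  have hBB : ∀ g : GL ι F, (∃ τ : Fin t → Fin t, ∀ r v, v ∈ blk (F := F) bl r →
      (g : Matrix ι ι F) *ᵥ v ∈ blk (F := F) bl (τ r)) → P * g * P⁻¹ ∈ decompositionStabilizer D := by
    rintro g ⟨τ, hτ⟩
    have hh : ∀ r, (D r).map (Matrix.toLin' ((P * g * P⁻¹ : GL ι F) : Matrix ι ι F)) = D (τ r) := by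
      intro r
      refine Submodule.eq_of_le_of_finrank_le ?_ ?_
      · rintro _ ⟨y, hy, rfl⟩
        rw [Matrix.toLin'_apply, Units.val_mul, Units.val_mul, ← Matrix.mulVec_mulVec, ← Matrix.mulVec_mulVec]
        exact hB1 _ _ (hτ r _ (hB2 r y hy))
      · rw [finrank_map_toLin', hdec.finrank_eq, hdec.finrank_eq]
    have hinj : Function.Injective τ := by
      intro r s hrs
      by_contra hne
      have h1 : (D r).map (Matrix.toLin' ((P * g * P⁻¹ : GL ι F) : Matrix ι ι F)) =
          (D s).map (Matrix.toLin' ((P * g * P⁻¹ : GL ι F) : Matrix ι ι F)) := by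
        rw [hh, hh, hrs]
      have h2 : D r = D s := by
        have hi : Function.Injective (Matrix.toLin' ((P * g * P⁻¹ : GL ι F) : Matrix ι ι F)) := by
          intro x y hxy
          rw [Matrix.toLin'_apply, Matrix.toLin'_apply] at hxy
          have := congrArg (fun z => ((P * g * P⁻¹ : GL ι F)⁻¹ : GL ι F).1 *ᵥ z) hxy
          simpa only [inv_mulVec_mulVec] using this
        exact Submodule.map_injective_of_injective hi h1
      have h3 : D r ≠ ⊥ := by
        intro h
        have := hdec.finrank_eq r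
        rw [h] at this
        simp at this
        omega
      obtain ⟨w, hw, hw0⟩ := Submodule.exists_mem_ne_zero_of_ne_bot h3
      obtain ⟨⟨x, hx, h4⟩, -⟩ := hD.nondegenerate r w hw hw0
      exact h4 (hD.orthogonal r s hne x hx w (by rw [← h2]; exact hw))
    exact ⟨Equiv.ofBijective τ (Finite.injective_iff_bijective.mp hinj), hh⟩
  -- strictness
  have hlt : decompositionStabilizer D ⊓ I < I := by
    refine lt_of_le_of_ne inf_le_right ?_
    intro he
    have hfib : ∀ r : Fin t, ∃ j, bl j = r := by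
      intro r
      have h1 : 0 < (Finset.univ.filter fun j' => bl j' = r).card := by
        rw [hcard]
        exact hk0
      obtain ⟨a, ha⟩ := Finset.card_pos.mp h1
      exact ⟨a, (Finset.mem_filter.mp ha).2⟩
    obtain ⟨j₂, hj₂⟩ := hfib ⟨0, by omega⟩
    obtain ⟨j₃, hj₃⟩ := hfib ⟨1, by omega⟩
    have hbl : bl j₂ ≠ bl j₃ := by
      rw [hj₂, hj₃]
      simp
    have h23 : j₂ ≠ j₃ := fun h => hbl (by rw [h])
    obtain ⟨j₁, j₄, h14, hj₁, hj₄⟩ := exists_two_notMem ({j₂, j₃} : Finset ι) (by
      have : ({j₂, j₃} : Finset ι).card ≤ 2 := Finset.card_le_two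
      omega)
    simp only [Finset.mem_insert, Finset.mem_singleton, not_or] at hj₁ hj₄
    obtain ⟨η, hη⟩ := exists_mul_sigma_eq σ hf.ne_refl hf.involutive (-1) (by rw [map_neg, map_one])
      (neg_ne_zero.mpr one_ne_zero)
    have hη0 : η ≠ 0 := by
      rintro rfl
      rw [zero_mul] at hη
      exact neg_ne_zero.mpr one_ne_zero hη.symm
    obtain ⟨p, hpd⟩ : ∃ p : ι → F, p = (1 : F) • Pi.single j₁ 1 + η • Pi.single j₂ 1 := ⟨_, rfl⟩
    obtain ⟨p', hpd'⟩ : ∃ p' : ι → F, p' = (1 : F) • Pi.single j₃ 1 + η • Pi.single j₄ 1 := ⟨_, rfl⟩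
    have hp1 : p j₁ = 1 := by rw [hpd, pair_left hj₁.1]
    have hp2 : p j₂ = η := by rw [hpd, pair_right hj₁.1]
    have hp3 : p j₃ = 0 := by rw [hpd, pair_other (Ne.symm hj₁.2) (Ne.symm h23)]
    have hp4 : p j₄ = 0 := by rw [hpd, pair_other (Ne.symm h14) hj₄.1]
    have hp'3 : p' j₃ = 1 := by rw [hpd', pair_left (Ne.symm hj₄.2)]
    have hp'4 : p' j₄ = η := by rw [hpd', pair_right (Ne.symm hj₄.2)]
    have hp'1 : p' j₁ = 0 := by rw [hpd', pair_other hj₁.2 h14]
    have hp'2 : p' j₂ = 0 := by rw [hpd', pair_other h23 (Ne.symm hj₄.1)]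
    have hpp : f p p = 0 := by
      have h1 := form_pair hs p j₁ j₂ 1 η
      rw [← hpd] at h1
      rw [h1, hp1, hp2, map_one]
      linear_combination hη
    have hp'p' : f p' p' = 0 := by
      have h1 := form_pair hs p' j₃ j₄ 1 η
      rw [← hpd'] at h1
      rw [h1, hp'3, hp'4, map_one]
      linear_combination hη
    have hpp' : f p p' = 0 := by
      conv_lhs => rw [hpd', UForm.add_right hf, UForm.smul_right hf, UForm.smul_right hf, form_single_right hs,
        form_single_right hs, hp3, hp4]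
      ring
    have hp'p : f p' p = 0 := UForm.refl hf _ _ hpp'
    have hww : f (p + p') (p + p') = 0 := by
      rw [hf.add_left, UForm.add_right hf, UForm.add_right hf, hpp, hp'p', hpp', hp'p]
      ring
    have hww' : f ((P : Matrix ι ι F) *ᵥ (p + p')) ((P : Matrix ι ι F) *ᵥ (p + p')) = 0 := by
      rw [hP, hww]
    obtain ⟨a, ha0, ha⟩ := exists_trace_zero σ hf.ne_refl hf.involutive
    have hT : uT hf ((P : Matrix ι ι F) *ᵥ (p + p')) a hww' ∈ decompositionStabilizer D ⊓ I := by
      rw [he]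
      exact (S.mem_iff _).mpr ⟨uT_isIso hf _ a _ ha, (mem_specialLinear_iff _).mp (uT_mem hf _ a _ ha).2⟩
    obtain ⟨τ, hτ⟩ := hA _ hT.1
    rw [← conj_uT hf hP (p + p') a hww hww'] at hτ
    have h1 : P⁻¹ * (P * uT hf (p + p') a hww * P⁻¹) * P = uT hf (p + p') a hww := by group
    rw [h1] at hτ
    have hm : (Pi.single j₁ 1 : ι → F) ∈ blk (F := F) bl (bl j₁) := by
      intro i hi
      refine Pi.single_eq_of_ne ?_ _
      rintro rfl
      exact hi rfl
    have h2 := hτ _ _ hm
    rw [uT_mulVec, form_single_left hs] at h2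
    have hval : σ ((p + p') j₁) = 1 := by
      simp only [Pi.add_apply, hp1, hp'1, add_zero, map_one]
    rw [hval, one_smul] at h2
    have h3 : bl j₂ = τ (bl j₁) := by
      by_contra hne
      have h4 := h2 j₂ hne
      simp only [Pi.add_apply, Pi.smul_apply, smul_eq_mul, hp2, hp'2, add_zero] at h4
      rw [Pi.single_eq_of_ne (Ne.symm hj₁.1), zero_add] at h4
      exact mul_ne_zero ha0 hη0 h4
    have h5 : bl j₃ = τ (bl j₁) := by
      by_contra hne
      have h4 := h2 j₃ hne
      simp only [Pi.add_apply, Pi.smul_apply, smul_eq_mul, hp3, hp'3, zero_add, mul_one] at h4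
      rw [Pi.single_eq_of_ne (Ne.symm hj₁.2), zero_add] at h4
      exact ha0 h4
    exact hbl (h3.trans h5.symm)
  refine isMaximalIn_of_forall hlt ?_
  intro M hHM hMI g₀ hgM hgH
  have hg₀S : g₀ ∉ decompositionStabilizer D := fun h => hgH ⟨h, hMI hgM⟩
  -- the conjugate of `M`
  obtain ⟨M', hM'⟩ : ∃ M' : Subgroup (GL ι F), M' = M.comap (MulAut.conj P).toMonoidHom := ⟨_, rfl⟩
  have hmem : ∀ g, g ∈ M' ↔ P * g * P⁻¹ ∈ M := by
    intro g
    rw [hM', Subgroup.mem_comap]
    rfl
  have hdetc : ∀ g : GL ι F, ((P * g * P⁻¹ : GL ι F) : Matrix ι ι F).det = (g : Matrix ι ι F).det := by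
    intro g
    rw [Units.val_mul, Units.val_mul]
    exact Matrix.det_units_conj P _
  have hOB : OverB f bl M' := by
    refine ⟨fun h hh => ?_, fun h hh => ?_, fun g hgi hgd hτ => ?_⟩
    · have h1 := ((S.mem_iff _).mp (hMI ((hmem h).mp hh))).1
      have h2 : IsIso f (P⁻¹ * (P * h * P⁻¹) * P) := (hP.inv.mul h1).mul hP
      have h3 : P⁻¹ * (P * h * P⁻¹) * P = h := by group
      rwa [h3] at h2
    · have h1 := ((S.mem_iff _).mp (hMI ((hmem h).mp hh))).2
      rwa [hdetc] at h1
    · rw [hmem]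
      apply hHM
      refine ⟨hBB g hτ, (S.mem_iff _).mpr ⟨(hP.mul hgi).mul hP.inv, ?_⟩⟩
      rw [hdetc, hgd]
  have hg' : P⁻¹ * g₀ * P ∈ M' := by
    rw [hmem]
    have : P * (P⁻¹ * g₀ * P) * P⁻¹ = g₀ := by group
    rw [this]
    exact hgM
  have hnb : ¬ ∃ τ : Fin t → Fin t, ∀ r v, v ∈ blk (F := F) bl r →
      ((P⁻¹ * g₀ * P : GL ι F) : Matrix ι ι F) *ᵥ v ∈ blk (F := F) bl (τ r) := by
    intro h
    apply hg₀S
    have h1 := hBB _ h
    have : P * (P⁻¹ * g₀ * P) * P⁻¹ = g₀ := by group
    rwa [this] at h1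
  have hq2 := Q.two_le
  have hall : ∀ v : ι → F, f v v = 0 → v ∈ cen hf M' := by
    by_cases hk1 : k = 1
    · subst hk1
      have hOver : Over f M' := by
        refine ⟨hOB.iso, hOB.det, fun g hgi hgd hgm => hOB.stab g hgi hgd (blockMap_of_mono hcard hgm)⟩
      have hnm : ¬ IsMono ((P⁻¹ * g₀ * P : GL ι F) : Matrix ι ι F) := fun h => hnb (blockMap_of_mono hcard h)
      by_cases hq : q = 2
      · subst hq
        exact main_two hs Q hOver hι hg' hnm
      · exact main_large hs Q hOver (by omega) hι hg' hnm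
    · have hk2 : 2 ≤ k := by omega
      have hn : Fintype.card ι = t * k := by
        have h1 : ∀ r ∈ (Finset.univ : Finset (Fin t)), (Finset.univ.filter fun j => bl j = r).card = k := fun r _ => hcard r
        have h2 := Finset.card_eq_sum_card_fiberwise (s := (Finset.univ : Finset ι)) (t := (Finset.univ : Finset (Fin t)))
          (f := bl) (fun x _ => Finset.mem_univ _)
        rw [Finset.sum_congr rfl h1] at h2
        simpa using h2
      refine main_blk hs Q hOB hcard hk2 ?_ ?_ hg' hnb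
      · by_cases h3 : 3 ≤ k
        · exact Or.inr h3
        · left
          have : k = 2 := by omega
          have : q ≠ 2 := fun h => hex ⟨this, h⟩
          omega
      · intro h3
        subst h3
        rw [Fintype.card_fin]
        omega
  apply S.gen
  intro w a hw ha
  obtain ⟨v, rfl⟩ : ∃ v, (P : Matrix ι ι F) *ᵥ v = w := ⟨((P⁻¹ : GL ι F) : Matrix ι ι F) *ᵥ w, mulVec_inv_mulVec P w⟩
  have hv : f v v = 0 := by
    rw [← hP v v]
    exact hw
  have h1 := cen_mem (hall v hv) hv a ha
  rw [hmem, conj_uT hf hP v a hv hw] at h1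
  exact h1

end Cfsg.Agent.Lib.SUMon.Main
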